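import Cfsg.Agent.Lib.Block.Kern
import Cfsg.Agent.Lib.Block.Sec

/-! # Principal block column identities -/

set_option autoImplicit false
set_option linter.unusedSectionVars false
set_option linter.unusedVariables false

namespace CfsgLib.Block

open Cfsg CfsgLib.Char
open scoped ComplexConjugate Pointwise

universe u

section Col

variable {G : Type u} [Group G] [Fintype G] {p : ℕ} [hp : Fact p.Prime] {M : Ideal AlgInt}

theorem isPPart_self' {y : G} {k : ℕ} (hy : orderOf y = p ^ k) : IsPPart p y y :=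
  ⟨1, by simp, Commute.one_right y, ⟨k, hy⟩, by
    rw [orderOf_one]
    exact fun h => hp.out.one_lt.ne' (Nat.dvd_one.1 h)⟩

open Classical in
/-- The column kernel of the principal block. -/
noncomputable def Kp (M : Ideal AlgInt) (y z : G) : ℂ :=
  ∑ χ : IrrCharacter G, if χ ∈ principalBlock M G then conj ((χ : G → ℂ) y) * (χ : G → ℂ) z else 0

theorem Kp_eq_zero (hM : IsPModular p M) {y z : G} {k l : ℕ} (hy : orderOf y = p ^ k) (hz : orderOf z = p ^ l)
    (hne : ¬ IsConj z y) : Kp M y z = 0 := by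
  classical
  have h := block_orthogonality hM (B := principalBlock M G) ⟨oneIrr _, rfl⟩ (isPPart_self' hz) (isPPart_self' hy) hne
  rw [← h, Kp]
  refine Finset.sum_congr rfl fun χ _ => ?_
  split_ifs
  · ring
  · rfl

theorem Kp_conj {y z : G} (h : IsConj y z) : Kp M y z = Kp M y y := by
  classical
  rw [Kp, Kp]
  refine Finset.sum_congr rfl fun χ _ => ?_
  obtain ⟨c, hc⟩ := isConj_iff.1 h
  rw [← hc, χ.2.isClassFunction]

theorem rat_finsum_cast {H : Type u} [Group H] [Fintype H] (B : Set (IrrCharacter H)) (f : IrrCharacter H → ℚ)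
    [DecidablePred (· ∈ B)] :
    ((∑ᶠ χ ∈ B, f χ : ℚ) : ℂ) = ∑ χ : IrrCharacter H, if χ ∈ B then (f χ : ℂ) else 0 := by
  classical
  rw [finsum_mem_eq_finite_toFinset_sum _ (Set.toFinite B)]
  have h1 : (Set.toFinite B).toFinset = Finset.univ.filter (· ∈ B) := by
    ext; simp
  rw [h1, Finset.sum_filter]
  push_cast
  refine Finset.sum_congr rfl fun χ _ => ?_
  split_ifs <;> simp

theorem Kp_self (hM : IsPModular p M) {y : G} {k : ℕ} (hy : orderOf y = p ^ k) :
    letI : Fintype (Subgroup.centralizer ({y} : Set G)) := Fintype.ofFinite _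
    Kp M y y = ((∑ᶠ ψ ∈ principalBlock M (Subgroup.centralizer ({y} : Set G)),
      charDegree (ψ : Subgroup.centralizer ({y} : Set G) → ℂ) ^ 2 : ℚ) : ℂ) := by
  classical
  letI : Fintype (Subgroup.centralizer ({y} : Set G)) := Fintype.ofFinite _
  have h1 := section_norm_sum hM y hy (1 : Subgroup.centralizer ({y} : Set G)) (by
    rw [orderOf_one]
    exact fun h => hp.out.one_lt.ne' (Nat.dvd_one.1 h))
  have h2 : (y * ((1 : Subgroup.centralizer ({y} : Set G)) : G)) = y := by simp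
  rw [h2] at h1
  rw [Kp, h1, rat_finsum_cast]
  refine Finset.sum_congr rfl fun ψ _ => ?_
  split_ifs
  · have h3 := coe_charDegree (ψ : IrrCharacter (Subgroup.centralizer ({y} : Set G))).2.isCharacter
    push_cast
    rw [← h3, Complex.conj_natCast, sq]
  · rfl

end Col

section Main

variable {G : Type u} [Group G] [Fintype G] {p : ℕ} [hp : Fact p.Prime] {M : Ideal AlgInt} (hM : IsPModular p M)
include hM

theorem card_fiber_conj {N : Subgroup G} [Fintype N] {y : G} [Fintype (N ⊓ Subgroup.centralizer ({y} : Set G) : Subgroup G)]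
    {n : G} (hn : n ∈ N) (z : G) (hz : n * y * n⁻¹ = z) [DecidableEq G] :
    (Finset.univ.filter (fun x : N => (x : G) * y * (x : G)⁻¹ = z)).card = Nat.card (N ⊓ Subgroup.centralizer ({y} : Set G) : Subgroup G) := by
  classical
  rw [Nat.card_eq_fintype_card, ← Finset.card_univ]
  have hc : ∀ x : N, (x : G) * y * (x : G)⁻¹ = z → n⁻¹ * (x : G) ∈ (N ⊓ Subgroup.centralizer ({y} : Set G) : Subgroup G) := by
    intro x hx
    refine Subgroup.mem_inf.2 ⟨N.mul_mem (N.inv_mem hn) x.2, Subgroup.mem_centralizer_singleton_iff.2 ?_⟩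
    have h1 : (x : G) * y = z * (x : G) := by rw [← hx]; group
    have h2 : n⁻¹ * z = y * n⁻¹ := by rw [← hz]; group
    calc n⁻¹ * (x : G) * y = n⁻¹ * ((x : G) * y) := by group
      _ = n⁻¹ * (z * (x : G)) := by rw [h1]
      _ = (n⁻¹ * z) * (x : G) := by group
      _ = y * (n⁻¹ * (x : G)) := by rw [h2]; group
  refine Finset.card_bij' (fun x hx => ⟨n⁻¹ * (x : G), hc x (Finset.mem_filter.1 hx).2⟩)
    (fun c _ => ⟨n * (c : G), N.mul_mem hn (Subgroup.mem_inf.1 c.2).1⟩) (fun _ _ => Finset.mem_univ _) ?_ ?_ ?_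
  · intro c _
    refine Finset.mem_filter.2 ⟨Finset.mem_univ _, ?_⟩
    have h1 : (c : G) * y = y * (c : G) := Subgroup.mem_centralizer_singleton_iff.1 (Subgroup.mem_inf.1 c.2).2
    show n * (c : G) * y * (n * (c : G))⁻¹ = z
    rw [← hz]
    calc n * (c : G) * y * (n * (c : G))⁻¹ = n * ((c : G) * y) * (c : G)⁻¹ * n⁻¹ := by group
      _ = n * (y * (c : G)) * (c : G)⁻¹ * n⁻¹ := by rw [h1]
      _ = n * y * n⁻¹ := by group
  · intro x _
    apply Subtype.ext
    show n * (n⁻¹ * (x : G)) = x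
    group
  · intro c _
    apply Subtype.ext
    show n⁻¹ * (n * (c : G)) = c
    group

/-- **S4720** -/
theorem s4720 {P : Subgroup G} (hP : IsPGroup p P) {N : Subgroup G} (hPN : P ≤ N)
    (hNN : N ≤ Subgroup.normalizer (P : Set G)) {U : Set G} (hUP : U ⊆ (P : Set G))
    (hfus : ∀ u ∈ U, ∀ g : G, g * u * g⁻¹ ∈ (P : Set G) → ∃ n ∈ N, n * u * n⁻¹ = g * u * g⁻¹) (w : ℚ)
    (hw : ∀ y ∈ U, ((∑ᶠ ψ ∈ principalBlock M ↥(Subgroup.centralizer ({y} : Set G)),
      charDegree (ψ : ↥(Subgroup.centralizer ({y} : Set G)) → ℂ) ^ 2) : ℚ) = w * Nat.card ↥(N ⊓ Subgroup.centralizer ({y} : Set G)))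
    (θ η : ↥P → ℂ) (hθU : ∀ y : ↥P, (y : G) ∉ U → θ y = 0) :
    ∑ᶠ χ ∈ principalBlock M G, ((Nat.card ↥P : ℂ)⁻¹ * ∑ᶠ y : ↥P, (χ : G → ℂ) (y : G) * θ y⁻¹) *
      (starRingEnd ℂ) ((Nat.card ↥P : ℂ)⁻¹ * ∑ᶠ y : ↥P, (χ : G → ℂ) (y : G) * η y⁻¹) =
    ((w : ℂ) / ((Nat.card ↥P : ℂ) ^ 2)) * ∑ᶠ y : ↥P, θ y * (starRingEnd ℂ) (∑ᶠ x : ↥N, extendByZero P η ((x : G) * (y : G) * (x : G)⁻¹)) := by
  classical
  letI : Fintype P := Fintype.ofFinite _
  letI : Fintype N := Fintype.ofFinite _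
  set c : ℂ := (Nat.card ↥P : ℂ)⁻¹ with hc
  have hcr : conj c = c := by
    rw [hc, map_inv₀, Complex.conj_natCast]
  have hA : ∀ χ : IrrCharacter G, ∀ ν : ↥P → ℂ, ∑ᶠ y : ↥P, (χ : G → ℂ) (y : G) * ν y⁻¹ = ∑ y : ↥P, conj ((χ : G → ℂ) (y : G)) * ν y := by
    intro χ ν
    rw [finsum_eq_sum_of_fintype]
    refine Fintype.sum_equiv (Equiv.inv ↥P) _ _ fun y => ?_
    simp only [Equiv.inv_apply, inv_inv]
    congr 1
    rw [Subgroup.coe_inv, χ.2.map_inv, Complex.conj_conj]
  have hLHS : ∑ᶠ χ ∈ principalBlock M G, ((Nat.card ↥P : ℂ)⁻¹ * ∑ᶠ y : ↥P, (χ : G → ℂ) (y : G) * θ y⁻¹) *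
      (starRingEnd ℂ) ((Nat.card ↥P : ℂ)⁻¹ * ∑ᶠ y : ↥P, (χ : G → ℂ) (y : G) * η y⁻¹) =
      c ^ 2 * ∑ y : ↥P, θ y * ∑ z : ↥P, conj (η z) * Kp M (y : G) (z : G) := by
    rw [finsum_mem_eq_sum_ite]
    have h1 : ∀ χ : IrrCharacter G, (if χ ∈ principalBlock M G then ((Nat.card ↥P : ℂ)⁻¹ * ∑ᶠ y : ↥P, (χ : G → ℂ) (y : G) * θ y⁻¹) *
        (starRingEnd ℂ) ((Nat.card ↥P : ℂ)⁻¹ * ∑ᶠ y : ↥P, (χ : G → ℂ) (y : G) * η y⁻¹) else 0) =
        c ^ 2 * ∑ y : ↥P, θ y * ∑ z : ↥P, conj (η z) * (if χ ∈ principalBlock M G then conj ((χ : G → ℂ) (y : G)) * (χ : G → ℂ) (z : G) else 0) := by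
      intro χ
      by_cases hχ : χ ∈ principalBlock M G
      · simp only [if_pos hχ]
        rw [hA, hA, ← hc, map_mul, hcr, map_sum]
        simp only [map_mul, Complex.conj_conj]
        rw [mul_mul_mul_comm, sq, Finset.sum_mul_sum]
        congr 1
        refine Finset.sum_congr rfl fun y _ => ?_
        rw [Finset.mul_sum]
        refine Finset.sum_congr rfl fun z _ => ?_
        ring
      · simp [if_neg hχ]
    simp only [h1]
    rw [← Finset.mul_sum]
    congr 1
    rw [Finset.sum_comm]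
    refine Finset.sum_congr rfl fun y _ => ?_
    rw [← Finset.mul_sum]
    congr 1
    rw [Finset.sum_comm]
    refine Finset.sum_congr rfl fun z _ => ?_
    rw [← Finset.mul_sum, Kp]
  -- the key computation
  have hkey : ∀ y : ↥P, (y : G) ∈ U → ∑ z : ↥P, conj (η z) * Kp M (y : G) (z : G) =
      (w : ℂ) * conj (∑ᶠ x : ↥N, extendByZero P η ((x : G) * (y : G) * (x : G)⁻¹)) := by
    intro y hy
    obtain ⟨k, hk⟩ := (IsPGroup.iff_orderOf.1 hP) y
    have hy' : orderOf (y : G) = p ^ k := by rw [Subgroup.orderOf_coe]; exact hk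
    rw [finsum_eq_sum_of_fintype]
    have hφ : ∀ x : N, (x : G) * (y : G) * (x : G)⁻¹ ∈ P := fun x =>
      (Subgroup.mem_normalizer_iff.1 (hNN x.2) y).1 y.2
    have hext : ∀ x : N, extendByZero P η ((x : G) * (y : G) * (x : G)⁻¹) = η ⟨_, hφ x⟩ := by
      intro x
      exact Subtype.val_injective.extend_apply η 0 (⟨_, hφ x⟩ : P)
    let F : P → ℕ := fun z => (Finset.univ.filter (fun x : N => (x : G) * (y : G) * (x : G)⁻¹ = (z : G))).card
    have hsum : ∑ x : N, extendByZero P η ((x : G) * (y : G) * (x : G)⁻¹) = ∑ z : P, (F z : ℂ) * η z := by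
      have h3 : ∀ z : P, (F z : ℂ) * η z = ∑ x : N, if (x : G) * (y : G) * (x : G)⁻¹ = (z : G) then η z else 0 := by
        intro z
        rw [← Finset.sum_filter, Finset.sum_const, nsmul_eq_mul]
      simp only [h3]
      rw [Finset.sum_comm]
      refine Finset.sum_congr rfl fun x _ => ?_
      rw [hext, Finset.sum_eq_single (⟨_, hφ x⟩ : P)]
      · rw [if_pos rfl]
      · intro z _ hz
        rw [if_neg]
        intro h
        exact hz (Subtype.ext h.symm)
      · intro h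
        exact absurd (Finset.mem_univ _) h
    have hK : ∀ z : P, Kp M (y : G) (z : G) = (w : ℂ) * (F z : ℂ) := by
      intro z
      obtain ⟨l, hl⟩ := (IsPGroup.iff_orderOf.1 hP) z
      have hz' : orderOf (z : G) = p ^ l := by rw [Subgroup.orderOf_coe]; exact hl
      by_cases hcj : IsConj (z : G) (y : G)
      · obtain ⟨g, hg⟩ := isConj_iff.1 hcj.symm
        obtain ⟨n, hn, hn'⟩ := hfus y hy g (by rw [hg]; exact z.2)
        have h5 : (F z : ℂ) = (Nat.card ↥(N ⊓ Subgroup.centralizer ({(y : G)} : Set G)) : ℂ) := by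
          letI : Fintype ↥(N ⊓ Subgroup.centralizer ({(y : G)} : Set G)) := Fintype.ofFinite _
          have := card_fiber_conj hM hn (z : G) (hn'.trans hg)
          exact_mod_cast this
        rw [Kp_conj hcj.symm, Kp_self hM hy', hw y hy, h5]
        push_cast
        rfl
      · rw [Kp_eq_zero hM hy' hz' hcj]
        have h5 : F z = 0 := by
          apply Finset.card_eq_zero.2
          apply Finset.filter_eq_empty_iff.2
          intro x _ hx
          exact hcj (IsConj.symm (isConj_iff.2 ⟨(x : G), hx⟩))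
        rw [h5]
        simp
    rw [hsum, map_sum, Finset.mul_sum]
    refine Finset.sum_congr rfl fun z _ => ?_
    rw [hK, map_mul, Complex.conj_natCast]
    ring
  rw [hLHS, finsum_eq_sum_of_fintype]
  have h2 : (w : ℂ) / ((Nat.card ↥P : ℂ) ^ 2) = c ^ 2 * (w : ℂ) := by
    rw [hc]
    field_simp
  rw [h2, mul_assoc]
  congr 1
  rw [Finset.mul_sum]
  refine Finset.sum_congr rfl fun y _ => ?_
  by_cases hy : (y : G) ∈ U
  · rw [hkey y hy]
    ring
  · rw [hθU y hy]
    ring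

end Main

end CfsgLib.Block
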