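import Cfsg.Agent.Lib.Block.Dade

/-! # Principal 2-block column vanishing -/

set_option autoImplicit false
set_option linter.unusedSectionVars false
set_option linter.unusedVariables false

namespace CfsgLib.Block

open Cfsg CfsgLib.Char
open scoped ComplexConjugate Pointwise

universe u

/-- The positivity argument. -/
theorem abs_lemma {ι : Type*} (S : Finset ι) (x d τ : ι → ℝ) (hd : ∀ i ∈ S, 0 < d i)
    (R1 : ∑ i ∈ S, x i * (τ i ^ 2 / d i) = 0) (R2 : ∑ i ∈ S, x i * d i = 0) (R3 : ∑ i ∈ S, x i * τ i = 0)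
    {i₁ : ι} (hi₁ : i₁ ∈ S) (h : ∀ i ∈ S, i ≠ i₁ → 0 ≤ x i) :
    ∀ i ∈ S, x i ≠ 0 → τ i * d i₁ = τ i₁ * d i := by
  classical
  set κ : ℝ := τ i₁ / d i₁ with hκ
  have hd₁ := hd i₁ hi₁
  have hκ₁ : τ i₁ - κ * d i₁ = 0 := by
    rw [hκ]
    field_simp
    ring
  have hQ : ∑ i ∈ S, x i * ((τ i - κ * d i) ^ 2 / d i) = 0 := by
    have h1 : ∀ i ∈ S, x i * ((τ i - κ * d i) ^ 2 / d i) = x i * (τ i ^ 2 / d i) - 2 * κ * (x i * τ i) + κ ^ 2 * (x i * d i) := by
      intro i hi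
      have := (hd i hi).ne'
      field_simp
      ring
    rw [Finset.sum_congr rfl h1, Finset.sum_add_distrib, Finset.sum_sub_distrib, ← Finset.mul_sum, ← Finset.mul_sum, R1, R2, R3]
    ring
  have hnn : ∀ i ∈ S, 0 ≤ x i * ((τ i - κ * d i) ^ 2 / d i) := by
    intro i hi
    by_cases hii : i = i₁
    · subst hii
      rw [hκ₁]
      simp
    · exact mul_nonneg (h i hi hii) (div_nonneg (sq_nonneg _) (hd i hi).le)
  have hz := (Finset.sum_eq_zero_iff_of_nonneg hnn).1 hQ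
  intro i hi hx
  have h2 := hz i hi
  have h3 : (τ i - κ * d i) ^ 2 / d i = 0 := by
    rcases mul_eq_zero.1 h2 with h4 | h4
    · exact absurd h4 hx
    · exact h4
  have h4 : (τ i - κ * d i) ^ 2 = 0 := by
    rcases div_eq_zero_iff.1 h3 with h5 | h5
    · exact h5
    · exact absurd h5 (hd i hi).ne'
  have h5 : τ i - κ * d i = 0 := pow_eq_zero_iff (two_ne_zero) |>.1 h4
  have h6 : τ i = κ * d i := by linarith
  rw [h6, hκ]
  field_simp

section Main

variable {G : Type u} [Group G] [Fintype G] {M : Ideal AlgInt} (hM : IsPModular 2 M)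
include hM

/-- The product of two conjugates of `t` does not lie in a section of `y⁻¹`. -/
theorem coeff_cSum_sq_eq_zero {t y u z : G} (ht : orderOf t = 2)
    (hinv : ∀ g : G, (g * t * g⁻¹) * y * (g * t * g⁻¹)⁻¹ ≠ y⁻¹) (huz : IsPPart 2 u z) (hz : IsConj y⁻¹ z) :
    (cSum t * cSum t).coeff u = 0 := by
  classical
  have ht2 : t * t = 1 := by
    have := pow_orderOf_eq_one t
    rw [ht, pow_two] at this
    exact this
  rw [coeff_mul_sum']
  refine Finset.sum_eq_zero fun v _ => ?_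
  by_cases hv : IsConj v t
  · by_cases hw : IsConj (u * v⁻¹) t
    · exfalso
      obtain ⟨k, hk⟩ := isConj_iff.1 hw.symm
      obtain ⟨k₂, hk₂⟩ := isConj_iff.1 hv.symm
      generalize ht₁ : u * v⁻¹ = t₁ at hk
      have h1 : t₁ * t₁ = 1 := by
        rw [← hk]
        calc k * t * k⁻¹ * (k * t * k⁻¹) = k * (t * t) * k⁻¹ := by group
          _ = 1 := by rw [ht2]; group
      have h2 : v * v = 1 := by
        rw [← hk₂]
        calc k₂ * t * k₂⁻¹ * (k₂ * t * k₂⁻¹) = k₂ * (t * t) * k₂⁻¹ := by group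
          _ = 1 := by rw [ht2]; group
      have hu : u = t₁ * v := by rw [← ht₁]; group
      have h1i : t₁⁻¹ = t₁ := inv_eq_of_mul_eq_one_left h1
      have h2i : v⁻¹ = v := inv_eq_of_mul_eq_one_left h2
      have hinvu : t₁ * u * t₁⁻¹ = u⁻¹ := by
        rw [hu, mul_inv_rev, h1i, h2i]
        calc t₁ * (t₁ * v) * t₁ = (t₁ * t₁) * v * t₁ := by group
          _ = v * t₁ := by rw [h1]; group
      obtain ⟨n, hn⟩ := isPPart_zpow Nat.prime_two huz
      have hinvz : t₁ * z * t₁⁻¹ = z⁻¹ := by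
        rw [← hn, ← conj_zpow, hinvu, inv_zpow]
      obtain ⟨h, hh⟩ := isConj_iff.1 hz
      apply hinv (h⁻¹ * k)
      have e1 : (h⁻¹ * k) * t * (h⁻¹ * k)⁻¹ = h⁻¹ * t₁ * h := by
        rw [← hk]
        group
      rw [e1]
      have e2 : (h⁻¹ * t₁ * h) * y⁻¹ * (h⁻¹ * t₁ * h)⁻¹ = y := by
        calc (h⁻¹ * t₁ * h) * y⁻¹ * (h⁻¹ * t₁ * h)⁻¹ = h⁻¹ * (t₁ * (h * y⁻¹ * h⁻¹) * t₁⁻¹) * h := by group
          _ = h⁻¹ * z⁻¹ * h := by rw [hh, hinvz]
          _ = y := by rw [← hh]; group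
      have e3 := congrArg (fun w => w⁻¹) e2
      simp only [mul_inv_rev, inv_inv] at e3 ⊢
      rw [← e3]
      group
    · rw [coeff_cSum, if_neg hw, zero_mul]
  · rw [coeff_cSum t v, if_neg hv, mul_zero]

open Classical in
/-- The sum over the whole group of irreducible characters. -/
theorem sum_irr_eq_zero {t u : G} (ht : orderOf t = 2) (h : (cSum t * cSum t).coeff u = 0) :
    ∑ χ : IrrCharacter G, ((χ : G → ℂ) t ^ 2 / (χ : G → ℂ) 1) * (χ : G → ℂ) u = 0 := by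
  have hcc : IsCent (cSum t * cSum t) := (isCent_cSum t).mul (isCent_cSum t)
  have h1 := congrArg (fun w => w.coeff u) (fourier hcc)
  simp only [coeff_sum', coeff_smul', coeff_eChi] at h1
  rw [h] at h1
  have ht1 : t⁻¹ = t := by
    apply inv_eq_of_mul_eq_one_left
    have := pow_orderOf_eq_one t
    rw [ht, pow_two] at this
    exact this
  have hreal : ∀ χ : IrrCharacter G, conj ((χ : G → ℂ) t) = (χ : G → ℂ) t := by
    intro χ
    rw [← χ.2.map_inv, ht1]
  have hidx : ((Subgroup.centralizer ({t} : Set G)).index : ℂ) ≠ 0 := by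
    exact_mod_cast Subgroup.index_ne_zero_of_finite
  have hG : (Nat.card G : ℂ) ≠ 0 := card_ne_zero_C G
  have h2 : ∀ χ : IrrCharacter G, om (χ : G → ℂ) (cSum t * cSum t) * ((χ : G → ℂ) 1 / (Nat.card G : ℂ) * conj ((χ : G → ℂ) u)) =
      (((Subgroup.centralizer ({t} : Set G)).index : ℂ) ^ 2 / (Nat.card G : ℂ)) *
        conj (((χ : G → ℂ) t ^ 2 / (χ : G → ℂ) 1) * (χ : G → ℂ) u) := by
    intro χ
    have h3 := χ.2.map_one_ne_zero
    have h4 : conj ((χ : G → ℂ) 1) = (χ : G → ℂ) 1 := by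
      rw [← χ.2.map_inv, inv_one]
    rw [om_mul_of_cent χ.2 (isCent_cSum t), om_cSum χ.2, centralChar]
    rw [map_mul, map_div₀, map_pow, hreal, h4]
    field_simp
  simp only [h2] at h1
  rw [← Finset.mul_sum, ← map_sum] at h1
  have h5 := (mul_eq_zero.1 h1.symm).resolve_left (div_ne_zero (pow_ne_zero 2 hidx) hG)
  exact (map_eq_zero _).1 h5

end Main

section Main2

variable {G : Type u} [Group G] [Fintype G] {M : Ideal AlgInt} (hM : IsPModular 2 M)
include hM

/-- **S4722** -/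
theorem s4722 {P : Subgroup G} (hP : IsPGroup 2 P) {U : Set G} (hUP : U ⊆ (P : Set G)) {t : G} (ht : orderOf t = 2)
    (hinv : ∀ u ∈ U, ∀ g : G, (g * t * g⁻¹) * u * (g * t * g⁻¹)⁻¹ ≠ u⁻¹) (θ : ↥P → ℂ) (hθ : IsGeneralizedCharacter ↥P θ)
    (hθU : ∀ y : ↥P, (y : G) ∉ U → θ y = 0) :
    (∑ᶠ χ ∈ principalBlock M G, ((Nat.card ↥P : ℂ)⁻¹ * ∑ᶠ y : ↥P, (χ : G → ℂ) (y : G) * θ y⁻¹) * (χ : G → ℂ) t ^ 2 / (χ : G → ℂ) 1 = 0) ∧
    (∑ᶠ χ ∈ principalBlock M G, ((Nat.card ↥P : ℂ)⁻¹ * ∑ᶠ y : ↥P, (χ : G → ℂ) (y : G) * θ y⁻¹) * (χ : G → ℂ) 1 = 0) ∧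
    (∑ᶠ χ ∈ principalBlock M G, ((Nat.card ↥P : ℂ)⁻¹ * ∑ᶠ y : ↥P, (χ : G → ℂ) (y : G) * θ y⁻¹) * (χ : G → ℂ) t = 0) ∧
    ((Nat.card ↥P : ℂ)⁻¹ * ∑ᶠ y : ↥P, θ y ≠ 0 →
      (2 ≤ Nat.card {χ : IrrCharacter G // χ ∈ principalBlock M G ∧ 0 < (((Nat.card ↥P : ℂ)⁻¹ * ∑ᶠ y : ↥P, (χ : G → ℂ) (y : G) * θ y⁻¹)).re} ∧
       2 ≤ Nat.card {χ : IrrCharacter G // χ ∈ principalBlock M G ∧ (((Nat.card ↥P : ℂ)⁻¹ * ∑ᶠ y : ↥P, (χ : G → ℂ) (y : G) * θ y⁻¹)).re < 0}) ∨
      ∃ K : Subgroup G, K.Normal ∧ K ≠ ⊤ ∧ pPrimeCore 2 G ≤ K ∧ t ∈ K) := by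
  classical
  letI : Fintype P := Fintype.ofFinite _
  have hPr := hM.isPrime
  have hB₀ : IsPBlock M (principalBlock M G) := ⟨oneIrr _, rfl⟩
  set c : ℂ := (Nat.card ↥P : ℂ)⁻¹ with hc
  have hcr : conj c = c := by
    rw [hc, map_inv₀, Complex.conj_natCast]
  have hA : ∀ χ : IrrCharacter G, ∑ᶠ y : ↥P, (χ : G → ℂ) (y : G) * θ y⁻¹ = ∑ y : ↥P, conj ((χ : G → ℂ) (y : G)) * θ y := by
    intro χ
    rw [finsum_eq_sum_of_fintype]
    refine Fintype.sum_equiv (Equiv.inv ↥P) _ _ fun y => ?_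
    simp only [Equiv.inv_apply, inv_inv]
    congr 1
    rw [Subgroup.coe_inv, χ.2.map_inv, Complex.conj_conj]
  let a : IrrCharacter G → ℂ := fun χ => c * ∑ y : ↥P, conj ((χ : G → ℂ) (y : G)) * θ y
  have ha : ∀ χ : IrrCharacter G, c * ∑ᶠ y : ↥P, (χ : G → ℂ) (y : G) * θ y⁻¹ = a χ := fun χ => by rw [hA]
  simp only [ha]
  have hgen : ∀ W : IrrCharacter G → ℂ, (∀ y : ↥P, (y : G) ∈ U →
      ∑ χ : IrrCharacter G, (if χ ∈ principalBlock M G then conj ((χ : G → ℂ) (y : G)) * W χ else 0) = 0) →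
      ∑ χ : IrrCharacter G, (if χ ∈ principalBlock M G then a χ * W χ else 0) = 0 := by
    intro W hW
    have h1 : ∀ χ : IrrCharacter G, (if χ ∈ principalBlock M G then a χ * W χ else 0) =
        c * ∑ y : ↥P, θ y * (if χ ∈ principalBlock M G then conj ((χ : G → ℂ) (y : G)) * W χ else 0) := by
      intro χ
      by_cases hχ : χ ∈ principalBlock M G
      · simp only [if_pos hχ, a]
        rw [mul_assoc, Finset.sum_mul]
        congr 1
        refine Finset.sum_congr rfl fun y _ => ?_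
        ring
      · simp [if_neg hχ]
    simp only [h1]
    rw [← Finset.mul_sum, Finset.sum_comm]
    apply mul_eq_zero_of_right
    refine Finset.sum_eq_zero fun y _ => ?_
    rw [← Finset.mul_sum]
    by_cases hy : (y : G) ∈ U
    · rw [hW y hy, mul_zero]
    · rw [hθU y hy, zero_mul]
  have hord : ∀ y : ↥P, ∃ k : ℕ, orderOf (y : G) = 2 ^ k := by
    intro y
    obtain ⟨k, hk⟩ := (IsPGroup.iff_orderOf.1 hP) y
    exact ⟨k, by rw [Subgroup.orderOf_coe]; exact hk⟩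
  have hI1 : ∑ χ : IrrCharacter G, (if χ ∈ principalBlock M G then a χ * ((χ : G → ℂ) t ^ 2 / (χ : G → ℂ) 1) else 0) = 0 := by
    refine hgen _ fun y hy => ?_
    obtain ⟨k, hk⟩ := hord y
    let v : G → ℂ := ∑ χ ∈ (Finset.univ : Finset (IrrCharacter G)), ((χ : G → ℂ) t ^ 2 / (χ : G → ℂ) 1) • (χ : G → ℂ)
    have hv0 : ∀ u z : G, IsPPart 2 u z → IsConj (y : G)⁻¹ z → v u = 0 := by
      intro u z huz hz
      have h1 := sum_irr_eq_zero hM ht (coeff_cSum_sq_eq_zero hM ht (hinv y hy) huz hz)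
      simp only [v, Finset.sum_apply, Pi.smul_apply, smul_eq_mul]
      exact h1
    have hk' : orderOf (y : G)⁻¹ = 2 ^ k := by rw [orderOf_inv]; exact hk
    have hp0 : proj (principalBlock M G) v (y : G)⁻¹ = 0 :=
      proj_vanish_section hM hB₀ hv0 (isPPart_self' hk') (IsConj.refl _)
    rw [proj_sum_smul] at hp0
    simp only [proj_irr] at hp0
    refine Eq.trans (Finset.sum_congr rfl fun χ _ => ?_) hp0
    by_cases hχ : χ ∈ principalBlock M G
    · rw [if_pos hχ, if_pos hχ, χ.2.map_inv]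
      ring
    · rw [if_neg hχ, if_neg hχ, mul_zero]
  have hI2 : ∑ χ : IrrCharacter G, (if χ ∈ principalBlock M G then a χ * (χ : G → ℂ) 1 else 0) = 0 := by
    refine hgen _ fun y hy => ?_
    obtain ⟨k, hk⟩ := hord y
    have hne : ¬ IsConj (1 : G) (y : G) := by
      intro hcj
      have h1 : (y : G) = 1 := by
        exact isConj_one_right.1 hcj
      apply hinv y hy 1
      rw [h1]
      simp
    exact Kp_eq_zero hM hk (orderOf_one.trans (pow_zero 2).symm) hne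
  have hI3 : ∑ χ : IrrCharacter G, (if χ ∈ principalBlock M G then a χ * (χ : G → ℂ) t else 0) = 0 := by
    refine hgen _ fun y hy => ?_
    obtain ⟨k, hk⟩ := hord y
    have hne : ¬ IsConj t (y : G) := by
      intro hcj
      obtain ⟨g, hg⟩ := isConj_iff.1 hcj
      apply hinv y hy g
      rw [hg]
      have h2 : (y : G) * (y : G) = 1 := by
        rw [← hg]
        have ht2 : t * t = 1 := by
          have := pow_orderOf_eq_one t
          rw [ht, pow_two] at this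
          exact this
        calc g * t * g⁻¹ * (g * t * g⁻¹) = g * (t * t) * g⁻¹ := by group
          _ = 1 := by rw [ht2]; group
      have h3 : (y : G)⁻¹ = y := inv_eq_of_mul_eq_one_left h2
      rw [h3, mul_assoc, h2, mul_one]
    exact Kp_eq_zero hM hk (ht.trans (pow_one 2).symm) hne
  refine ⟨?_, ?_, ?_, ?_⟩
  · rw [finsum_mem_eq_sum_ite]
    refine Eq.trans (Finset.sum_congr rfl fun χ _ => ?_) hI1
    split_ifs
    · rw [mul_div_assoc]
    · rfl
  · rw [finsum_mem_eq_sum_ite]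
    exact hI2
  · rw [finsum_mem_eq_sum_ite]
    exact hI3
  -- the sign analysis
  intro hne
  have hθc : ∀ y : ↥P, conj (θ y) = θ y⁻¹ := by
    obtain ⟨α, β, hα, hβ, rfl⟩ := hθ
    intro y
    simp only [Pi.sub_apply, map_sub]
    rw [hα.map_inv, hβ.map_inv]
  have hareal : ∀ χ : IrrCharacter G, conj (a χ) = a χ := by
    intro χ
    show conj (c * ∑ y : ↥P, conj ((χ : G → ℂ) (y : G)) * θ y) = c * ∑ y : ↥P, conj ((χ : G → ℂ) (y : G)) * θ y
    rw [map_mul, hcr, map_sum, ← hA, finsum_eq_sum_of_fintype]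
    congr 1
    refine Finset.sum_congr rfl fun y _ => ?_
    rw [map_mul, Complex.conj_conj, hθc]
  let x : IrrCharacter G → ℝ := fun χ => (a χ).re
  let d : IrrCharacter G → ℝ := fun χ => ((χ : G → ℂ) 1).re
  let τ : IrrCharacter G → ℝ := fun χ => ((χ : G → ℂ) t).re
  have hax : ∀ χ, a χ = (x χ : ℂ) := fun χ => (Complex.conj_eq_iff_re.1 (hareal χ)).symm
  have hdc : ∀ χ : IrrCharacter G, (χ : G → ℂ) 1 = (d χ : ℂ) := by
    intro χ
    refine (Complex.conj_eq_iff_re.1 ?_).symm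
    rw [← χ.2.map_inv, inv_one]
  have ht1 : t⁻¹ = t := by
    apply inv_eq_of_mul_eq_one_left
    have := pow_orderOf_eq_one t
    rw [ht, pow_two] at this
    exact this
  have hτc : ∀ χ : IrrCharacter G, (χ : G → ℂ) t = (τ χ : ℂ) := by
    intro χ
    refine (Complex.conj_eq_iff_re.1 ?_).symm
    rw [← χ.2.map_inv, ht1]
  have hdpos : ∀ χ : IrrCharacter G, 0 < d χ := by
    intro χ
    have h1 := coe_charDegree χ.2.isCharacter
    have h2 := charDegree_ne_zero χ.2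
    have h3 : d χ = (charDegree (χ : G → ℂ) : ℝ) := by
      show ((χ : G → ℂ) 1).re = _
      rw [← h1, Complex.natCast_re]
    rw [h3]
    exact_mod_cast Nat.pos_of_ne_zero h2
  set S : Finset (IrrCharacter G) := Finset.univ.filter (· ∈ principalBlock M G) with hS
  have hreal : ∀ (f : IrrCharacter G → ℂ) (g : IrrCharacter G → ℝ), (∀ χ, f χ = (g χ : ℂ)) →
      ∑ χ : IrrCharacter G, (if χ ∈ principalBlock M G then f χ else 0) = 0 → ∑ χ ∈ S, g χ = 0 := by
    intro f g hfg h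
    apply Complex.ofReal_injective
    rw [hS, Finset.sum_filter]
    push_cast
    rw [← h]
    refine Finset.sum_congr rfl fun χ _ => ?_
    split_ifs
    · rw [hfg]
    · rfl
  have hR1 : ∑ χ ∈ S, x χ * (τ χ ^ 2 / d χ) = 0 := hreal _ _ (fun χ => by
    rw [hax, hdc, hτc]
    push_cast
    rfl) hI1
  have hR2 : ∑ χ ∈ S, x χ * d χ = 0 := hreal _ _ (fun χ => by
    rw [hax, hdc]
    push_cast
    rfl) hI2
  have hR3 : ∑ χ ∈ S, x χ * τ χ = 0 := hreal _ _ (fun χ => by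
    rw [hax, hτc]
    push_cast
    rfl) hI3
  have h1S : oneIrr G ∈ S := Finset.mem_filter.2 ⟨Finset.mem_univ _, oneIrr_mem_principal hPr⟩
  have hx1 : x (oneIrr G) ≠ 0 := by
    intro h0
    apply hne
    have h1 : a (oneIrr G) = 0 := by rw [hax, h0]; simp
    rw [finsum_eq_sum_of_fintype]
    have h2 : a (oneIrr G) = c * ∑ y : ↥P, θ y := by
      show c * ∑ y : ↥P, conj (((oneIrr G : IrrCharacter G) : G → ℂ) (y : G)) * θ y = _
      congr 1
      refine Finset.sum_congr rfl fun y _ => ?_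
      show conj (1 : ℂ) * θ y = θ y
      simp
    rw [← h2, h1]
  have hd1 : d (oneIrr G) = 1 := by
    show (1 : ℂ).re = 1
    simp
  have hτ1 : τ (oneIrr G) = 1 := by
    show (1 : ℂ).re = 1
    simp
  -- the key implication
  have key : ∀ s : ℝ, s ≠ 0 → (∀ χ₁ ∈ S, ∀ χ₂ ∈ S, s * x χ₁ < 0 → s * x χ₂ < 0 → χ₁ = χ₂) →
      ∃ K : Subgroup G, K.Normal ∧ K ≠ ⊤ ∧ pPrimeCore 2 G ≤ K ∧ t ∈ K := by
    intro s hs hsub
    have hexχ : ∃ χ₁ ∈ S, ∀ i ∈ S, i ≠ χ₁ → 0 ≤ s * x i := by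
      by_cases hex : ∃ χ₁ ∈ S, s * x χ₁ < 0
      · obtain ⟨χ₁, h1, h2⟩ := hex
        refine ⟨χ₁, h1, fun i hi hne => ?_⟩
        by_contra hcon
        exact hne (hsub i hi χ₁ h1 (not_le.1 hcon) h2)
      · push Not at hex
        exact ⟨oneIrr G, h1S, fun i hi _ => hex i hi⟩
    obtain ⟨χ₁, hχ₁, hpos⟩ := hexχ
    have hab := abs_lemma S (fun i => s * x i) d τ (fun i _ => hdpos i)
      (by
        have : ∑ i ∈ S, s * x i * (τ i ^ 2 / d i) = s * ∑ i ∈ S, x i * (τ i ^ 2 / d i) := by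
          rw [Finset.mul_sum]
          exact Finset.sum_congr rfl fun i _ => by ring
        simpa [hR1] using this)
      (by
        have : ∑ i ∈ S, s * x i * d i = s * ∑ i ∈ S, x i * d i := by
          rw [Finset.mul_sum]
          exact Finset.sum_congr rfl fun i _ => by ring
        simpa [hR2] using this)
      (by
        have : ∑ i ∈ S, s * x i * τ i = s * ∑ i ∈ S, x i * τ i := by
          rw [Finset.mul_sum]
          exact Finset.sum_congr rfl fun i _ => by ring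
        simpa [hR3] using this)
      hχ₁ hpos
    have h1 := hab (oneIrr G) h1S (mul_ne_zero hs hx1)
    rw [hτ1, hd1, one_mul, mul_one] at h1
    have hall : ∀ i ∈ S, x i ≠ 0 → τ i = d i := by
      intro i hi hxi
      have h2 := hab i hi (mul_ne_zero hs hxi)
      rw [← h1] at h2
      have h3 := (hdpos χ₁).ne'
      have h4 : (τ i - d i) * d χ₁ = 0 := by
        linear_combination h2
      rcases mul_eq_zero.1 h4 with h5 | h5
      · linarith
      · exact absurd h5 h3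
    obtain ⟨χ₀, hχ₀, hne1, hx0⟩ : ∃ χ₀ ∈ S, χ₀ ≠ oneIrr G ∧ x χ₀ ≠ 0 := by
      by_contra hcon
      push Not at hcon
      have h2 := Finset.sum_eq_single_of_mem (oneIrr G) h1S (fun i hi hi1 => by
        show x i * d i = 0
        rw [hcon i hi hi1, zero_mul]) (f := fun i => x i * d i)
      rw [hR2, hd1, mul_one] at h2
      exact hx1 h2.symm
    obtain ⟨K, hKn, hK⟩ := exists_charKer χ₀.2
    refine ⟨K, hKn, ?_, ?_, ?_⟩
    · rintro rfl
      have h2 := classInner_irr_ne χ₀.2 (oneIrr G).2 (fun h => hne1 (Subtype.ext h))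
      rw [classInner_def] at h2
      have h3 : ∀ g : G, (χ₀ : G → ℂ) g * conj (((oneIrr G : IrrCharacter G) : G → ℂ) g) = (χ₀ : G → ℂ) 1 := by
        intro g
        rw [(hK g).1 (Subgroup.mem_top g)]
        show (χ₀ : G → ℂ) 1 * conj (1 : ℂ) = _
        simp
      simp only [h3] at h2
      rw [Finset.sum_const, Finset.card_univ, nsmul_eq_mul, ← Nat.card_eq_fintype_card,
        inv_mul_cancel_left₀ (card_ne_zero_C G)] at h2
      exact χ₀.2.map_one_ne_zero h2
    · intro n hn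
      haveI hNn : (pPrimeCore 2 G).Normal := CfsgLib.Solv.pPrimeCore_normal' 2
      have hNp : ¬ 2 ∣ Nat.card (pPrimeCore 2 G) :=
        fun hd => (Nat.Prime.coprime_iff_not_dvd Nat.prime_two).1 (CfsgLib.Solv.pPrimeCore_coprime 2).symm hd
      exact (hK n).2 (principal_ker hM (pPrimeCore 2 G) hNp (Finset.mem_filter.1 hχ₀).2 hn)
    · refine (hK t).2 ?_
      rw [hτc, hdc, hall χ₀ hχ₀ hx0]
  have hkey := key
  by_cases h2 : (2 ≤ Nat.card {χ : IrrCharacter G // χ ∈ principalBlock M G ∧ 0 < (a χ).re} ∧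
       2 ≤ Nat.card {χ : IrrCharacter G // χ ∈ principalBlock M G ∧ (a χ).re < 0})
  · exact Or.inl h2
  · right
    rw [not_and_or] at h2
    rcases h2 with h3 | h3
    · have h4 : Subsingleton {χ : IrrCharacter G // χ ∈ principalBlock M G ∧ 0 < (a χ).re} :=
        Finite.card_le_one_iff_subsingleton.1 (by omega)
      refine key (-1) (by norm_num) fun χ₁ h₁ χ₂ h₂ h5 h6 => ?_
      have h7 : 0 < (a χ₁).re := by
        show 0 < x χ₁
        linarith
      have h8 : 0 < (a χ₂).re := by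
        show 0 < x χ₂
        linarith
      have := h4.elim ⟨χ₁, (Finset.mem_filter.1 h₁).2, h7⟩ ⟨χ₂, (Finset.mem_filter.1 h₂).2, h8⟩
      exact congrArg Subtype.val this
    · have h4 : Subsingleton {χ : IrrCharacter G // χ ∈ principalBlock M G ∧ (a χ).re < 0} :=
        Finite.card_le_one_iff_subsingleton.1 (by omega)
      refine key 1 one_ne_zero fun χ₁ h₁ χ₂ h₂ h5 h6 => ?_
      have h7 : (a χ₁).re < 0 := by
        show x χ₁ < 0
        linarith
      have h8 : (a χ₂).re < 0 := by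
        show x χ₂ < 0
        linarith
      have := h4.elim ⟨χ₁, (Finset.mem_filter.1 h₁).2, h7⟩ ⟨χ₂, (Finset.mem_filter.1 h₂).2, h8⟩
      exact congrArg Subtype.val this

end Main2

end CfsgLib.Block
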