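import Mathlib

/-! # Green's theorem on defect groups: the combinatorial core -/

set_option autoImplicit false
set_option linter.unusedSectionVars false
set_option linter.unusedVariables false

namespace CfsgLib.Block

universe u

theorem sum_eq_zero_of_no_fixed {Q X k : Type*} [Group Q] [Finite Q] [MulAction Q X] [Fintype X] [CommRing k] {p : ℕ}
    [hp : Fact p.Prime] [CharP k p] (hQ : IsPGroup p Q) (h : X → k) (hinv : ∀ (q : Q) (x : X), h (q • x) = h x)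
    (hfree : ∀ x : X, ∃ q : Q, q • x ≠ x) : ∑ x, h x = 0 := by
  classical
  letI : Fintype Q := Fintype.ofFinite Q
  rw [← Equiv.sum_comp (MulAction.selfEquivSigmaOrbits Q X).symm, Fintype.sum_sigma]
  refine Finset.sum_eq_zero fun ω _ => ?_
  have h1 : ∀ x : MulAction.orbit Q (Quotient.out ω), h ((MulAction.selfEquivSigmaOrbits Q X).symm ⟨ω, x⟩) = h (Quotient.out ω) := by
    rintro ⟨_, q, rfl⟩
    exact hinv q _
  simp only [h1]
  rw [Finset.sum_const, nsmul_eq_mul, Finset.card_univ]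
  have h2 : (p : ℕ) ∣ Fintype.card (MulAction.orbit Q (Quotient.out ω)) := by
    obtain ⟨n, hn⟩ := hQ.index (MulAction.stabilizer Q (Quotient.out ω))
    have h3 := MulAction.index_stabilizer Q (Quotient.out ω)
    have h4 : Fintype.card (MulAction.orbit Q (Quotient.out ω)) = (MulAction.stabilizer Q (Quotient.out ω)).index := by
      rw [h3, Set.ncard_eq_toFinset_card', Set.toFinset_card]
    rw [h4, hn]
    have hn0 : n ≠ 0 := by
      rintro rfl
      rw [pow_zero, Subgroup.index_eq_one] at hn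
      obtain ⟨q, hq⟩ := hfree (Quotient.out ω)
      apply hq
      have : q ∈ MulAction.stabilizer Q (Quotient.out ω) := by rw [hn]; trivial
      exact this
    exact dvd_pow_self p hn0
  obtain ⟨c, hc⟩ := h2
  rw [hc]
  push_cast
  rw [CharP.cast_eq_zero k p, zero_mul, zero_mul]

/-- A nonzero function has a nonzero invariant element in the additive span of its translates. -/
theorem exists_fixed_in_span {Γ A k : Type*} [Group Γ] [Finite Γ] [MulAction Γ A] [CommRing k] {p : ℕ}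
    [hp : Fact p.Prime] [CharP k p] (hΓ : IsPGroup p Γ) (h₀ : A → k) (hne : h₀ ≠ 0) :
    ∃ v : A → k, v ≠ 0 ∧ (∀ (γ : Γ) (x : A), v (γ • x) = v x) ∧
      v ∈ AddSubgroup.closure (Set.range fun γ : Γ => fun x => h₀ (γ⁻¹ • x)) := by
  classical
  letI : Algebra (ZMod p) k := ZMod.algebra k p
  let S : Set (A → k) := Set.range fun γ : Γ => fun x => h₀ (γ⁻¹ • x)
  let X : AddSubgroup (A → k) := AddSubgroup.closure S
  have hSfin : S.Finite := Set.finite_range _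
  haveI hfin : Module.Finite (ZMod p) (Submodule.span (ZMod p) S) := Module.Finite.span_of_finite _ hSfin
  haveI : Finite (Submodule.span (ZMod p) S) := Module.finite_of_finite (ZMod p)
  have hXle : X ≤ (Submodule.span (ZMod p) S).toAddSubgroup :=
    (AddSubgroup.closure_le _).2 Submodule.subset_span
  haveI : Finite X := Finite.of_injective (fun x : X => (⟨x.1, hXle x.2⟩ : Submodule.span (ZMod p) S)) (by
    intro x y h
    exact Subtype.ext (congrArg (fun z : Submodule.span (ZMod p) S => z.1) h))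
  let T : Γ → (A → k) →+ (A → k) := fun γ =>
    { toFun := fun h x => h (γ⁻¹ • x), map_zero' := rfl, map_add' := fun _ _ => rfl }
  have hT : ∀ (γ : Γ) (h : A → k), h ∈ X → T γ h ∈ X := by
    intro γ h hh
    have h1 : X ≤ X.comap (T γ) := by
      refine (AddSubgroup.closure_le _).2 ?_
      rintro _ ⟨δ, rfl⟩
      refine AddSubgroup.subset_closure ⟨γ * δ, ?_⟩
      funext x
      show h₀ ((γ * δ)⁻¹ • x) = h₀ (δ⁻¹ • (γ⁻¹ • x))
      rw [mul_inv_rev, mul_smul]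
    exact h1 hh
  letI : MulAction Γ X :=
    { smul := fun γ h => ⟨T γ h.1, hT γ h.1 h.2⟩
      one_smul := fun h => by
        apply Subtype.ext
        funext x
        show h.1 ((1 : Γ)⁻¹ • x) = h.1 x
        rw [inv_one, one_smul]
      mul_smul := fun γ δ h => by
        apply Subtype.ext
        funext x
        show h.1 ((γ * δ)⁻¹ • x) = h.1 (δ⁻¹ • (γ⁻¹ • x))
        rw [mul_inv_rev, mul_smul] }
  have hmod := hΓ.card_modEq_card_fixedPoints X
  -- the order of `X` is divisible by `p`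
  have hpX : p ∣ Nat.card X := by
    have hpg : IsPGroup p (Multiplicative X) := by
      intro g
      refine ⟨1, ?_⟩
      rw [pow_one]
      show (Multiplicative.ofAdd (p • Multiplicative.toAdd g)) = 1
      have : p • Multiplicative.toAdd g = 0 := by
        apply Subtype.ext
        funext x
        show p • (Multiplicative.toAdd g).1 x = 0
        rw [nsmul_eq_mul, CharP.cast_eq_zero k p, zero_mul]
      rw [this]
      rfl
    obtain ⟨n, hn⟩ := IsPGroup.iff_card.1 hpg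
    have hn0 : n ≠ 0 := by
      rintro rfl
      rw [pow_zero, Nat.card_eq_one_iff_unique] at hn
      apply hne
      have h1 : (⟨fun x => h₀ ((1 : Γ)⁻¹ • x), AddSubgroup.subset_closure ⟨1, rfl⟩⟩ : X) = 0 :=
        Multiplicative.ofAdd.injective (hn.1.elim _ _)
      have h2 := congrArg Subtype.val h1
      funext x
      have h3 := congrFun h2 x
      simpa using h3
    have : Nat.card X = p ^ n := hn
    rw [this]
    exact dvd_pow_self p hn0
  have hpF : p ∣ Nat.card (MulAction.fixedPoints Γ X) := by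
    have := hmod.symm
    exact (Nat.modEq_zero_iff_dvd.1 ((this).trans (Nat.modEq_zero_iff_dvd.2 hpX)))
  haveI : Finite (MulAction.fixedPoints Γ X) := inferInstance
  have h0fix : (0 : X) ∈ MulAction.fixedPoints Γ X := by
    intro γ
    apply Subtype.ext
    rfl
  have hcard : 1 < Nat.card (MulAction.fixedPoints Γ X) := by
    have hpos : 0 < Nat.card (MulAction.fixedPoints Γ X) := Nat.card_pos_iff.2 ⟨⟨⟨0, h0fix⟩⟩, inferInstance⟩
    exact lt_of_lt_of_le hp.out.one_lt (Nat.le_of_dvd hpos hpF)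
  obtain ⟨a, hane⟩ : ∃ a : MulAction.fixedPoints Γ X, a ≠ ⟨0, h0fix⟩ := by
    haveI : Nontrivial (MulAction.fixedPoints Γ X) := Finite.one_lt_card_iff_nontrivial.1 hcard
    exact exists_ne _
  refine ⟨a.1.1, ?_, ?_, a.1.2⟩
  · intro h0
    apply hane
    apply Subtype.ext
    apply Subtype.ext
    exact h0
  · intro γ x
    have h1 := a.2 γ⁻¹
    have h2 := congrFun (congrArg Subtype.val h1) x
    have h3 : (γ⁻¹ • a.1).1 x = a.1.1 (γ⁻¹⁻¹ • x) := rfl
    rw [h3, inv_inv] at h2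
    exact h2

section Core

variable {G : Type u} [Group G] [Fintype G] {p : ℕ} [hp : Fact p.Prime] {k : Type*} [CommRing k] [CharP k p]

theorem conj_mem_cent_of_normalizer {D : Subgroup G} {u x : G} (hu : u ∈ Subgroup.normalizer (D : Set G))
    (hx : x ∈ Subgroup.centralizer (D : Set G)) : u * x * u⁻¹ ∈ Subgroup.centralizer (D : Set G) := by
  rw [Subgroup.mem_centralizer_iff] at hx ⊢
  intro d hd
  have h1 : u⁻¹ * d * u ∈ D := by
    have h2 := (Subgroup.mem_normalizer_iff.1 hu (u⁻¹ * d * u)).1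
    by_contra hc
    have h3 := (Subgroup.mem_normalizer_iff.1 hu (u⁻¹ * d * u)).not.1 hc
    apply h3
    simpa [mul_assoc] using hd
  have h4 := hx _ h1
  calc d * (u * x * u⁻¹) = u * ((u⁻¹ * d * u) * x) * u⁻¹ := by group
    _ = u * (x * (u⁻¹ * d * u)) * u⁻¹ := by rw [h4]
    _ = u * x * u⁻¹ * d := by group

theorem cent_le_normalizer' {D : Subgroup G} {c : G} (hc : c ∈ Subgroup.centralizer (D : Set G)) :
    c ∈ Subgroup.normalizer (D : Set G) := Subgroup.centralizer_le_normalizer _ hc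

/-- The group acting on the centralizer. -/
def gammaG (D P : Subgroup G) : Subgroup (G × G) where
  carrier := {γ | γ.1 ∈ P ∧ γ.2 ∈ P ∧ γ.1 ∈ Subgroup.normalizer (D : Set G) ∧ γ.2 * γ.1⁻¹ ∈ Subgroup.centralizer (D : Set G)}
  mul_mem' := by
    rintro ⟨u₁, w₁⟩ ⟨u₂, w₂⟩ ⟨h1, h2, h3, h4⟩ ⟨h5, h6, h7, h8⟩
    simp only [Set.mem_setOf_eq] at h1 h2 h3 h4 h5 h6 h7 h8
    refine ⟨P.mul_mem h1 h5, P.mul_mem h2 h6, Subgroup.mul_mem _ h3 h7, ?_⟩
    have hw : w₁ ∈ Subgroup.normalizer (D : Set G) := by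
      have := Subgroup.mul_mem _ (cent_le_normalizer' h4) h3
      simpa using this
    have h9 := conj_mem_cent_of_normalizer hw h8
    have h10 := Subgroup.mul_mem _ h9 h4
    have e : (w₁ * w₂) * (u₁ * u₂)⁻¹ = w₁ * (w₂ * u₂⁻¹) * w₁⁻¹ * (w₁ * u₁⁻¹) := by group
    show (w₁ * w₂) * (u₁ * u₂)⁻¹ ∈ _
    rw [e]
    exact h10
  one_mem' := by
    refine ⟨P.one_mem, P.one_mem, Subgroup.one_mem _, ?_⟩
    simp only [Prod.fst_one, Prod.snd_one, inv_one, mul_one]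
    exact Subgroup.one_mem _
  inv_mem' := by
    rintro ⟨u, w⟩ ⟨h1, h2, h3, h4⟩
    simp only [Set.mem_setOf_eq] at h1 h2 h3 h4
    refine ⟨P.inv_mem h1, P.inv_mem h2, Subgroup.inv_mem _ h3, ?_⟩
    have hu' : u⁻¹ ∈ Subgroup.normalizer (D : Set G) := Subgroup.inv_mem _ h3
    have h5 := conj_mem_cent_of_normalizer hu' (Subgroup.inv_mem _ h4)
    have e : w⁻¹ * u⁻¹⁻¹ = u⁻¹ * (w * u⁻¹)⁻¹ * u⁻¹⁻¹ := by group
    show w⁻¹ * u⁻¹⁻¹ ∈ _
    rw [e]
    exact h5

theorem isPGroup_gammaG (D : Subgroup G) {P : Subgroup G} (hP : IsPGroup p P) : IsPGroup p (gammaG D P) := by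
  rintro ⟨⟨u, w⟩, hu, hw, -, -⟩
  obtain ⟨a, ha⟩ := hP ⟨u, hu⟩
  obtain ⟨b, hb⟩ := hP ⟨w, hw⟩
  refine ⟨a + b, ?_⟩
  apply Subtype.ext
  have ha' : u ^ p ^ a = 1 := by simpa using congrArg Subtype.val ha
  have hb' : w ^ p ^ b = 1 := by simpa using congrArg Subtype.val hb
  ext
  · show u ^ p ^ (a + b) = 1
    rw [pow_add, pow_mul, ha', one_pow]
  · show w ^ p ^ (a + b) = 1
    rw [add_comm, pow_add, pow_mul, hb', one_pow]

/-- The action on the group. -/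
def gammaAct (D P : Subgroup G) : MulAction (gammaG D P) G where
  smul γ x := γ.1.1 * x * γ.1.2⁻¹
  one_smul x := by
    show (1 : G) * x * (1 : G)⁻¹ = x
    simp
  mul_smul γ δ x := by
    show (γ.1.1 * δ.1.1) * x * (γ.1.2 * δ.1.2)⁻¹ = γ.1.1 * (δ.1.1 * x * δ.1.2⁻¹) * γ.1.2⁻¹
    group

/-- A point with trivial stabilizer. -/
def FreePt (D P : Subgroup G) (x : G) : Prop :=
  ∀ u ∈ P, u ∈ Subgroup.normalizer (D : Set G) → x⁻¹ * u * x ∈ P → u ∈ D

section Act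

variable {D P : Subgroup G}

attribute [local instance] gammaAct

theorem gamma_smul_def (γ : gammaG D P) (x : G) : γ • x = γ.1.1 * x * γ.1.2⁻¹ := rfl

theorem gamma_smul_mem (γ : gammaG D P) {x : G} (hx : x ∈ Subgroup.centralizer (D : Set G)) :
    γ • x ∈ Subgroup.centralizer (D : Set G) := by
  obtain ⟨⟨u, w⟩, h1, h2, h3, h4⟩ := γ
  simp only [Set.mem_setOf_eq] at h1 h2 h3 h4
  rw [gamma_smul_def]
  show u * x * w⁻¹ ∈ _
  have h5 := conj_mem_cent_of_normalizer h3 hx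
  have h6 := Subgroup.mul_mem _ h5 (Subgroup.inv_mem _ h4)
  have e : u * x * w⁻¹ = u * x * u⁻¹ * (w * u⁻¹)⁻¹ := by group
  rw [e]
  exact h6

theorem gamma_smul_mem_iff (γ : gammaG D P) {x : G} :
    γ • x ∈ Subgroup.centralizer (D : Set G) ↔ x ∈ Subgroup.centralizer (D : Set G) := by
  refine ⟨fun h => ?_, gamma_smul_mem γ⟩
  have := gamma_smul_mem γ⁻¹ h
  rwa [inv_smul_smul] at this

theorem gamma_free (γ : gammaG D P) {x : G} (hx : FreePt D P x) : FreePt D P (γ • x) := by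
  obtain ⟨⟨u₀, w₀⟩, h1, h2, h3, h4⟩ := γ
  simp only [Set.mem_setOf_eq] at h1 h2 h3 h4
  intro u hu huN hux
  rw [gamma_smul_def] at hux
  change (u₀ * x * w₀⁻¹)⁻¹ * u * (u₀ * x * w₀⁻¹) ∈ P at hux
  have h5 : x⁻¹ * (u₀⁻¹ * u * u₀) * x ∈ P := by
    have := P.mul_mem (P.mul_mem (P.inv_mem h2) hux) h2
    have e : x⁻¹ * (u₀⁻¹ * u * u₀) * x = w₀⁻¹ * ((u₀ * x * w₀⁻¹)⁻¹ * u * (u₀ * x * w₀⁻¹)) * w₀ := by group
    rw [e]
    exact this
  have h6 := hx _ (P.mul_mem (P.mul_mem (P.inv_mem h1) hu) h1)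
    (Subgroup.mul_mem _ (Subgroup.mul_mem _ (Subgroup.inv_mem _ h3) huN) h3) h5
  have h7 := (Subgroup.mem_normalizer_iff.1 h3 _).1 h6
  simpa [mul_assoc] using h7

end Act

end Core

section Key

variable {G : Type u} [Group G] [Fintype G] {p : ℕ} [hp : Fact p.Prime] {k : Type*} [CommRing k] [CharP k p]
variable {D P : Subgroup G}

attribute [local instance] gammaAct

/-- The pairs of the stabilizer. -/
theorem stab_mem (hDP : D ≤ P) {y₀ u : G} (hy₀ : y₀ ∈ Subgroup.centralizer (D : Set G)) (hu : u ∈ P)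
    (huN : u ∈ Subgroup.normalizer (D : Set G)) (hw : y₀⁻¹ * u * y₀ ∈ P) : (u, y₀⁻¹ * u * y₀) ∈ gammaG D P := by
  refine ⟨hu, hw, huN, ?_⟩
  show y₀⁻¹ * u * y₀ * u⁻¹ ∈ _
  rw [Subgroup.mem_centralizer_iff]
  intro d hd
  have h1 : u⁻¹ * d * u ∈ D := by
    by_contra hc
    have h3 := (Subgroup.mem_normalizer_iff.1 huN (u⁻¹ * d * u)).not.1 hc
    apply h3
    simpa [mul_assoc] using hd
  have h2 := (Subgroup.mem_centralizer_iff.1 hy₀) _ h1
  have h3 := (Subgroup.mem_centralizer_iff.1 hy₀) d hd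
  have h4 : y₀⁻¹ * d * y₀ = d := by
    rw [mul_assoc, h3]
    group
  calc d * (y₀⁻¹ * u * y₀ * u⁻¹) = (y₀⁻¹ * d * y₀) * (y₀⁻¹ * u * y₀ * u⁻¹) := by rw [h4]
    _ = y₀⁻¹ * u * ((u⁻¹ * d * u) * y₀) * u⁻¹ := by group
    _ = y₀⁻¹ * u * (y₀ * (u⁻¹ * d * u)) * u⁻¹ := by rw [h2]
    _ = y₀⁻¹ * u * y₀ * u⁻¹ * d := by group

theorem key_vanish [Fintype (G ⧸ D)] (hDP : D ≤ P) (hP : IsPGroup p P) (F a : G → k)
    (ha : ∀ d ∈ D, ∀ w, a (d * w * d⁻¹) = a w)
    (H1 : ∀ x, F x = ∑ q : G ⧸ D, a ((q.out)⁻¹ * x * q.out))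
    (v : G → k) (hvΓ : ∀ (γ : gammaG D P) (z : G), v (γ • z) = v z)
    {y₀ : G} (hy₀ : y₀ ∈ Subgroup.centralizer (D : Set G))
    (hvL : ∑ z, F (y₀ * z⁻¹) * v z = v y₀)
    {u₁ : G} (hu₁ : u₁ ∈ P) (hu₁N : u₁ ∈ Subgroup.normalizer (D : Set G)) (hu₁w : y₀⁻¹ * u₁ * y₀ ∈ P) (hu₁D : u₁ ∉ D) :
    v y₀ = 0 := by
  classical
  let Q : Subgroup G := (P ⊓ Subgroup.normalizer (D : Set G)) ⊓ P.map (MulAut.conj y₀).toMonoidHom
  have hQmem : ∀ u : G, u ∈ Q ↔ u ∈ P ∧ u ∈ Subgroup.normalizer (D : Set G) ∧ y₀⁻¹ * u * y₀ ∈ P := by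
    intro u
    constructor
    · rintro ⟨⟨h1, h2⟩, ⟨c, hc, rfl⟩⟩
      refine ⟨h1, h2, ?_⟩
      simpa [MulAut.conj_apply, mul_assoc] using hc
    · rintro ⟨h1, h2, h3⟩
      exact ⟨⟨h1, h2⟩, ⟨_, h3, by simp [MulAut.conj_apply, mul_assoc]⟩⟩
  have hDQ : D ≤ Q := by
    intro d hd
    rw [hQmem]
    refine ⟨hDP hd, Subgroup.le_normalizer hd, ?_⟩
    have h3 := (Subgroup.mem_centralizer_iff.1 hy₀) d hd
    have h4 : y₀⁻¹ * d * y₀ = d := by
      rw [mul_assoc, h3]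
      group
    rw [h4]
    exact hDP hd
  have hu₁Q : u₁ ∈ Q := (hQmem _).2 ⟨hu₁, hu₁N, hu₁w⟩
  have hQp : IsPGroup p Q := hP.to_le (fun u hu => ((hQmem u).1 hu).1)
  let Sm : Q → (G ⧸ D) × G → (G ⧸ D) × G := fun u qz => ((u : G) • qz.1, (u : G) * qz.2 * (y₀⁻¹ * (u : G) * y₀)⁻¹)
  let act : MulAction Q ((G ⧸ D) × G) :=
    { smul := Sm
      one_smul := fun qz => by
        show (((1 : Q) : G) • qz.1, ((1 : Q) : G) * qz.2 * (y₀⁻¹ * ((1 : Q) : G) * y₀)⁻¹) = qz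
        ext
        · simp
        · simp
      mul_smul := fun u u' qz => by
        show (((u * u' : Q) : G) • qz.1, ((u * u' : Q) : G) * qz.2 * (y₀⁻¹ * ((u * u' : Q) : G) * y₀)⁻¹) =
          ((u : G) • (u' : G) • qz.1, (u : G) * ((u' : G) * qz.2 * (y₀⁻¹ * (u' : G) * y₀)⁻¹) * (y₀⁻¹ * (u : G) * y₀)⁻¹)
        push_cast
        ext
        · rw [mul_smul]
        · group }
  let Φ : (G ⧸ D) × G → k := fun qz => a ((qz.1.out)⁻¹ * (y₀ * qz.2⁻¹) * qz.1.out) * v qz.2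
  have hinv : ∀ (u : Q) (qz : (G ⧸ D) × G), Φ (Sm u qz) = Φ qz := by
    rintro u ⟨q, z⟩
    have hu := (hQmem _).1 u.2
    show a ((((u : G) • q).out)⁻¹ * (y₀ * ((u : G) * z * (y₀⁻¹ * (u : G) * y₀)⁻¹)⁻¹) * ((u : G) • q).out) *
      v ((u : G) * z * (y₀⁻¹ * (u : G) * y₀)⁻¹) = a ((q.out)⁻¹ * (y₀ * z⁻¹) * q.out) * v z
    have hv : v ((u : G) * z * (y₀⁻¹ * (u : G) * y₀)⁻¹) = v z :=
      hvΓ ⟨((u : G), y₀⁻¹ * (u : G) * y₀), stab_mem hDP hy₀ hu.1 hu.2.1 hu.2.2⟩ z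
    rw [hv]
    congr 1
    -- the coset representatives differ by an element of `D`
    have h1 : (QuotientGroup.mk ((u : G) * q.out) : G ⧸ D) = ((u : G) • q : G ⧸ D) := by
      conv_rhs => rw [← QuotientGroup.out_eq' q]
      rfl
    have h2 : (QuotientGroup.mk (((u : G) • q).out) : G ⧸ D) = (QuotientGroup.mk ((u : G) * q.out) : G ⧸ D) := by
      rw [h1]
      exact QuotientGroup.out_eq' _
    have h3 : ((u : G) * q.out)⁻¹ * ((u : G) • q).out ∈ D := QuotientGroup.eq.1 h2.symm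
    obtain ⟨d, hd, hd'⟩ : ∃ d ∈ D, ((u : G) • q).out = (u : G) * q.out * d := ⟨_, h3, by group⟩
    rw [hd']
    have h4 := ha d⁻¹ (D.inv_mem hd) ((q.out)⁻¹ * (y₀ * z⁻¹) * q.out)
    rw [← h4]
    congr 1
    group
  have hfree : ∀ qz : (G ⧸ D) × G, ∃ u : Q, Sm u qz ≠ qz := by
    rintro ⟨q, z⟩
    by_contra hc
    push Not at hc
    have h1 : ∀ u ∈ Q, (q.out)⁻¹ * u * q.out ∈ D := by
      intro u hu
      have h2 := congrArg Prod.fst (hc ⟨u, hu⟩)
      have h3 : ((u : G) • q : G ⧸ D) = q := h2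
      have h4 : (QuotientGroup.mk (u * q.out) : G ⧸ D) = (QuotientGroup.mk q.out : G ⧸ D) := by
        rw [QuotientGroup.out_eq']
        conv_rhs => rw [← h3, ← QuotientGroup.out_eq' q]
        rfl
      have h5 := QuotientGroup.eq.1 h4.symm
      simpa [mul_assoc] using h5
    have h2 : Q.map (MulAut.conj (q.out)⁻¹).toMonoidHom ≤ D := by
      rintro _ ⟨u, hu, rfl⟩
      have := h1 u hu
      simpa [MulAut.conj_apply] using this
    have h3 := Subgroup.card_le_of_le h2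
    rw [Subgroup.card_map_of_injective (MulAut.conj (q.out)⁻¹).injective] at h3
    have h4 := Subgroup.eq_of_le_of_card_ge hDQ h3
    exact hu₁D (h4 ▸ hu₁Q)
  haveI : Finite Q := inferInstance
  have h0 := @sum_eq_zero_of_no_fixed Q ((G ⧸ D) × G) k _ _ act _ _ p _ _ hQp Φ hinv hfree
  rw [← hvL]
  rw [Fintype.sum_prod_type_right] at h0
  rw [← h0]
  refine Finset.sum_congr rfl fun z _ => ?_
  show F (y₀ * z⁻¹) * v z = ∑ q : G ⧸ D, a ((q.out)⁻¹ * (y₀ * z⁻¹) * q.out) * v z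
  rw [H1, Finset.sum_mul]

theorem exists_free [Fintype (G ⧸ D)] (hDP : D ≤ P) (hP : IsPGroup p P) (F a : G → k)
    (hFc : ∀ x y, F (y * x * y⁻¹) = F x)
    (ha : ∀ d ∈ D, ∀ w, a (d * w * d⁻¹) = a w)
    (H1 : ∀ x, F x = ∑ q : G ⧸ D, a ((q.out)⁻¹ * x * q.out))
    (H2 : ∀ y ∈ Subgroup.centralizer (D : Set G), ∑ z : G, F (y * z⁻¹) * (open Classical in if z ∈ Subgroup.centralizer (D : Set G) then F z else 0) = F y)
    {g₀ : G} (hg₀ : g₀ ∈ Subgroup.centralizer (D : Set G)) (hF : F g₀ ≠ 0) :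
    ∃ x ∈ Subgroup.centralizer (D : Set G), F x ≠ 0 ∧ FreePt D P x := by
  classical
  by_contra hcon
  push Not at hcon
  have hΓ : IsPGroup p (gammaG D P) := isPGroup_gammaG D hP
  let h₀ : G → k := fun z => if z ∈ Subgroup.centralizer (D : Set G) then F z else 0
  have hh₀ : h₀ ≠ 0 := by
    intro h
    have := congrFun h g₀
    simp only [h₀, if_pos hg₀, Pi.zero_apply] at this
    exact hF this
  haveI : Finite (gammaG D P) := inferInstance
  obtain ⟨v, hv0, hvΓ, hvS⟩ := exists_fixed_in_span hΓ h₀ hh₀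
  -- properties of the span
  let PP : (G → k) → Prop := fun h => (∀ z, z ∉ Subgroup.centralizer (D : Set G) → h z = 0) ∧
    (∀ z, z ∈ Subgroup.centralizer (D : Set G) → FreePt D P z → h z = 0) ∧
    (∀ y ∈ Subgroup.centralizer (D : Set G), ∑ z, F (y * z⁻¹) * h z = h y)
  have hgen : ∀ γ : gammaG D P, PP (fun x => h₀ (γ⁻¹ • x)) := by
    intro γ
    refine ⟨fun z hz => ?_, fun z hz hfr => ?_, fun y hy => ?_⟩
    · show (if γ⁻¹ • z ∈ Subgroup.centralizer (D : Set G) then F (γ⁻¹ • z) else 0) = 0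
      rw [if_neg (fun h => hz ((gamma_smul_mem_iff γ⁻¹).1 h))]
    · show (if γ⁻¹ • z ∈ Subgroup.centralizer (D : Set G) then F (γ⁻¹ • z) else 0) = 0
      rw [if_pos ((gamma_smul_mem_iff γ⁻¹).2 hz)]
      by_contra hne
      exact hcon _ ((gamma_smul_mem_iff γ⁻¹).2 hz) hne (gamma_free γ⁻¹ hfr)
    · have h1 := H2 _ ((gamma_smul_mem_iff γ⁻¹).2 hy)
      show ∑ z, F (y * z⁻¹) * (if γ⁻¹ • z ∈ Subgroup.centralizer (D : Set G) then F (γ⁻¹ • z) else 0) =
        if γ⁻¹ • y ∈ Subgroup.centralizer (D : Set G) then F (γ⁻¹ • y) else 0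
      rw [if_pos ((gamma_smul_mem_iff γ⁻¹).2 hy), ← h1]
      rw [← Equiv.sum_comp (MulAction.toPerm γ)]
      refine Finset.sum_congr rfl fun z _ => ?_
      simp only [MulAction.toPerm_apply, inv_smul_smul]
      congr 1
      rw [gamma_smul_def, gamma_smul_def]
      have e : (γ⁻¹).1.1 * y * ((γ⁻¹).1.2)⁻¹ * z⁻¹ = (γ.1.1)⁻¹ * (y * (γ.1.1 * z * (γ.1.2)⁻¹)⁻¹) * ((γ.1.1)⁻¹)⁻¹ := by
        show (γ.1.1)⁻¹ * y * ((γ.1.2)⁻¹)⁻¹ * z⁻¹ = _
        group
      rw [e, hFc]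
  have hclos : PP v := by
    refine AddSubgroup.closure_induction (p := fun h _ => PP h) ?_ ?_ ?_ ?_ hvS
    · rintro _ ⟨γ, rfl⟩
      exact hgen γ
    · exact ⟨fun _ _ => rfl, fun _ _ _ => rfl, fun y _ => by simp⟩
    · rintro a b _ _ ⟨h1, h2, h3⟩ ⟨h4, h5, h6⟩
      refine ⟨fun z hz => by simp [h1 z hz, h4 z hz], fun z hz hf => by simp [h2 z hz hf, h5 z hz hf], fun y hy => ?_⟩
      simp only [Pi.add_apply, mul_add, Finset.sum_add_distrib, h3 y hy, h6 y hy]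
    · rintro a _ ⟨h1, h2, h3⟩
      refine ⟨fun z hz => by simp [h1 z hz], fun z hz hf => by simp [h2 z hz hf], fun y hy => ?_⟩
      simp only [Pi.neg_apply, mul_neg, Finset.sum_neg_distrib, h3 y hy]
  obtain ⟨y₁, hy₁⟩ : ∃ y, v y ≠ 0 := by
    by_contra hc
    push Not at hc
    exact hv0 (funext hc)
  have hy₁C : y₁ ∈ Subgroup.centralizer (D : Set G) := by
    by_contra hc
    exact hy₁ (hclos.1 _ hc)
  have hnf : ¬ FreePt D P y₁ := fun hf => hy₁ (hclos.2.1 _ hy₁C hf)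
  unfold FreePt at hnf
  push Not at hnf
  obtain ⟨u₁, hu₁, hu₁N, hu₁w, hu₁D⟩ := hnf
  exact hy₁ (key_vanish hDP hP F a ha H1 v hvΓ hy₁C (hclos.2.2 _ hy₁C) hu₁ hu₁N hu₁w hu₁D)

end Key

end CfsgLib.Block
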