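import Cfsg.Agent.Lib.Block.GreenA
import Cfsg.Agent.Lib.Block.RobD
import Cfsg.Agent.Lib.Char.TwoClass

/-! # Green's theorem: a defect group is a Sylow intersection -/

set_option autoImplicit false
set_option linter.unusedSectionVars false
set_option linter.unusedVariables false

namespace CfsgLib.Block

open Cfsg CfsgLib.Char

universe u

variable {G : Type u} [Group G] [Fintype G] {p : ℕ} [hp : Fact p.Prime] {M : Ideal AlgInt} (hM : IsPModular p M)
include hM

theorem pi_sum_aux {ι : Type*} (s : Finset ι) (t : ι → ℂ) (ht : ∀ i, t i ∈ locR hM.isPrime) (w : ℂ) (hw : w ∈ locR hM.isPrime)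
    (h : w - ∑ i ∈ s, t i ∈ locI hM.isPrime) :
    (Ideal.Quotient.mk (locIdeal hM.isPrime) (⟨w, hw⟩ : locR hM.isPrime)) =
      ∑ i ∈ s, Ideal.Quotient.mk (locIdeal hM.isPrime) (⟨t i, ht i⟩ : locR hM.isPrime) := by
  rw [← map_sum, ← sub_eq_zero, ← map_sub]
  apply Ideal.Quotient.eq_zero_iff_mem.2
  rw [mem_locIdeal]
  push_cast
  exact h

/-- The class sum as a relative trace. -/
theorem cSum_mul_eq_sum {D : Subgroup G} {g₀ : G} (D₀ : Sylow p (Subgroup.centralizer ({g₀} : Set G)))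
    (hD₀ : D = (D₀ : Subgroup _).map (Subgroup.centralizer ({g₀} : Set G)).subtype) [Fintype (G ⧸ D)]
    {y : GA G} (hyc : IsCent y) (x : G) :
    (cSum g₀ * y).coeff x = ∑ q : G ⧸ D, (((D₀ : Subgroup (Subgroup.centralizer ({g₀} : Set G))).index : ℂ)⁻¹ * y.coeff (g₀⁻¹ * ((q.out)⁻¹ * x * q.out))) := by
  classical
  have hDC : ∀ d ∈ D, d * g₀ = g₀ * d := by
    intro d hd
    rw [hD₀] at hd
    exact Subgroup.mem_centralizer_singleton_iff.1 (map_sylow_le _ D₀ hd)
  let A : GA G := mkA fun w => ((D₀ : Subgroup (Subgroup.centralizer ({g₀} : Set G))).index : ℂ)⁻¹ * y.coeff (g₀⁻¹ * w)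
  have hAinv : PInv D A := by
    intro d hd u
    show ((D₀ : Subgroup (Subgroup.centralizer ({g₀} : Set G))).index : ℂ)⁻¹ * y.coeff (g₀⁻¹ * (d * u * d⁻¹)) = ((D₀ : Subgroup (Subgroup.centralizer ({g₀} : Set G))).index : ℂ)⁻¹ * y.coeff (g₀⁻¹ * u)
    congr 1
    have h1 := hyc.conj (g₀⁻¹ * u) d
    rw [← h1]
    congr 1
    have h2 := hDC d hd
    have h3 : g₀⁻¹ * d = d * g₀⁻¹ := by
      have hc : Commute d g₀ := h2
      exact hc.inv_right.eq.symm
    calc g₀⁻¹ * (d * u * d⁻¹) = (g₀⁻¹ * d) * u * d⁻¹ := by group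
      _ = (d * g₀⁻¹) * u * d⁻¹ := by rw [h3]
      _ = d * (g₀⁻¹ * u) * d⁻¹ := by group
  have h1 : (trA D A).coeff x = ∑ q : G ⧸ D, A.coeff ((q.out)⁻¹ * x * q.out) := by
    convert coeff_trA_of_inv hAinv x
  change _ = ∑ q : G ⧸ D, A.coeff ((q.out)⁻¹ * x * q.out)
  rw [← h1, coeff_trA, coeff_mul_sum]
  have hc0 : ((D₀ : Subgroup (Subgroup.centralizer ({g₀} : Set G))).index : ℂ) ≠ 0 := by exact_mod_cast Subgroup.index_ne_zero_of_finite
  have hD0 : (Nat.card D : ℂ) ≠ 0 := by exact_mod_cast (Nat.card_pos (α := D)).ne'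
  have hcard : (Nat.card (Subgroup.centralizer ({g₀} : Set G)) : ℂ) = ((D₀ : Subgroup (Subgroup.centralizer ({g₀} : Set G))).index : ℂ) * (Nat.card D : ℂ) := by
    have h2 := (Subgroup.index_mul_card (D₀ : Subgroup (Subgroup.centralizer ({g₀} : Set G)))).symm
    have h3 : Nat.card D = Nat.card (D₀ : Subgroup (Subgroup.centralizer ({g₀} : Set G))) := by
      rw [hD₀]
      exact Subgroup.card_map_of_injective (Subgroup.subtype_injective _)
    rw [h3]
    exact_mod_cast h2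
  have h4 : ∀ t : G, A.coeff (t⁻¹ * x * t) = ((D₀ : Subgroup (Subgroup.centralizer ({g₀} : Set G))).index : ℂ)⁻¹ * y.coeff ((t * g₀ * t⁻¹)⁻¹ * x) := by
    intro t
    show ((D₀ : Subgroup (Subgroup.centralizer ({g₀} : Set G))).index : ℂ)⁻¹ * y.coeff (g₀⁻¹ * (t⁻¹ * x * t)) = _
    congr 1
    have h5 := hyc.conj (g₀⁻¹ * (t⁻¹ * x * t)) t
    rw [← h5]
    congr 1
    group
  simp only [h4, ← Finset.mul_sum]
  have h6 := sum_conj_eq_class g₀ (fun u => y.coeff (u⁻¹ * x))
  rw [h6, hcard]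
  have h7 : ∑ g, (cSum g₀).coeff g * y.coeff (g⁻¹ * x) = ∑ u ∈ Finset.univ.filter (fun u => IsConj g₀ u), y.coeff (u⁻¹ * x) := by
    rw [Finset.sum_filter]
    refine Finset.sum_congr rfl fun g _ => ?_
    rw [coeff_cSum]
    by_cases h8 : IsConj g g₀
    · rw [if_pos h8, if_pos h8.symm, one_mul]
    · rw [if_neg h8, if_neg (fun h => h8 h.symm), zero_mul]
  rw [h7]
  field_simp

/-- **Green's theorem** -/
theorem s0956_aux {B : Set (IrrCharacter G)} (hB : IsPBlock M B) {D : Subgroup G} (hD : IsDefectGroup p M B D)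
    (P : Sylow p G) (hDP : D ≤ P) :
    ∃ x : G, ¬ p ∣ orderOf x ∧ (∃ S : Sylow p (Subgroup.centralizer ({x} : Set G)),
      (S : Subgroup (Subgroup.centralizer ({x} : Set G))).map (Subgroup.centralizer ({x} : Set G)).subtype = D) ∧
      (P : Subgroup G) ⊓ (P : Subgroup G).map (MulAut.conj x).toMonoidHom = D := by
  classical
  have hPr := hM.isPrime
  letI : Fintype (G ⧸ D) := Fintype.ofFinite _
  have hDp : IsPGroup p D := P.isPGroup'.to_le hDP
  obtain ⟨g₀, hg₀, D₀, hD₀⟩ := hD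
  obtain ⟨χ₀, hχ₀⟩ := IsPBlock.nonempty hPr hB
  have hu : om (χ₀ : G → ℂ) (cSum g₀) ∉ locI hPr := by
    rw [om_cSum χ₀.2]
    exact hg₀.2.2 χ₀ hχ₀
  obtain ⟨y, hyc, hys, hy⟩ := exists_mul_eq hM hB hχ₀ (isCent_cSum g₀) (sval_cSum hPr g₀) hu
  have hW := fun x => cSum_mul_eq_sum hM D₀ hD₀ hyc x
  have hcp : ¬ p ∣ (D₀ : Subgroup (Subgroup.centralizer ({g₀} : Set G))).index := D₀.not_dvd_index
  -- the residue field
  letI hmax : (locIdeal hPr).IsMaximal := locIdeal_isMaximal hPr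
  letI : Field (locR hPr ⧸ locIdeal hPr) := Ideal.Quotient.field _
  let π : locR hPr →+* (locR hPr ⧸ locIdeal hPr) := Ideal.Quotient.mk _
  have hp0 : ((p : ℕ) : locR hPr ⧸ locIdeal hPr) = 0 := by
    have : π (p : locR hPr) = 0 := by
      apply Ideal.Quotient.eq_zero_iff_mem.2
      rw [mem_locIdeal]
      push_cast
      exact p_mem_locI hM
    simpa using this
  haveI hchar : CharP (locR hPr ⧸ locIdeal hPr) p := by
    have h := CharP.ringChar_of_prime_eq_zero hp.out hp0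
    rw [← h]
    exact ringChar.charP _
  have hfs := sval_fB hM hB
  have hπeq : ∀ (a b : ℂ) (ha : a ∈ locR hPr) (hb : b ∈ locR hPr), a - b ∈ locI hPr → π ⟨a, ha⟩ = π ⟨b, hb⟩ := by
    intro a b ha hb h
    rw [← sub_eq_zero, ← map_sub]
    apply Ideal.Quotient.eq_zero_iff_mem.2
    rw [mem_locIdeal]
    push_cast
    exact h
  have hπ0 : ∀ (a : ℂ) (ha : a ∈ locR hPr), π ⟨a, ha⟩ = 0 ↔ a ∈ locI hPr := by
    intro a ha
    exact (Ideal.Quotient.eq_zero_iff_mem (I := locIdeal hPr)).trans (mem_locIdeal hPr)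
  let F : G → (locR hPr ⧸ locIdeal hPr) := fun x => π ⟨(fB B).coeff x, hfs x⟩
  have hAs : ∀ w : G, ((D₀ : Subgroup (Subgroup.centralizer ({g₀} : Set G))).index : ℂ)⁻¹ * y.coeff (g₀⁻¹ * w) ∈ locR hPr :=
    fun w => mul_mem (natCast_inv_mem hM hcp) (hys _)
  let a : G → (locR hPr ⧸ locIdeal hPr) := fun w => π ⟨_, hAs w⟩
  have hFc : ∀ x z, F (z * x * z⁻¹) = F x := by
    intro x z
    exact hπeq _ _ _ _ (by rw [(isCent_fB B).conj x z, sub_self]; exact zero_mem _)
  have hDC : ∀ d ∈ D, d * g₀ = g₀ * d := by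
    intro d hd
    rw [hD₀] at hd
    exact Subgroup.mem_centralizer_singleton_iff.1 (map_sylow_le _ D₀ hd)
  have ha : ∀ d ∈ D, ∀ w, a (d * w * d⁻¹) = a w := by
    intro d hd w
    have e : y.coeff (g₀⁻¹ * (d * w * d⁻¹)) = y.coeff (g₀⁻¹ * w) := by
      have h1 := hyc.conj (g₀⁻¹ * w) d
      rw [← h1]
      congr 1
      have hc : Commute d g₀ := hDC d hd
      have h3 : g₀⁻¹ * d = d * g₀⁻¹ := hc.inv_right.eq.symm
      calc g₀⁻¹ * (d * w * d⁻¹) = (g₀⁻¹ * d) * w * d⁻¹ := by group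
        _ = (d * g₀⁻¹) * w * d⁻¹ := by rw [h3]
        _ = d * (g₀⁻¹ * w) * d⁻¹ := by group
    exact hπeq _ _ _ _ (by rw [e, sub_self]; exact zero_mem _)
  have H1 : ∀ x, F x = ∑ q : G ⧸ D, a ((q.out)⁻¹ * x * q.out) := by
    intro x
    refine pi_sum_aux hM Finset.univ (fun q : G ⧸ D => ((D₀ : Subgroup (Subgroup.centralizer ({g₀} : Set G))).index : ℂ)⁻¹ * y.coeff (g₀⁻¹ * ((q.out)⁻¹ * x * q.out)))
      (fun q => hAs _) _ _ ?_
    rw [← hW x]
    have h1 := DivBy.mem_locI hM (n := 0) (hy x)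
    rwa [coeff_sub'] at h1
  have hinvB : ∀ c ∈ D, ∀ u, (fB B).coeff (c * u * c⁻¹) = (fB B).coeff u := fun c _ u => (isCent_fB B).conj u c
  have H2 : ∀ y' ∈ Subgroup.centralizer (D : Set G), ∑ z : G, F (y' * z⁻¹) * (open Classical in if z ∈ Subgroup.centralizer (D : Set G) then F z else 0) = F y' := by
    intro y' hy'
    have h1 := brauer_cong' hM hDp (mem_centralizer_iff_conj D) (sval_fB hM hB) (sval_fB hM hB) hinvB hinvB y'
    have h2 := DivBy.mem_locI hM (n := 0) h1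
    rw [coeff_sub', fB_mul_self, coeff_mul_sum', coeff_resTo_of_mem _ hy'] at h2
    have hterm : ∀ z : G, (resTo (Subgroup.centralizer (D : Set G)) (fB B)).coeff (y' * z⁻¹) * (resTo (Subgroup.centralizer (D : Set G)) (fB B)).coeff z ∈ locR hPr :=
      fun z => mul_mem (sval_resTo hPr _ hfs _) (sval_resTo hPr _ hfs _)
    have h3 := pi_sum_aux hM Finset.univ _ hterm _ (hfs y') h2
    show _ = π ⟨(fB B).coeff y', hfs y'⟩
    refine Eq.symm (h3.trans ?_)
    refine Finset.sum_congr rfl fun z _ => ?_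
    by_cases hz : z ∈ Subgroup.centralizer (D : Set G)
    · rw [if_pos hz]
      have hyz : y' * z⁻¹ ∈ Subgroup.centralizer (D : Set G) := Subgroup.mul_mem _ hy' (Subgroup.inv_mem _ hz)
      refine (hπeq _ ((fB B).coeff (y' * z⁻¹) * (fB B).coeff z) (hterm z) (mul_mem (hfs _) (hfs _)) ?_).trans (map_mul π (⟨(fB B).coeff (y' * z⁻¹), hfs _⟩ : locR hPr) (⟨(fB B).coeff z, hfs _⟩ : locR hPr))
      rw [coeff_resTo_of_mem _ hyz, coeff_resTo_of_mem _ hz, sub_self]
      exact zero_mem _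
    · rw [if_neg hz, mul_zero]
      apply (hπ0 _ _).2
      rw [coeff_resTo_of_not_mem _ hz, mul_zero]
      exact zero_mem _
  have hg₀C : g₀ ∈ Subgroup.centralizer (D : Set G) := by
    rw [Subgroup.mem_centralizer_iff]
    intro d hd
    exact hDC d hd
  have hFg₀ : F g₀ ≠ 0 := fun h => hg₀.2.1 ((hπ0 _ _).1 h)
  obtain ⟨x, hxC, hFx, hfree⟩ := exists_free hDP P.isPGroup' F a hFc ha H1 H2 hg₀C hFg₀
  have hxB : blockCoeff B x ∉ locI hPr := fun h => hFx ((hπ0 _ _).2 h)
  have hxD : D ≤ Subgroup.centralizer ({x} : Set G) := by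
    intro d hd
    rw [Subgroup.mem_centralizer_singleton_iff]
    exact (Subgroup.mem_centralizer_iff.1 hxC) d hd
  have hmaxcard : ∀ R : Subgroup G, IsPGroup p R → R ≤ Subgroup.centralizer ({x} : Set G) → Nat.card R ≤ Nat.card D := by
    intro R hR hRC
    obtain ⟨z, hz⟩ := minmax_a hM hB hg₀ D₀ hxB hR hRC
    have h1 : R.map (MulAut.conj z⁻¹).toMonoidHom ≤ D := by
      rintro _ ⟨c, hc, rfl⟩
      have h2 := hz c hc
      rw [← hD₀] at h2
      simpa [MulAut.conj_apply] using h2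
    have h3 := Subgroup.card_le_of_le h1
    rwa [Subgroup.card_map_of_injective (MulAut.conj z⁻¹).injective] at h3
  refine ⟨x, ?_, ?_, ?_⟩
  · intro hd
    exact hxB (by rw [blockCoeff_singular hM hB hd]; exact zero_mem _)
  · have h1 : IsPGroup p (D.subgroupOf (Subgroup.centralizer ({x} : Set G))) := hDp.comap_subtype
    obtain ⟨S, hS⟩ := h1.exists_le_sylow
    refine ⟨S, ?_⟩
    have h2 : D ≤ (S : Subgroup _).map (Subgroup.centralizer ({x} : Set G)).subtype := by
      intro d hd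
      exact Subgroup.mem_map.2 ⟨⟨d, hxD hd⟩, hS (Subgroup.mem_subgroupOf.2 hd), rfl⟩
    exact (Subgroup.eq_of_le_of_card_ge h2 (hmaxcard _ (isPGroup_map_sylow _ S) (map_sylow_le _ S))).symm
  · apply le_antisymm
    · by_contra hne
      let R : Subgroup G := (P : Subgroup G) ⊓ (P : Subgroup G).map (MulAut.conj x).toMonoidHom
      have hRp : IsPGroup p R := P.isPGroup'.to_le inf_le_left
      have hDR : D ≤ R := by
        intro d hd
        refine ⟨hDP hd, Subgroup.mem_map.2 ⟨d, hDP hd, ?_⟩⟩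
        have h1 := (Subgroup.mem_centralizer_iff.1 hxC) d hd
        simp only [MulEquiv.coe_toMonoidHom, MulAut.conj_apply]
        rw [← h1]
        group
      haveI hnil : Group.IsNilpotent R := hRp.isNilpotent
      have hlt : D.subgroupOf R < ⊤ := by
        refine lt_top_iff_ne_top.2 fun h => hne ?_
        intro r hr
        have : (⟨r, hr⟩ : R) ∈ D.subgroupOf R := by rw [h]; trivial
        exact this
      have hcond := normalizerCondition_of_isNilpotent (G := R) _ hlt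
      obtain ⟨⟨u, huR⟩, hun, hunD⟩ := SetLike.exists_of_lt hcond
      have huD : u ∉ D := fun h => hunD (Subgroup.mem_subgroupOf.2 h)
      have huN : u ∈ Subgroup.normalizer (D : Set G) := by
        rw [Subgroup.mem_normalizer_iff]
        intro g
        constructor
        · intro hg
          have h1 := (Subgroup.mem_normalizer_iff.1 hun ⟨g, hDR hg⟩).1 (Subgroup.mem_subgroupOf.2 hg)
          exact Subgroup.mem_subgroupOf.1 h1
        · intro hg
          have hgR : g ∈ R := by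
            have h2 := R.mul_mem (R.mul_mem (R.inv_mem huR) (hDR hg)) huR
            have e : u⁻¹ * (u * g * u⁻¹) * u = g := by group
            rwa [e] at h2
          have h1 := (Subgroup.mem_normalizer_iff.1 hun ⟨g, hgR⟩).2 (Subgroup.mem_subgroupOf.2 hg)
          exact Subgroup.mem_subgroupOf.1 h1
      have hux : x⁻¹ * u * x ∈ (P : Subgroup G) := by
        obtain ⟨c, hc, hcu⟩ := Subgroup.mem_map.1 huR.2
        simp only [MulEquiv.coe_toMonoidHom, MulAut.conj_apply] at hcu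
        rw [← hcu]
        simpa [mul_assoc] using hc
      exact huD (hfree u huR.1 huN hux)
    · intro d hd
      refine ⟨hDP hd, Subgroup.mem_map.2 ⟨d, hDP hd, ?_⟩⟩
      have h1 := (Subgroup.mem_centralizer_iff.1 hxC) d hd
      simp only [MulEquiv.coe_toMonoidHom, MulAut.conj_apply]
      rw [← h1]
      group

end CfsgLib.Block
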