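import Cfsg.Agent.Lib.Block.HtBd3
import Cfsg.Agent.Lib.Block.Graded2
import Cfsg.Agent.Lib.Char.Clifford2

/-! # Harris-Knörr -/

set_option autoImplicit false
set_option linter.unusedSectionVars false
set_option linter.unusedVariables false

namespace CfsgLib.Block

open Cfsg CfsgLib.Char
open scoped ComplexConjugate Pointwise

universe u

section

variable {G : Type u} [Group G] [Fintype G] {p : ℕ} [hp : Fact p.Prime] {M : Ideal AlgInt} (hM : IsPModular p M)

attribute [local instance] centFintype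

include hM

/-- A pair of `B` below a block inducing `B`, for the normalizer. -/
theorem hk_pair {Q H : Subgroup G} [Fintype H] (hH : H = Subgroup.normalizer (Q : Set G)) (hQ : IsPGroup p Q)
    {c : Set (IrrCharacter H)} {B : Set (IrrCharacter G)} (hind : IsInducedBlock M H c B) :
    ∃ f : Set (IrrCharacter (Subgroup.centralizer (Q : Set G))), IsBrauerPairOf p M B Q f ∧
      ∀ ξ ∈ f, lam Q (ξ : Subgroup.centralizer (Q : Set G) → ℂ) (incl H (fB c)) - 1 ∈ locI hM.isPrime := by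
  classical
  have hPr := hM.isPrime
  have hQH : Q ≤ H := hH ▸ Subgroup.le_normalizer
  have hCH : Subgroup.centralizer (Q : Set G) ≤ H := hH ▸ Subgroup.centralizer_le_normalizer _
  have hQX : Q ≤ Subgroup.normalizer (H : Set G) := hQH.trans Subgroup.le_normalizer
  have hfP : PInv Q (incl H (fB c)) := pInv_of_cent hQH (isCent_fB c)
  obtain ⟨D', hD'⟩ := exists_defectGroup hM hind.1
  have hQp' : IsPGroup p (Q.subgroupOf H) := by
    intro g
    obtain ⟨k, hk⟩ := hQ ⟨((g : H) : G), Subgroup.mem_subgroupOf.1 g.2⟩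
    exact ⟨k, Subtype.ext (Subtype.ext (by simpa using congrArg Subtype.val hk))⟩
  have hnorm : (Q.subgroupOf H).Normal := (Subgroup.normal_subgroupOf_iff_le_normalizer hQH).2 (hH ▸ le_rfl)
  have hle : Q ≤ D'.map H.subtype := by
    obtain ⟨g, hg, S, rfl⟩ := hD'
    have h1 := normal_le_of_defectClass hM hind.1 hg S hnorm hQp'
    intro q hq
    exact ⟨⟨q, hQH hq⟩, h1 (Subgroup.mem_subgroupOf.2 hq), rfl⟩
  obtain ⟨c', hc', hne⟩ := coeff_of_defect hD' hle hPr
  exact exists_pair_of_coeff hM hQ hCH hQX hind hfP hc' hne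

/-- Two blocks of `H` on the same pair agree. -/
theorem hk_eq_of_lam {Q H : Subgroup G} [Fintype H] (hQH : Q ≤ H) (hCH : Subgroup.centralizer (Q : Set G) ≤ H) (hQ : IsPGroup p Q)
    {b b' : Set (IrrCharacter H)} (hb : IsPBlock M b) (hb' : IsPBlock M b')
    {e₀ : Set (IrrCharacter (Subgroup.centralizer (Q : Set G)))} (he₀ : IsPBlock M e₀)
    (hlam : ∀ ξ ∈ e₀, lam Q (ξ : Subgroup.centralizer (Q : Set G) → ℂ) (incl H (fB b)) - 1 ∈ locI hM.isPrime)
    (hP1 : ∀ ξ ∈ e₀, lam Q (ξ : Subgroup.centralizer (Q : Set G) → ℂ) (incl H (fB b')) - 1 ∈ locI hM.isPrime) : b' = b := by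
  classical
  have hPr := hM.isPrime
  by_contra hne
  obtain ⟨ξ₀, hξ₀⟩ := IsPBlock.nonempty hPr he₀
  have hzero : fB b * fB b' = 0 := fB_mul_of_ne hPr hb hb' (Ne.symm hne)
  have hs1 : SVal hPr (incl H (fB b)) := sval_incl _ hPr (sval_fB hM hb)
  have hs2 : SVal hPr (incl H (fB b')) := sval_incl _ hPr (sval_fB hM hb')
  have h1 := lam_mul_sub_mem hM hQ ξ₀.2 hs1 hs2 (pInv_of_cent hQH (isCent_fB b)) (pInv_of_cent hQH (isCent_fB b'))
    (pInv_of_cent hCH (isCent_fB b)) (pInv_of_cent hCH (isCent_fB b'))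
  have hinc0 : incl H (0 : GA H) = 0 := by
    apply MonoidAlgebra.ext
    ext u
    by_cases hu : u ∈ H
    · rw [coeff_incl_mem _ _ hu]
      rfl
    · rw [coeff_incl_not_mem _ _ hu]
      rfl
  have hl0 : lam Q (ξ₀ : Subgroup.centralizer (Q : Set G) → ℂ) (incl H (fB b) * incl H (fB b')) = 0 := by
    rw [← incl_mul, hzero, hinc0]
    have e : (0 : GA G) = (0 : ℂ) • (1 : GA G) := (zero_smul _ _).symm
    rw [e, lam_smul, zero_mul]
  rw [hl0] at h1
  have h2 := hlam ξ₀ hξ₀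
  have h3 := hP1 ξ₀ hξ₀
  have hl2 : lam Q (ξ₀ : Subgroup.centralizer (Q : Set G) → ℂ) (incl H (fB b')) ∈ locR hPr :=
    lam_mem hM ξ₀.2 (pInv_of_cent hCH (isCent_fB b')) hs2
  have h4 := locI_mul_right hPr hl2 h2
  have h5 := (locI hPr).sub_mem ((locI hPr).sub_mem ((locI hPr).neg_mem h1) h4) h3
  have e : -(0 - lam Q (ξ₀ : Subgroup.centralizer (Q : Set G) → ℂ) (incl H (fB b)) * lam Q (ξ₀ : Subgroup.centralizer (Q : Set G) → ℂ) (incl H (fB b'))) -
      (lam Q (ξ₀ : Subgroup.centralizer (Q : Set G) → ℂ) (incl H (fB b)) - 1) * lam Q (ξ₀ : Subgroup.centralizer (Q : Set G) → ℂ) (incl H (fB b')) -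
      (lam Q (ξ₀ : Subgroup.centralizer (Q : Set G) → ℂ) (incl H (fB b')) - 1) = 1 := by ring
  rw [e] at h5
  exact one_notMem_locI hPr h5

/-- **Uniqueness** -/
theorem hk_unique (N : Subgroup G) [hN : N.Normal] [Fintype N] {Q H : Subgroup G} [Fintype H]
    (hH : H = Subgroup.normalizer (Q : Set G)) (hQ : IsPGroup p Q) (hQN : Q ≤ N)
    {d : Set (IrrCharacter N)} (hd : IsPBlock M d) (hdQ : IsDefectGroup p M d (Q.subgroupOf N))
    {B : Set (IrrCharacter G)} (hB : IsPBlock M B)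
    (hcov : ∃ χ ∈ B, ∃ θ ∈ d, classInner (fun n : N => (χ : G → ℂ) n) (θ : N → ℂ) ≠ 0)
    {c₁ c₂ : Set (IrrCharacter H)} (h₁ : IsInducedBlock M H c₁ B) (h₂ : IsInducedBlock M H c₂ B) : c₁ = c₂ := by
  classical
  have hPr := hM.isPrime
  have hQH : Q ≤ H := hH ▸ Subgroup.le_normalizer
  have hCH : Subgroup.centralizer (Q : Set G) ≤ H := hH ▸ Subgroup.centralizer_le_normalizer _
  obtain ⟨f₁, hp₁, hl₁⟩ := hk_pair hM hH hQ h₁
  obtain ⟨f₂, hp₂, hl₂⟩ := hk_pair hM hH hQ h₂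
  obtain ⟨R, g, hle, hmax⟩ := exists_maximal_above hM Q f₂ hp₂
  have hRd := isDefectGroup_of_maximal hM hmax
  have hQR : Q ≤ R := chain_le hle
  obtain ⟨P, hPd, hPN⟩ := knorr_inf N hM hd hQN hdQ hB hcov
  obtain ⟨x₀, hx₀⟩ := isDefectGroup_conj_le hM hB hPd hRd
  have hRN : R ⊓ N ≤ Q := by
    have hcard : Nat.card (R ⊓ N : Subgroup G) ≤ Nat.card Q := by
      have hle' : (R ⊓ N).map (MulAut.conj x₀⁻¹).toMonoidHom ≤ P ⊓ N := by
        rintro _ ⟨c, hc, rfl⟩
        refine ⟨?_, ?_⟩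
        · have := hx₀ c hc.1
          simpa using this
        · have := hN.conj_mem c hc.2 x₀⁻¹
          simpa using this
      rw [hPN] at hle'
      have := Subgroup.card_le_of_le hle'
      rwa [Subgroup.card_map_of_injective (MulAut.conj x₀⁻¹).injective] at this
    exact (Subgroup.eq_of_le_of_card_ge (le_inf hQR hQN) hcard).symm.le
  obtain ⟨x, hx⟩ := exists_conj_below hM hmax hp₁
  have hxR : cs Q x ≤ R := chain_le hx
  have hxN : cs Q x ≤ N := by
    rintro _ ⟨q, hq, rfl⟩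
    exact hN.conj_mem q (hQN hq) x
  have hxle : cs Q x ≤ Q := fun z hz => hRN ⟨hxR hz, hxN hz⟩
  have hcs : cs Q x = Q := by
    refine Subgroup.eq_of_le_of_card_ge hxle ?_
    rw [Subgroup.card_map_of_injective (MulAut.conj x).injective]
  have hxH : x ∈ H := by
    rw [hH, Subgroup.mem_normalizer_iff]
    intro h
    constructor
    · intro hd
      have h1 : x * h * x⁻¹ ∈ cs Q x := conj_mem_cs hd
      rwa [hcs] at h1
    · intro hd
      have h1 : x * h * x⁻¹ ∈ cs Q x := by rwa [hcs]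
      rw [mem_cs] at h1
      simpa [mul_assoc] using h1
  have hcp : cp x ⟨Q, f₁⟩ = ⟨Q, f₂⟩ := by
    have hgen : ∀ a : BrauerPairIdx G, a.1 = Q → Relation.ReflTransGen (NormalSubpairRel p M) a ⟨R, g⟩ → a = ⟨Q, f₂⟩ := by
      rintro ⟨A, h⟩ hA hle'
      simp only at hA hle'
      subst hA
      rw [subpair_unique hM hmax.1.1 _ h f₂ hle' hle]
    exact hgen (cp x ⟨Q, f₁⟩) hcs hx
  have hconj : conjA x (incl H (fB c₁)) = incl H (fB c₁) := by
    apply MonoidAlgebra.ext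
    ext u
    rw [coeff_conjA]
    exact pInv_of_cent le_rfl (isCent_fB c₁) x hxH u
  have hP00 : ∀ ξ : IrrCharacter (Subgroup.centralizer ((cs Q x : Subgroup G) : Set G)), ξ ∈ conjBlock Q x f₁ →
      lam (cs Q x) (ξ : Subgroup.centralizer ((cs Q x : Subgroup G) : Set G) → ℂ) (incl H (fB c₁)) - 1 ∈ locI hPr := by
    intro ξ hξ
    rw [lam_conj, hconj]
    exact hl₁ _ (mem_conjBlock.1 hξ)
  have hP0 : ∀ ξ ∈ (cp x ⟨Q, f₁⟩).2, lam (cp x ⟨Q, f₁⟩).1 (ξ : _ → ℂ) (incl H (fB c₁)) - 1 ∈ locI hPr := hP00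
  rw [hcp] at hP0
  have hP1 : ∀ ξ ∈ f₂, lam Q (ξ : Subgroup.centralizer (Q : Set G) → ℂ) (incl H (fB c₁)) - 1 ∈ locI hPr := hP0
  exact (hk_eq_of_lam hM hQH hCH hQ h₂.1 h₁.1 hp₂.1.2 hl₂ hP1)

end

end CfsgLib.Block
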