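import Cfsg.Agent.Lib.Block.HK

/-! # Harris-Knörr, part 2 -/

set_option autoImplicit false
set_option linter.unusedSectionVars false
set_option linter.unusedVariables false

namespace CfsgLib.Block

open Cfsg CfsgLib.Char
open scoped ComplexConjugate Pointwise

universe u

/-- Restriction of an automorphism to a stable subgroup. -/
def hkRestr {A : Type*} [Group A] (ρ : A ≃* A) (X : Subgroup A) (h₁ : ∀ x ∈ X, ρ x ∈ X) (h₂ : ∀ x ∈ X, ρ.symm x ∈ X) :
    X ≃* X where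
  toFun x := ⟨ρ x, h₁ x x.2⟩
  invFun x := ⟨ρ.symm x, h₂ x x.2⟩
  left_inv x := Subtype.ext (by simp)
  right_inv x := Subtype.ext (by simp)
  map_mul' a b := Subtype.ext (by simp)

/-- The intersection as a subgroup of `H`. -/
def hkKappa {G : Type u} [Group G] (H N : Subgroup G) : ↥(N.subgroupOf H) ≃* ↥(H ⊓ N) where
  toFun l := ⟨l.1.1, l.1.2, Subgroup.mem_subgroupOf.1 l.2⟩
  invFun x := ⟨⟨x.1, x.2.1⟩, Subgroup.mem_subgroupOf.2 x.2.2⟩
  left_inv l := rfl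
  right_inv x := rfl
  map_mul' a b := rfl

/-- `L` as a subgroup of `N`. -/
def hkPhi {G : Type u} [Group G] {N L : Subgroup G} (hLN : L ≤ N) (H' : Subgroup N) (hH' : ∀ n : N, n ∈ H' ↔ (n : G) ∈ L) : H' ≃* L where
  toFun x := ⟨x.1.1, (hH' x.1).1 x.2⟩
  invFun y := ⟨⟨y.1, hLN y.2⟩, (hH' _).2 y.2⟩
  left_inv x := rfl
  right_inv y := rfl
  map_mul' a b := rfl

section

variable {G : Type u} [Group G] [Fintype G] {p : ℕ} [hp : Fact p.Prime] {M : Ideal AlgInt}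

theorem hk_clif {H N : Subgroup G} [Fintype H] [hN : N.Normal] [Fintype ↥(H ⊓ N)]
    {ψ : IrrCharacter H} {ξ : IrrCharacter ↥(H ⊓ N)}
    (hc : classInner (fun l : ↥(H ⊓ N) => (ψ : H → ℂ) (Subgroup.inclusion inf_le_left l)) (ξ : ↥(H ⊓ N) → ℂ) ≠ 0)
    {a : GA G} (ha : IsCent a) (hsupp : ∀ g, g ∉ N → a.coeff g = 0) :
    om (ψ : H → ℂ) (res H a) = om (ξ : ↥(H ⊓ N) → ℂ) (res (H ⊓ N) a) := by
  classical
  letI : Fintype ↥(N.subgroupOf H) := Fintype.ofFinite _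
  let κ := hkKappa H N
  let ξ2 : IrrCharacter ↥(N.subgroupOf H) := irrT κ.symm ξ
  have hc2 : classInner (fun n : ↥(N.subgroupOf H) => (ψ : H → ℂ) n) (ξ2 : ↥(N.subgroupOf H) → ℂ) ≠ 0 := by
    have := classInner_comp_mulEquiv κ (fun l : ↥(H ⊓ N) => (ψ : H → ℂ) (Subgroup.inclusion inf_le_left l)) (ξ : ↥(H ⊓ N) → ℂ)
    rw [← this] at hc
    exact hc
  have hcent : IsCent (res H a) := isCent_res_of_isCent _ ha
  have hy : IsCent (res (N.subgroupOf H) (res H a)) := isCent_res_of_isCent _ hcent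
  have hinc : incl (N.subgroupOf H) (res (N.subgroupOf H) (res H a)) = res H a :=
    incl_res_of_support _ fun g hg => hsupp g.1 fun h => hg (Subgroup.mem_subgroupOf.2 h)
  have hy' : IsCent (incl (N.subgroupOf H) (res (N.subgroupOf H) (res H a))) := by rw [hinc]; exact hcent
  have h := om_incl_of_constituent (N.subgroupOf H) ψ.2 ξ2.2 hc2 hy hy'
  rw [hinc] at h
  rw [h, om, om, hat, hat]
  congr 1
  exact Fintype.sum_equiv κ.toEquiv _ _ (fun l => rfl)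

theorem hk_exists_constituent {H N : Subgroup G} [Fintype H] [Fintype ↥(H ⊓ N)] [hN : N.Normal] (ψ : IrrCharacter H) :
    ∃ ξ : IrrCharacter ↥(H ⊓ N), classInner (fun l : ↥(H ⊓ N) => (ψ : H → ℂ) (Subgroup.inclusion inf_le_left l)) (ξ : ↥(H ⊓ N) → ℂ) ≠ 0 := by
  classical
  letI : Fintype ↥(N.subgroupOf H) := Fintype.ofFinite _
  obtain ⟨τ, hτ⟩ := exists_constituent_irr (N.subgroupOf H) ψ.2
  refine ⟨irrT (hkKappa H N) τ, ?_⟩
  have h := classInner_comp_mulEquiv (hkKappa H N) (fun l : ↥(H ⊓ N) => (ψ : H → ℂ) (Subgroup.inclusion inf_le_left l)) (irrT (hkKappa H N) τ : ↥(H ⊓ N) → ℂ)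
  rw [← h]
  have e : ((irrT (hkKappa H N) τ : ↥(H ⊓ N) → ℂ) ∘ (hkKappa H N)) = (τ : ↥(N.subgroupOf H) → ℂ) := by
    funext l
    simp [irrT_apply]
  rw [e]
  exact hτ

theorem hk_ind_eq {N L : Subgroup G} (hLN : L ≤ N) (H' : Subgroup N) (hH' : ∀ n : N, n ∈ H' ↔ (n : G) ∈ L) (ξ : L → ℂ) (g : N) :
    inducedCentralChar H' (ξ ∘ hkPhi hLN H' hH') g = inducedCentralCharIn N L ξ (g : G) := by
  classical
  unfold inducedCentralChar inducedCentralCharIn
  refine finsum_mem_eq_of_bijOn (hkPhi hLN H' hH') ⟨?_, (hkPhi hLN H' hH').injective.injOn, ?_⟩ ?_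
  · intro h hh
    obtain ⟨c, hc⟩ := isConj_iff.1 (IsConj.symm hh)
    exact ⟨c, congrArg Subtype.val hc⟩
  · intro k hk
    obtain ⟨x, hx⟩ := hk
    refine ⟨(hkPhi hLN H' hH').symm k, ?_, by simp⟩
    show IsConj g (((hkPhi hLN H' hH').symm k : H') : N)
    exact IsConj.symm (isConj_iff.2 ⟨x, Subtype.ext hx⟩)
  · intro h hh
    rfl

theorem hk_om_eq {N L : Subgroup G} [Fintype N] [Fintype L] (hLN : L ≤ N) (H' : Subgroup N) [Fintype H'] (hH' : ∀ n : N, n ∈ H' ↔ (n : G) ∈ L) (ξ : L → ℂ) (y : GA N) :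
    om (ξ ∘ hkPhi hLN H' hH') (res H' y) = om ξ (res L (incl N y)) := by
  rw [om, om, hat, hat]
  congr 1
  refine Fintype.sum_equiv (hkPhi hLN H' hH').toEquiv _ _ fun h => ?_
  show y.coeff (h : N) * ξ (hkPhi hLN H' hH' h) = (incl N y).coeff (((h : N) : G)) * ξ (hkPhi hLN H' hH' h)
  rw [coeff_incl_coe]

theorem hk_om_sub {N L : Subgroup G} [Fintype N] [Fintype L] (hLN : L ≤ N) (H' : Subgroup N) [Fintype H'] (hH' : ∀ n : N, n ∈ H' ↔ (n : G) ∈ L)
    {hPr : M.IsPrime} {ξ : L → ℂ} {θ : IrrCharacter N}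
    (h : ∀ g : N, inducedCentralChar H' (ξ ∘ hkPhi hLN H' hH') g - centralChar (θ : N → ℂ) g ∈ locI hPr)
    {y : GA N} (hy : IsCent y) (hs : SVal hPr y) : om ξ (res L (incl N y)) - om (θ : N → ℂ) y ∈ locI hPr := by
  rw [← hk_om_eq hLN H' hH']
  exact om_res_sub_mem θ.2 h hy hs

theorem hk_ind_aut {A : Type u} [Group A] (ρ : A ≃* A) (X : Subgroup A) (ρX : X ≃* X) (hρX : ∀ x : X, (ρX x : A) = ρ x)
    {b : Set (IrrCharacter X)} {d : Set (IrrCharacter A)} (hind : IsInducedBlock M X b d) :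
    IsInducedBlock M X (setT ρX b) (setT ρ d) := by
  classical
  refine ⟨isPBlock_setT _ hind.1, isPBlock_setT _ hind.2.1, fun ξ hξ χ hχ g => ?_⟩
  have h := hind.2.2 _ ((mem_setT ρX).1 hξ) _ ((mem_setT ρ).1 hχ) (ρ.symm g)
  have e1 : inducedCentralChar X ((irrT ρX).symm ξ : X → ℂ) (ρ.symm g) = inducedCentralChar X (ξ : X → ℂ) g := by
    unfold inducedCentralChar
    refine finsum_mem_eq_of_bijOn ρX ⟨?_, ρX.injective.injOn, ?_⟩ ?_
    · intro h hh
      show IsConj g ((ρX h : X) : A)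
      rw [hρX]
      obtain ⟨c, hc⟩ := isConj_iff.1 hh
      refine isConj_iff.2 ⟨ρ c, ?_⟩
      have := congrArg ρ hc
      simpa using this
    · intro k hk
      refine ⟨ρX.symm k, ?_, by simp⟩
      show IsConj (ρ.symm g) ((ρX.symm k : X) : A)
      have e : ((ρX.symm k : X) : A) = ρ.symm k := by
        apply ρ.injective
        rw [← hρX]
        simp
      rw [e]
      obtain ⟨c, hc⟩ := isConj_iff.1 hk
      refine isConj_iff.2 ⟨ρ.symm c, ?_⟩
      have := congrArg ρ.symm hc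
      simpa using this
    · intro h _
      simp [irrT_symm_apply]
  have e2 : centralChar ((irrT ρ).symm χ : A → ℂ) (ρ.symm g) = centralChar (χ : A → ℂ) g := by
    rw [irrT_symm_coe, centralChar_comp_iso]
    simp
  rwa [e1, e2] at h

end

section

variable {G : Type u} [Group G] [Fintype G] {p : ℕ} [hp : Fact p.Prime] {M : Ideal AlgInt} (hM : IsPModular p M)

attribute [local instance] centFintype

theorem hk_norm_of_le {Q : Subgroup G} {x : G} (h : cs Q x ≤ Q) : x ∈ Subgroup.normalizer (Q : Set G) := by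
  have hcs : cs Q x = Q := by
    refine Subgroup.eq_of_le_of_card_ge h ?_
    rw [Subgroup.card_map_of_injective (MulAut.conj x).injective]
  rw [Subgroup.mem_normalizer_iff]
  intro h
  constructor
  · intro hd
    have h1 : x * h * x⁻¹ ∈ cs Q x := conj_mem_cs hd
    rwa [hcs] at h1
  · intro hd
    have h1 : x * h * x⁻¹ ∈ cs Q x := by rwa [hcs]
    rw [mem_cs] at h1
    simpa [mul_assoc] using h1

include hM

/-- Part (a). -/
theorem hk_cover (N : Subgroup G) [hN : N.Normal] [Fintype N] {H : Subgroup G} [Fintype H] [Fintype ↥(H ⊓ N)]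
    {d : Set (IrrCharacter N)} (hd : IsPBlock M d) {e : Set (IrrCharacter ↥(H ⊓ N))}
    (hed : IsInducedBlockIn M N (H ⊓ N) e d) {c : Set (IrrCharacter H)} {B : Set (IrrCharacter G)}
    (hcov : ∃ ψ ∈ c, ∃ ξ ∈ e, classInner (fun l : ↥(H ⊓ N) => (ψ : H → ℂ) (Subgroup.inclusion inf_le_left l)) (ξ : ↥(H ⊓ N) → ℂ) ≠ 0)
    (hind : IsInducedBlock M H c B) :
    ∃ χ ∈ B, ∃ θ ∈ d, classInner (fun n : N => (χ : G → ℂ) n) (θ : N → ℂ) ≠ 0 := by
  classical
  have hPr := hM.isPrime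
  obtain ⟨ψ, hψ, ξ, hξ, hne⟩ := hcov
  obtain ⟨χ, hχ⟩ := IsPBlock.nonempty hPr hind.2.1
  obtain ⟨θ, hθ⟩ := IsPBlock.nonempty hPr hd
  obtain ⟨τ, hτ⟩ := exists_constituent_irr N χ.2
  have hA := isStable_orbitSet N d
  have h1 := om_incl_fB N hA χ.2 hτ
  have ha : IsCent (incl N (fB (orbitSet N d))) := isCent_incl_fB N hA
  have hs : SVal hPr (incl N (fB (orbitSet N d))) := sval_incl_fB_orbitSet N hM hd
  have hsupp : ∀ g, g ∉ N → (incl N (fB (orbitSet N d))).coeff g = 0 := fun g hg => coeff_incl_not_mem N _ hg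
  have h2 := om_res_sub_mem (H := H) (hP := hPr) χ.2 (fun g => hind.2.2 ψ hψ χ hχ g) ha hs
  rw [hk_clif hne ha hsupp, h1] at h2
  letI : Fintype ↥((H ⊓ N).subgroupOf N) := Fintype.ofFinite _
  have hH' : ∀ n : N, n ∈ (H ⊓ N).subgroupOf N ↔ (n : G) ∈ H ⊓ N := fun n => Subgroup.mem_subgroupOf
  have h4 := hk_om_sub inf_le_right ((H ⊓ N).subgroupOf N) hH' (hPr := hPr) (ξ := (ξ : ↥(H ⊓ N) → ℂ)) (θ := θ)
    (fun g => by rw [hk_ind_eq]; exact hed.2.2 ξ hξ θ hθ g) (isCent_fB (orbitSet N d)) (sval_fB_orbitSet N hM hd)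
  rw [om_fB, if_pos (subset_orbitSet N d hθ)] at h4
  by_cases hm : τ ∈ orbitSet N d
  · obtain ⟨g, θ', hθ', rfl⟩ := hm
    rw [classInner_conjIrr N χ.2.isClassFunction] at hτ
    exact ⟨χ, hχ, θ', hθ', hτ⟩
  · rw [if_neg hm] at h2
    exfalso
    apply one_notMem_locI hPr
    have := (locI hPr).sub_mem h2 h4
    convert this using 1
    ring

/-- Part (b): existence. -/
theorem hk_exists (N : Subgroup G) [hN : N.Normal] [Fintype N] {Q H : Subgroup G} [Fintype H] [Fintype ↥(H ⊓ N)]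
    (hH : H = Subgroup.normalizer (Q : Set G)) (hQ : IsPGroup p Q) (hQN : Q ≤ N)
    {d : Set (IrrCharacter N)} (hd : IsPBlock M d) (hdQ : IsDefectGroup p M d (Q.subgroupOf N))
    {e : Set (IrrCharacter ↥(H ⊓ N))} (he : IsPBlock M e) (heQ : IsDefectGroup p M e (Q.subgroupOf (H ⊓ N)))
    (hed : IsInducedBlockIn M N (H ⊓ N) e d) {B : Set (IrrCharacter G)} (hB : IsPBlock M B)
    (hcov : ∃ χ ∈ B, ∃ θ ∈ d, classInner (fun n : N => (χ : G → ℂ) n) (θ : N → ℂ) ≠ 0) :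
    ∃ c : Set (IrrCharacter H), (IsPBlock M c ∧ ∃ ψ ∈ c, ∃ ξ ∈ e, classInner (fun l : ↥(H ⊓ N) => (ψ : H → ℂ) (Subgroup.inclusion inf_le_left l)) (ξ : ↥(H ⊓ N) → ℂ) ≠ 0) ∧
      IsInducedBlock M H c B := by
  classical
  have hPr := hM.isPrime
  have hQH : Q ≤ H := hH ▸ Subgroup.le_normalizer
  have hCH : Subgroup.centralizer (Q : Set G) ≤ H := hH ▸ Subgroup.centralizer_le_normalizer _
  obtain ⟨χ₀, hχ₀, θ₀', hθ₀', hne₀⟩ := hcov
  obtain ⟨P, hPd, hPN⟩ := knorr_inf N hM hd hQN hdQ hB ⟨χ₀, hχ₀, θ₀', hθ₀', hne₀⟩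
  have hQP : Q ≤ P := by rw [← hPN]; exact inf_le_left
  obtain ⟨c₀, hc₀⟩ := exists_induced_of_le_defect hM hQ hQH hCH hH.le hB hPd hQP
  obtain ⟨ψ, hψ⟩ := IsPBlock.nonempty hPr hc₀.1
  obtain ⟨ξ', hξ'⟩ := hk_exists_constituent (H := H) (N := N) ψ
  -- the level of `N`
  have hH' : ∀ n : N, n ∈ Subgroup.normalizer ((Q.subgroupOf N : Subgroup N) : Set N) ↔ (n : G) ∈ H ⊓ N := by
    intro n
    rw [hH]
    constructor
    · intro hn
      refine ⟨(?_ : (n : G) ∈ Subgroup.normalizer (Q : Set G)), n.2⟩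
      rw [Subgroup.mem_normalizer_iff]
      intro x
      constructor
      · intro hx
        have := (Subgroup.mem_normalizer_iff.1 hn ⟨x, hQN hx⟩).1 (Subgroup.mem_subgroupOf.2 hx)
        exact Subgroup.mem_subgroupOf.1 this
      · intro hx
        have hxN : x ∈ N := by
          have h1 := hN.conj_mem _ (hQN hx) (n : G)⁻¹
          have h2 : (n : G)⁻¹ * ((n : G) * x * (n : G)⁻¹) * ((n : G)⁻¹)⁻¹ = x := by group
          rwa [h2] at h1
        exact Subgroup.mem_subgroupOf.1 ((Subgroup.mem_normalizer_iff.1 hn ⟨x, hxN⟩).2 (Subgroup.mem_subgroupOf.2 hx))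
    · rintro ⟨hn, -⟩
      rw [Subgroup.mem_normalizer_iff]
      intro x
      have := Subgroup.mem_normalizer_iff.1 hn (x : G)
      constructor
      · intro hx
        exact Subgroup.mem_subgroupOf.2 (this.1 (Subgroup.mem_subgroupOf.1 hx))
      · intro hx
        exact Subgroup.mem_subgroupOf.2 (this.2 (Subgroup.mem_subgroupOf.1 hx))
  letI : Fintype ↥(Subgroup.normalizer ((Q.subgroupOf N : Subgroup N) : Set N)) := Fintype.ofFinite _
  let φ := hkPhi (inf_le_right : H ⊓ N ≤ N) (Subgroup.normalizer ((Q.subgroupOf N : Subgroup N) : Set N)) hH'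
  have hQ'p : IsPGroup p (Q.subgroupOf N) := by
    intro g
    obtain ⟨k, hk⟩ := hQ ⟨((g : N) : G), Subgroup.mem_subgroupOf.1 g.2⟩
    exact ⟨k, Subtype.ext (Subtype.ext (by simpa using congrArg Subtype.val hk))⟩
  have he' : IsPBlock M (blockOf M (ξ' : ↥(H ⊓ N) → ℂ)) := ⟨ξ', rfl⟩
  have he2 : IsPBlock M (setT φ.symm (blockOf M (ξ' : ↥(H ⊓ N) → ℂ))) := isPBlock_setT _ he'
  have hQ'H' : Q.subgroupOf N ≤ Subgroup.normalizer ((Q.subgroupOf N : Subgroup N) : Set N) := Subgroup.le_normalizer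
  obtain ⟨d2, hind2⟩ := inducedBlockDefined hM hQ'p hQ'H' (Subgroup.centralizer_le_normalizer _) le_rfl he2
  obtain ⟨θ2, hθ2⟩ := IsPBlock.nonempty hPr hind2.2.1
  -- `θ2` lies in the orbit of `d`
  have hA := isStable_orbitSet N d
  have ha : IsCent (incl N (fB (orbitSet N d))) := isCent_incl_fB N hA
  have hs : SVal hPr (incl N (fB (orbitSet N d))) := sval_incl_fB_orbitSet N hM hd
  have hsupp : ∀ g, g ∉ N → (incl N (fB (orbitSet N d))).coeff g = 0 := fun g hg => coeff_incl_not_mem N _ hg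
  have h1 := om_incl_fB N hA χ₀.2 (τ := θ₀') hne₀
  rw [if_pos (subset_orbitSet N d hθ₀')] at h1
  have h2 := om_res_sub_mem (H := H) (hP := hPr) χ₀.2 (fun g => hc₀.2.2 ψ hψ χ₀ hχ₀ g) ha hs
  rw [hk_clif hξ' ha hsupp, h1] at h2
  have hξ2 : irrT φ.symm ξ' ∈ setT φ.symm (blockOf M (ξ' : ↥(H ⊓ N) → ℂ)) := (irrT_mem_setT _).2 (self_mem_blockOf hPr ξ')
  have h3 := hk_om_sub (inf_le_right : H ⊓ N ≤ N) (Subgroup.normalizer ((Q.subgroupOf N : Subgroup N) : Set N)) hH' (hPr := hPr)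
    (ξ := (ξ' : ↥(H ⊓ N) → ℂ)) (θ := θ2) (fun g => hind2.2.2 (irrT φ.symm ξ') hξ2 θ2 hθ2 g)
    (isCent_fB (orbitSet N d)) (sval_fB_orbitSet N hM hd)
  rw [om_fB] at h3
  have hmem : θ2 ∈ orbitSet N d := by
    by_contra hm
    rw [if_neg hm] at h3
    apply one_notMem_locI hPr
    have := (locI hPr).sub_mem h3 h2
    convert this using 1
    ring
  obtain ⟨g, θ₀, hθ₀, hθ2eq⟩ := hmem
  -- defect groups
  obtain ⟨D2, hD2, hQ'D2⟩ := exists_defect_ge_of_induced hM hQ'p hQ'H' le_rfl hind2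
  have hmk : ∀ t : G, θ2 = conjIrr N t θ₀ → d2 = setT (conjNormalEquiv N t).symm d := by
    intro t ht
    have hmemT : θ2 ∈ setT (conjNormalEquiv N t).symm d := by
      rw [ht]
      have e : conjIrr N t θ₀ = irrT (conjNormalEquiv N t).symm θ₀ := by
        apply Subtype.ext
        funext x
        rw [irrT_apply, coe_conjIrr, conjOn_eq_comp]
        rfl
      rw [e]
      exact (irrT_mem_setT _).2 hθ₀
    rw [blockOf_eq_of_mem hPr hind2.2.1 hθ2, blockOf_eq_of_mem hPr (isPBlock_setT _ hd) hmemT]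
  have hDg := isDefectGroup_setT (conjNormalEquiv N g).symm hdQ
  rw [← hmk g hθ2eq] at hDg
  obtain ⟨n, hn⟩ := isDefectGroup_conj_le hM hind2.2.1 hD2 hDg
  have hQD : Q.subgroupOf N = D2 := by
    refine Subgroup.eq_of_le_of_card_ge hQ'D2 ?_
    rw [card_defectGroup hM hind2.2.1 hD2, ← card_defectGroup hM hind2.2.1 hDg]
    exact (Subgroup.card_map_of_injective (conjNormalEquiv N g).symm.injective).le
  subst hQD
  -- the conjugating element
  let t : G := g * (n : G)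
  have htinv : t⁻¹ ∈ Subgroup.normalizer (Q : Set G) := by
    apply hk_norm_of_le
    rintro _ ⟨q, hq, rfl⟩
    have h4 := hn ((conjNormalEquiv N g).symm ⟨q, hQN hq⟩) ⟨⟨q, hQN hq⟩, Subgroup.mem_subgroupOf.2 hq, rfl⟩
    have h5 := Subgroup.mem_subgroupOf.1 h4
    have e0 : (((conjNormalEquiv N g).symm ⟨q, hQN hq⟩ : N) : G) = g⁻¹ * q * g := MulAut.conjNormal_symm_apply g _
    have e : t⁻¹ * q * t⁻¹⁻¹ = ((n⁻¹ * (conjNormalEquiv N g).symm ⟨q, hQN hq⟩ * n : N) : G) := by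
      rw [Subgroup.coe_mul, Subgroup.coe_mul, e0, Subgroup.coe_inv]
      show (g * (n : G))⁻¹ * q * (g * (n : G))⁻¹⁻¹ = (n : G)⁻¹ * (g⁻¹ * q * g) * n
      group
    show t⁻¹ * q * t⁻¹⁻¹ ∈ Q
    rw [e]
    exact h5
  have htH : t ∈ H := by
    rw [hH]
    have := inv_mem htinv
    simpa using this
  have hθt : θ2 = conjIrr N t θ₀ := by
    show θ2 = conjIrr N (g * (n : G)) θ₀
    rw [conjIrr_mul, ← hθ2eq]
    apply Subtype.ext
    funext x
    rw [coe_conjIrr, conjOn_apply]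
    have e : (⟨(n : G) * x * (n : G)⁻¹, hN.conj_mem x x.2 n⟩ : N) = n * x * n⁻¹ := rfl
    rw [e]
    exact (θ2.2.isClassFunction x n).symm
  have hd2 := hmk t hθt
  -- stability of the normalizer
  have hstab1 : ∀ x ∈ Subgroup.normalizer ((Q.subgroupOf N : Subgroup N) : Set N), conjNormalEquiv N t x ∈ Subgroup.normalizer ((Q.subgroupOf N : Subgroup N) : Set N) := by
    intro x hx
    rw [hH'] at hx ⊢
    exact ⟨H.mul_mem (H.mul_mem htH hx.1) (H.inv_mem htH), (conjNormalEquiv N t x).2⟩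
  have hstab2 : ∀ x ∈ Subgroup.normalizer ((Q.subgroupOf N : Subgroup N) : Set N), (conjNormalEquiv N t).symm x ∈ Subgroup.normalizer ((Q.subgroupOf N : Subgroup N) : Set N) := by
    intro x hx
    rw [hH'] at hx ⊢
    refine ⟨?_, ((conjNormalEquiv N t).symm x).2⟩
    show t⁻¹ * x * t⁻¹⁻¹ ∈ H
    exact H.mul_mem (H.mul_mem (H.inv_mem htH) hx.1) (H.inv_mem (H.inv_mem htH))
  let ρX := hkRestr (conjNormalEquiv N t) _ hstab1 hstab2
  have hind3 := hk_ind_aut (M := M) (conjNormalEquiv N t) _ ρX (fun x => rfl) hind2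
  have hset : setT (conjNormalEquiv N t) d2 = d := by
    rw [hd2]
    have := setT_setT_symm (conjNormalEquiv N t) d
    exact this
  rw [hset] at hind3
  have hind1 : IsInducedBlock M (Subgroup.normalizer ((Q.subgroupOf N : Subgroup N) : Set N)) (setT φ.symm e) d := by
    refine ⟨isPBlock_setT _ he, hd, fun ξ hξ χ hχ g => ?_⟩
    have hξe : (irrT φ.symm).symm ξ ∈ e := (mem_setT _).1 hξ
    have h5 := hed.2.2 _ hξe χ hχ g
    have e2 := hk_ind_eq (inf_le_right : H ⊓ N ≤ N) (Subgroup.normalizer ((Q.subgroupOf N : Subgroup N) : Set N)) hH' (((irrT φ.symm).symm ξ : IrrCharacter ↥(H ⊓ N)) : ↥(H ⊓ N) → ℂ) g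
    rw [← e2] at h5
    have e3 : (((irrT φ.symm).symm ξ : IrrCharacter ↥(H ⊓ N)) : ↥(H ⊓ N) → ℂ) ∘ hkPhi (inf_le_right : H ⊓ N ≤ N) (Subgroup.normalizer ((Q.subgroupOf N : Subgroup N) : Set N)) hH' = (ξ : _ → ℂ) := by
      funext x
      show (ξ : _ → ℂ) (φ.symm (φ x)) = (ξ : _ → ℂ) x
      rw [MulEquiv.symm_apply_apply]
    rw [e3] at h5
    exact h5
  have hdef : IsDefectGroup p M (setT φ.symm e) ((Q.subgroupOf N).subgroupOf (Subgroup.normalizer ((Q.subgroupOf N : Subgroup N) : Set N))) := by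
    have h5 := isDefectGroup_setT φ.symm heQ
    convert h5 using 1
    ext x
    constructor
    · intro hx
      refine ⟨φ x, ?_, by simp⟩
      exact Subgroup.mem_subgroupOf.2 (Subgroup.mem_subgroupOf.1 (Subgroup.mem_subgroupOf.1 hx))
    · rintro ⟨l, hl, rfl⟩
      exact Subgroup.mem_subgroupOf.2 (Subgroup.mem_subgroupOf.2 (Subgroup.mem_subgroupOf.1 hl))
  have hfm := first_main_unique hM hQ'p hind1 hind3 hdef
  -- transport `ξ'`
  have hmem3 : irrT ρX (irrT φ.symm ξ') ∈ setT ρX (setT φ.symm (blockOf M (ξ' : ↥(H ⊓ N) → ℂ))) := (irrT_mem_setT _).2 hξ2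
  rw [hfm] at hmem3
  have hξ₀ : (irrT φ.symm).symm (irrT ρX (irrT φ.symm ξ')) ∈ e := (mem_setT _).1 hmem3
  refine ⟨c₀, ⟨hc₀.1, ψ, hψ, _, hξ₀, ?_⟩, hc₀⟩
  -- conjugation by `t` on `L`
  have hL1 : ∀ x ∈ H ⊓ N, (MulAut.conj t).symm x ∈ H ⊓ N := by
    intro x hx
    rw [MulAut.conj_symm_apply]
    refine ⟨H.mul_mem (H.mul_mem (H.inv_mem htH) hx.1) htH, ?_⟩
    have := hN.conj_mem x hx.2 t⁻¹
    simpa using this
  have hL2 : ∀ x ∈ H ⊓ N, (MulAut.conj t) x ∈ H ⊓ N := by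
    intro x hx
    exact ⟨H.mul_mem (H.mul_mem htH hx.1) (H.inv_mem htH), hN.conj_mem x hx.2 t⟩
  let α := hkRestr (MulAut.conj t).symm (H ⊓ N) hL1 (by simpa using hL2)
  have hval : (((irrT φ.symm).symm (irrT ρX (irrT φ.symm ξ')) : IrrCharacter ↥(H ⊓ N)) : ↥(H ⊓ N) → ℂ) = (ξ' : ↥(H ⊓ N) → ℂ) ∘ α := by
    funext l
    show (ξ' : ↥(H ⊓ N) → ℂ) (φ (ρX.symm (φ.symm l))) = (ξ' : ↥(H ⊓ N) → ℂ) (α l)
    refine congrArg _ (Subtype.ext ?_)
    show (((conjNormalEquiv N t).symm (⟨l.1, l.2.2⟩ : N) : N) : G) = (MulAut.conj t).symm (l : G)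
    rw [MulAut.conj_symm_apply]
    exact MulAut.conjNormal_symm_apply t _
  have hψα : (fun l : ↥(H ⊓ N) => (ψ : H → ℂ) (Subgroup.inclusion inf_le_left l)) ∘ α = (fun l : ↥(H ⊓ N) => (ψ : H → ℂ) (Subgroup.inclusion inf_le_left l)) := by
    funext l
    have h6 := ψ.2.isClassFunction (Subgroup.inclusion inf_le_left l) (⟨t⁻¹, H.inv_mem htH⟩ : H)
    have e : Subgroup.inclusion (inf_le_left : H ⊓ N ≤ H) (α l) = (⟨t⁻¹, H.inv_mem htH⟩ : H) * Subgroup.inclusion inf_le_left l * (⟨t⁻¹, H.inv_mem htH⟩ : H)⁻¹ := by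
      apply Subtype.ext
      show (MulAut.conj t).symm (l : G) = t⁻¹ * l * t⁻¹⁻¹
      rw [MulAut.conj_symm_apply, inv_inv]
    show (ψ : H → ℂ) (Subgroup.inclusion (inf_le_left : H ⊓ N ≤ H) (α l)) = _
    rw [e]
    exact h6
  rw [hval, ← hψα, classInner_comp_mulEquiv]
  exact hξ'

end

end CfsgLib.Block
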