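import Cfsg.Agent.Lib.Block.Kern
import Cfsg.Agent.Lib.Block.Ambient

/-! # Blocks of a subgroup containing the centralizer of a defect group -/

set_option autoImplicit false
set_option linter.unusedSectionVars false
set_option linter.unusedVariables false

namespace CfsgLib.Block

open Cfsg CfsgLib.Char
open scoped ComplexConjugate Pointwise

universe u

section

variable {G : Type u} [Group G] [Fintype G] {p : ℕ} [hp : Fact p.Prime] {M : Ideal AlgInt} (hM : IsPModular p M)

attribute [local instance] centFintype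

include hM

theorem s4726_aux (H : Subgroup G) [Fintype H] (b : Set (IrrCharacter H)) (hb : IsPBlock M b) (D₀ : Subgroup H)
    (hD₀ : IsDefectGroup p M b D₀)
    (hC : Subgroup.centralizer ((D₀.map H.subtype : Subgroup G) : Set G) ≤ H) :
    InducedBlockDefined M H b ∧ ∀ B : Set (IrrCharacter G), IsInducedBlock M H b B →
      (∃ D : Subgroup G, IsDefectGroup p M B D ∧ (Subgroup.center ↥D).map D.subtype ≤ ((Subgroup.center ↥D₀).map D₀.subtype).map H.subtype ∧
        ((Subgroup.center ↥D₀).map D₀.subtype).map H.subtype ≤ D₀.map H.subtype ∧ D₀.map H.subtype ≤ D) ∧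
      (∀ D : Subgroup G, IsDefectGroup p M B D → IsMulCommutative ↥D → IsDefectGroup p M B (D₀.map H.subtype)) := by
  classical
  have hPr := hM.isPrime
  obtain ⟨P, hPdef⟩ : ∃ P : Subgroup G, P = D₀.map H.subtype := ⟨_, rfl⟩
  rw [← hPdef] at hC
  have hPp : IsPGroup p P := hPdef ▸ (isPGroup_of_defect hD₀).map _
  have hPH : P ≤ H := hPdef ▸ Subgroup.map_subtype_le _
  have hPX : P ≤ Subgroup.normalizer ((H : Subgroup G) : Set G) := hPH.trans Subgroup.le_normalizer
  have hfP : PInv P (incl H (fB b)) := pInv_of_cent hPH (isCent_fB b)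
  obtain ⟨c, hc, hne⟩ := coeff_of_defect (P := P) hD₀ hPdef.le hPr
  have hne' : blockCoeff b ⟨(c : G), hC hc⟩ ∉ locI hPr := by simpa using hne
  refine ⟨?_, ?_⟩
  · obtain ⟨ξ₀, h₀⟩ := exists_lam_of_coeff hM hPp hC hb hfP hc hne'
    have hwC : PInv (Subgroup.centralizer (P : Set G)) (incl H (fB b)) := pInv_of_cent hC (isCent_fB b)
    have hws : SVal hPr (incl H (fB b)) := sval_incl _ hPr (sval_fB hM hb)
    have he : IsPBlock M (blockOf M (ξ₀ : Subgroup.centralizer (P : Set G) → ℂ)) := ⟨ξ₀, rfl⟩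
    have hlam : ∀ ξ ∈ blockOf M (ξ₀ : Subgroup.centralizer (P : Set G) → ℂ),
        lam P (ξ : Subgroup.centralizer (P : Set G) → ℂ) (incl H (fB b)) - 1 ∈ locI hPr := by
      intro ξ hξ
      have h1 := lam_sub_of_sameBlock hM he hξ (self_mem_blockOf hPr ξ₀) hwC hws
      have h2 := (locI hPr).add_mem h1 h₀
      convert h2 using 1
      ring
    obtain ⟨B', hB', -⟩ := existsUnique_block_of_pair hM (P := P) (e := blockOf M (ξ₀ : Subgroup.centralizer (P : Set G) → ℂ)) ⟨hPp, he⟩
    exact ⟨B', isInduced_of_lam hM hPp hC hPX hB' hb hfP hlam⟩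
  · intro B hind
    obtain ⟨e, he, hlam⟩ := exists_pair_of_coeff hM hPp hC hPX hind hfP hc hne'
    obtain ⟨R, g, hle, hmax⟩ := exists_maximal_above hM P e he
    have hBb := hind.2.1
    have hRdef := isDefectGroup_of_maximal hM hmax
    have hPR : P ≤ R := chain_le hle
    have hRg : IsBrauerPair p M R g := hmax.1.1
    have hRp : IsPGroup p R := hRg.1
    have hZ : (Subgroup.center R).map R.subtype ≤ P := by
      obtain ⟨Y, hY⟩ : ∃ Y : Subgroup G, Y = P ⊔ (Subgroup.center R).map R.subtype := ⟨_, rfl⟩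
      have hZR : (Subgroup.center R).map R.subtype ≤ R := Subgroup.map_subtype_le _
      have hYR : Y ≤ R := hY ▸ sup_le hPR hZR
      have hPY : P ≤ Y := hY ▸ le_sup_left
      have hZC : (Subgroup.center R).map R.subtype ≤ Subgroup.centralizer (P : Set G) := by
        rintro _ ⟨z, hz, rfl⟩
        rw [Subgroup.mem_centralizer_iff]
        intro t ht
        exact congrArg Subtype.val (Subgroup.mem_center_iff.1 hz ⟨t, hPR ht⟩)
      have hYH : Y ≤ H := hY ▸ sup_le hPH (hZC.trans hC)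
      obtain ⟨f, ⟨hf, hfle⟩, -⟩ := existsUnique_subpair hM hRg hYR
      have hYf : IsBrauerPair p M Y f := ⟨hRp.to_le hYR, hf⟩
      obtain ⟨f', ⟨hf', hf'le⟩, -⟩ := existsUnique_subpair hM hYf hPY
      have hee : f' = e := by
        obtain ⟨f₀, -, huniq⟩ := existsUnique_subpair hM hRg hPR
        rw [huniq f' ⟨hf', Relation.ReflTransGen.trans hf'le hfle⟩, huniq e ⟨he.1.2, hle⟩]
      subst hee
      have hQ0 : ∀ ξ ∈ f', brauerOmega P (fun g => (incl H (fB b)).coeff g) (ξ : Subgroup.centralizer (P : Set G) → ℂ) - 1 ∈ locI hPr := by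
        intro ξ hξ
        rw [brauerOmega_eq_lam P _ _ (fun _ => rfl)]
        exact hlam ξ hξ
      obtain ⟨a₀, h₀, ha₀⟩ := exists_upP_eq (⟨P, f'⟩ : BrauerPairIdx G) hPH hC
      have hQ1 : ∀ ξ ∈ (upP H a₀ h₀).2, brauerOmega (upP H a₀ h₀).1 (fun g => (incl H (fB b)).coeff g) (ξ : _ → ℂ) - 1 ∈ locI hPr := by
        rw [ha₀]
        exact hQ0
      have ha₀pair : IsBrauerPair p M a₀.1 a₀.2 := (isBrauerPair_up_iff h₀).1 (by rw [ha₀]; exact he.1)
      have hEa₀ : IsBrauerPairOf p M b a₀.1 a₀.2 := by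
        refine ⟨ha₀pair, hb, fun ξ hξ => ?_⟩
        have h1 := brauerOmega_up h₀ (fun g => (incl H (fB b)).coeff g) (blockCoeff b) (fun c => by rw [coeff_incl_coe, coeff_fB]) ξ
        rw [h1]
        exact hQ1 _ ((irrT_mem_setT _).2 hξ)
      have hch1 : Relation.ReflTransGen (NormalSubpairRel p M) (upP H a₀ h₀) ⟨Y, f⟩ := by
        rw [ha₀]
        exact hf'le
      obtain ⟨y', hy', hyeq, hchy⟩ := chain_down h₀ hch1 hYH
      have hy'pair : IsBrauerPair p M y'.1 y'.2 := (isBrauerPair_up_iff hy').1 (by rw [hyeq]; exact hYf)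
      have hEy : IsBrauerPairOf p M b y'.1 y'.2 := (pair_iff_of_chain hM hy'pair ha₀pair hchy hb).2 hEa₀
      obtain ⟨R', g', hle', hmax'⟩ := exists_maximal_above hM y'.1 y'.2 hEy
      have hdefR' := isDefectGroup_of_maximal hM hmax'
      have hcard := card_defectGroup hM hb hdefR'
      have hcard0 := card_defectGroup hM hb hD₀
      have ha₀1 : a₀.1 = D₀ := by
        have h1 : a₀.1.map H.subtype = P := congrArg Sigma.fst ha₀
        apply Subgroup.map_injective H.subtype_injective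
        rw [h1, hPdef]
      have hD₀y : D₀ ≤ y'.1 := ha₀1 ▸ chain_le hchy
      have hyR' : y'.1 ≤ R' := chain_le hle'
      have heq : D₀ = R' := Subgroup.eq_of_le_of_card_ge (hD₀y.trans hyR') (by rw [hcard, hcard0])
      have hyD : y'.1 = D₀ := le_antisymm (heq ▸ hyR') hD₀y
      have hYP : Y = P := by
        have h1 : y'.1.map H.subtype = Y := congrArg Sigma.fst hyeq
        rw [← h1, hyD, hPdef]
      rw [← hYP, hY]
      exact le_sup_right
    refine ⟨⟨R, hRdef, ?_, ?_, hPdef ▸ hPR⟩, ?_⟩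
    · rintro _ ⟨z, hz, rfl⟩
      have hz1 : (z : G) ∈ P := hZ ⟨z, hz, rfl⟩
      rw [hPdef] at hz1
      obtain ⟨s, hs, hse⟩ := hz1
      refine ⟨s, ⟨⟨s, hs⟩, ?_, rfl⟩, hse⟩
      rw [SetLike.mem_coe, Subgroup.mem_center_iff]
      intro t
      apply Subtype.ext
      apply Subtype.ext
      have h1 : ((t : H) : G) ∈ R := hPR (by rw [hPdef]; exact ⟨t, t.2, rfl⟩)
      have h2 := congrArg Subtype.val (Subgroup.mem_center_iff.1 hz ⟨_, h1⟩)
      have hse' : (s : G) = (z : G) := hse
      show ((t : H) : G) * (s : G) = (s : G) * ((t : H) : G)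
      rw [hse']
      exact h2
    · exact Subgroup.map_mono (Subgroup.map_subtype_le _)
    · intro D hDdef hcomm
      obtain ⟨x, hx⟩ := isDefectGroup_conj_le hM hBb hDdef hRdef
      have hRcomm : ∀ a ∈ R, ∀ c ∈ R, a * c = c * a := by
        intro a ha c hc'
        have h2 := congrArg Subtype.val (hcomm.is_comm.comm (⟨_, hx a ha⟩ : D) ⟨_, hx c hc'⟩)
        have h3 : (x⁻¹ * a * x) * (x⁻¹ * c * x) = (x⁻¹ * c * x) * (x⁻¹ * a * x) := h2
        calc a * c = x * ((x⁻¹ * a * x) * (x⁻¹ * c * x)) * x⁻¹ := by group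
          _ = x * ((x⁻¹ * c * x) * (x⁻¹ * a * x)) * x⁻¹ := by rw [h3]
          _ = c * a := by group
      have hRP : R ≤ P := fun r hr => hZ ⟨⟨r, hr⟩, Subgroup.mem_center_iff.2 (fun t => Subtype.ext (hRcomm _ t.2 _ hr)), rfl⟩
      have h4 : P = R := le_antisymm hPR hRP
      rw [← hPdef, h4]
      exact hRdef

end

end CfsgLib.Block
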