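import Cfsg.Agent.Lib.Block.KB7
import Cfsg.Agent.Lib.Block.Ind726
import Cfsg.Agent.Lib.Block.PPart
import Cfsg.Agent.Lib.Char.GalSum

/-! # The height bound: local properties of the block parts of sections -/

set_option autoImplicit false
set_option linter.unusedSectionVars false
set_option linter.unusedVariables false

namespace CfsgLib.Block

open Cfsg CfsgLib.Char
open scoped ComplexConjugate Pointwise

universe u

section P1

variable {G : Type u} [Group G] [Fintype G] {p : ℕ} [hp : Fact p.Prime] {M : Ideal AlgInt} (hM : IsPModular p M)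

theorem classInner_self_real {H : Type u} [Group H] [Fintype H] (f : H → ℂ) :
    classInner f f = (((Nat.card H : ℝ)⁻¹ * ∑ x, ‖f x‖ ^ 2 : ℝ) : ℂ) := by
  rw [classInner_def]
  push_cast
  congr 1
  refine Finset.sum_congr rfl fun x _ => ?_
  rw [Complex.mul_conj, Complex.normSq_eq_norm_sq]
  push_cast
  rfl

theorem classInner_self_pos {H : Type u} [Group H] [Fintype H] {f : H → ℂ} (hf : f ≠ 0) :
    0 < (classInner f f).re := by
  rw [classInner_self_real, Complex.ofReal_re]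
  obtain ⟨x, hx⟩ := Function.ne_iff.1 hf
  have h1 : 0 < ‖f x‖ ^ 2 := by
    have := norm_pos_iff.2 hx
    positivity
  have h2 : ‖f x‖ ^ 2 ≤ ∑ y, ‖f y‖ ^ 2 :=
    Finset.single_le_sum (f := fun y => ‖f y‖ ^ 2) (fun _ _ => by positivity) (Finset.mem_univ x)
  have h3 : (0 : ℝ) < (Nat.card H : ℝ)⁻¹ := by
    have : (0 : ℝ) < (Nat.card H : ℝ) := by exact_mod_cast Nat.card_pos
    positivity
  exact mul_pos h3 (lt_of_lt_of_le h1 h2)

theorem classInner_self_nonneg {H : Type u} [Group H] [Fintype H] (f : H → ℂ) :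
    0 ≤ (classInner f f).re := by
  by_cases hf : f = 0
  · rw [hf, classInner_zero_left]
    simp
  · exact (classInner_self_pos hf).le

variable {u : G} {k : ℕ} (X : Subgroup G) [Fintype X]

include hM

theorem kbF_mem (hu : orderOf u = p ^ k) (hX : X = Subgroup.centralizer ({u} : Set G)) {b : Set (IrrCharacter X)}
    (χ : IrrCharacter G) (s : X) : kbF p u X b χ s ∈ locR hM.isPrime := by
  classical
  have hP := hM.isPrime
  have huX : u ∈ X := by rw [hX]; exact Subgroup.mem_centralizer_singleton_iff.2 rfl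
  let x' : X := ⟨u, huX⟩
  have hz : ∀ g : X, x' * g = g * x' := by
    intro g
    apply Subtype.ext
    have : (g : G) ∈ Subgroup.centralizer ({u} : Set G) := hX ▸ g.2
    exact (Subgroup.mem_centralizer_singleton_iff.1 this).symm
  have hx'k : x' ^ (p ^ k) = 1 := by
    apply Subtype.ext
    show u ^ (p ^ k) = 1
    rw [← hu, pow_orderOf_eq_one]
  rw [kbF_eq_sum X b χ, Finset.sum_apply]
  refine sum_mem fun ψ _ => ?_
  rw [Pi.smul_apply, smul_eq_mul]
  refine mul_mem ?_ ?_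
  · split_ifs
    · obtain ⟨N₁, h1⟩ := (χ.2.isCharacter.restrict X).classInner_nat ψ.2
      have h2 : classInner (fun c : X => (χ : G → ℂ) (u * (c : G))) (ψ : X → ℂ) = ((ψ : X → ℂ) x' / (ψ : X → ℂ) 1) * (N₁ : ℂ) := by
        rw [← h1]
        exact classInner_translate_gen hz (fun c : X => (χ : G → ℂ) c) ψ
      rw [h2]
      refine mul_mem (locR_of_isIntegral hP (IsIntegral.of_pow (pow_pos hp.out.pos k) ?_)) (natCast_mem _ _)
      rw [central_om_root ψ.2 hz hx'k]
      exact isIntegral_one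
    · exact zero_mem _
  · by_cases hs : p ∣ orderOf s
    · rw [regPart_of_singular _ hs]
      exact zero_mem _
    · rw [regPart_of_regular _ hs]
      exact locR_of_isIntegral hP (ψ.2.isCharacter.isIntegral s)

theorem kbF_class (χ : IrrCharacter G) {b : Set (IrrCharacter X)} : IsClassFunction X (kbF p u X b χ) :=
  isClass_regPart (isClass_proj _ _)

open Classical in
/-- Inner product with the whole section. -/
theorem classInner_kbF_section (hu : orderOf u = p ^ k) (hX : X = Subgroup.centralizer ({u} : Set G)) {b : Set (IrrCharacter X)}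
    (hb : IsPBlock M b) (χ₁ χ₂ : IrrCharacter G) :
    classInner (kbF p u X b χ₂) (fun c : X => (χ₁ : G → ℂ) (u * (c : G))) = classInner (kbF p u X b χ₂) (kbF p u X b χ₁) := by
  have huX : u ∈ X := by rw [hX]; exact Subgroup.mem_centralizer_singleton_iff.2 rfl
  let x' : X := ⟨u, huX⟩
  have hz : ∀ g : X, x' * g = g * x' := by
    intro g
    apply Subtype.ext
    have : (g : G) ∈ Subgroup.centralizer ({u} : Set G) := hX ▸ g.2
    exact (Subgroup.mem_centralizer_singleton_iff.1 this).symm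
  have hcl : IsClassFunction X (fun c : X => (χ₁ : G → ℂ) (u * (c : G))) := by
    intro g h
    show (χ₁ : G → ℂ) (u * (h * g * h⁻¹ : X)) = (χ₁ : G → ℂ) (u * g)
    have h1 := χ₁.2.isCharacter.isClassFunction (u * (g : G)) (h : G)
    have h2 := congrArg Subtype.val (hz h)
    have h3 : (u : G) * h = h * u := h2
    have e : u * ((h * g * h⁻¹ : X) : G) = (h : G) * (u * g) * (h : G)⁻¹ := by
      push_cast
      calc u * ((h : G) * g * (h : G)⁻¹) = (u * h) * g * (h : G)⁻¹ := by group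
        _ = (h * u) * g * (h : G)⁻¹ := by rw [h3]
        _ = (h : G) * (u * g) * (h : G)⁻¹ := by group
    rw [e]
    exact h1
  have hoff : ∀ ξ : IrrCharacter X, ξ ∉ b → classInner (kbF p u X b χ₂) (ξ : X → ℂ) = 0 := by
    intro ξ hξ
    rw [kbF_eq_sum X b χ₂, classInner_sum_left]
    refine Finset.sum_eq_zero fun ψ _ => ?_
    rw [classInner_smul_left]
    split_ifs with hψ
    · rw [classInner_reg_off_block hM hb hψ hξ, mul_zero]
    · rw [zero_mul]
  have hF : classInner (kbF p u X b χ₂) (kbF p u X b χ₁) = classInner (kbF p u X b χ₂) (proj b (fun c : X => (χ₁ : G → ℂ) (u * (c : G)))) := by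
    rw [classInner_def, classInner_def]
    congr 1
    refine Finset.sum_congr rfl fun s _ => ?_
    by_cases hs : p ∣ orderOf s
    · simp [kbF, regPart_of_singular _ hs]
    · simp only [kbF, regPart_of_regular _ hs]
  rw [hF]
  conv_lhs => rw [classFunction_eq_sum hcl]
  rw [proj, classInner_sum_right, classInner_sum_right]
  refine Finset.sum_congr rfl fun ξ _ => ?_
  split_ifs with hξ
  · rfl
  · rw [classInner_smul_right, hoff ξ hξ, mul_zero, classInner_zero_right]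

/-- The element of the centre attached to the section. -/
theorem exists_central_W (hu : orderOf u = p ^ k) (hX : X = Subgroup.centralizer ({u} : Set G)) {b : Set (IrrCharacter X)}
    (hb : IsPBlock M b) (χ₂ : IrrCharacter G) :
    ∃ w : GA G, IsCent w ∧ SVal hM.isPrime w ∧ ∀ χ₁ : IrrCharacter G,
      om (χ₁ : G → ℂ) w = (Nat.card G : ℂ) / (χ₁ : G → ℂ) 1 * classInner (kbF p u X b χ₂) (kbF p u X b χ₁) := by
  classical
  have hP := hM.isPrime
  have huX : u ∈ X := by rw [hX]; exact Subgroup.mem_centralizer_singleton_iff.2 rfl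
  let x' : X := ⟨u, huX⟩
  have hz : ∀ g : X, x' * g = g * x' := by
    intro g
    apply Subtype.ext
    have : (g : G) ∈ Subgroup.centralizer ({u} : Set G) := hX ▸ g.2
    exact (Subgroup.mem_centralizer_singleton_iff.1 this).symm
  let F := kbF p u X b χ₂
  have hFc : IsClassFunction X F := kbF_class hM X χ₂
  let y : GA X := mkA fun x => F (x'⁻¹ * x⁻¹)
  have hyc : IsCent y := by
    intro x s
    show F (x'⁻¹ * (s * x * s⁻¹)⁻¹) = F (x'⁻¹ * x⁻¹)
    have h1 := hFc (x'⁻¹ * x⁻¹) s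
    rw [← h1]
    congr 1
    have h2 : x'⁻¹ * s = s * x'⁻¹ := by
      have h3 := hz s
      calc x'⁻¹ * s = x'⁻¹ * (s * x') * x'⁻¹ := by group
        _ = x'⁻¹ * (x' * s) * x'⁻¹ := by rw [h3]
        _ = s * x'⁻¹ := by group
    calc x'⁻¹ * (s * x * s⁻¹)⁻¹ = (x'⁻¹ * s) * x⁻¹ * s⁻¹ := by group
      _ = (s * x'⁻¹) * x⁻¹ * s⁻¹ := by rw [h2]
      _ = s * (x'⁻¹ * x⁻¹) * s⁻¹ := by group
  have hys : SVal hP y := fun x => kbF_mem hM X hu hX χ₂ _
  have hpi : PInv X (incl X y) := pInv_of_cent le_rfl hyc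
  refine ⟨trA X (incl X y), isCent_trA _ _, sval_trA hP hpi (sval_incl _ hP hys), fun χ₁ => ?_⟩
  have hcard : (Nat.card X : ℂ) ≠ 0 := by exact_mod_cast Nat.card_pos.ne'
  have hhat : hat (χ₁ : G → ℂ) (incl X y) = (Nat.card X : ℂ) * classInner F (fun c : X => (χ₁ : G → ℂ) (u * (c : G))) := by
    rw [hat, sum_subgroup_eq X]
    · rw [classInner_def, mul_inv_cancel_left₀ hcard]
      refine (Fintype.sum_equiv (Equiv.mulLeft x' |>.trans (Equiv.inv X)) _ _ fun s => ?_).symm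
      show F s * conj ((χ₁ : G → ℂ) (u * (s : G))) = (incl X y).coeff (((x' * s)⁻¹ : X) : G) * (χ₁ : G → ℂ) (((x' * s)⁻¹ : X) : G)
      rw [coeff_incl_coe]
      have e1 : y.coeff ((x' * s)⁻¹) = F s := by
        show F (x'⁻¹ * ((x' * s)⁻¹)⁻¹) = F s
        rw [inv_inv, inv_mul_cancel_left]
      have e2 : (χ₁ : G → ℂ) (((x' * s)⁻¹ : X) : G) = conj ((χ₁ : G → ℂ) (u * (s : G))) := by
        rw [← χ₁.2.map_inv]
        rfl
      rw [e1, e2]
    · intro g hg
      rw [coeff_incl_not_mem X _ hg, zero_mul]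
  rw [om, hat_trA_class χ₁.2.isCharacter.isClassFunction, hhat, classInner_kbF_section hM X hu hX hb]
  field_simp

omit X in
theorem minNu_le_card {B : Set (IrrCharacter G)} (hB : IsPBlock M B) : minNu p B ≤ (Nat.card G).factorization p := by
  obtain ⟨g₀, hg₀⟩ := exists_defectClass hM hB
  have h4 := index_factorization_of_defectClass hM hB hg₀
  have h5 := card_centralizer_factorization (p := p) g₀
  omega

/-- Divisibility of the section norm by `p^h`. -/
theorem T_div (hu : orderOf u = p ^ k) (hX : X = Subgroup.centralizer ({u} : Set G)) {b : Set (IrrCharacter X)}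
    (hb : IsPBlock M b) {B : Set (IrrCharacter G)} (hB : IsPBlock M B) {χ : IrrCharacter G} (hχ : χ ∈ B) :
    ((p ^ blockDefect p B : ℕ) : ℂ) * classInner (kbF p u X b χ) (kbF p u X b χ) / ((p ^ blockHeight p B (χ : G → ℂ) : ℕ) : ℂ) ∈ locR hM.isPrime := by
  have hP := hM.isPrime
  obtain ⟨w, hw, hs, hform⟩ := exists_central_W hM X hu hX hb χ
  have h1 := om_mem hP χ.2 hw hs
  rw [hform] at h1
  set N := classInner (kbF p u X b χ) (kbF p u X b χ) with hN
  have hp0 : (p : ℂ) ≠ 0 := by exact_mod_cast hp.out.ne_zero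
  have hG0 : Nat.card G ≠ 0 := Nat.card_pos.ne'
  have hχ0 := charDegree_ne_zero χ.2
  have hle := minNu_le_card hM hB
  have hle2 := minNu_le (p := p) hχ
  have e1 : blockDefect p B = (Nat.card G).factorization p - minNu p B := rfl
  have e2 : blockHeight p B (χ : G → ℂ) = (charDegree (χ : G → ℂ)).factorization p - minNu p B := rfl
  obtain ⟨g', hg', hg'p⟩ : ∃ g', Nat.card G = p ^ (blockDefect p B + minNu p B) * g' ∧ ¬ p ∣ g' := by
    refine ⟨_, ?_, Nat.not_dvd_ordCompl hp.out hG0⟩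
    have : blockDefect p B + minNu p B = (Nat.card G).factorization p := by omega
    rw [this]
    exact (Nat.ordProj_mul_ordCompl_eq_self _ p).symm
  obtain ⟨c', hc', hc'p⟩ : ∃ c', charDegree (χ : G → ℂ) = p ^ (minNu p B + blockHeight p B (χ : G → ℂ)) * c' ∧ ¬ p ∣ c' := by
    refine ⟨_, ?_, Nat.not_dvd_ordCompl hp.out hχ0⟩
    have : minNu p B + blockHeight p B (χ : G → ℂ) = (charDegree (χ : G → ℂ)).factorization p := by omega
    rw [this]
    exact (Nat.ordProj_mul_ordCompl_eq_self _ p).symm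
  have hg'0 : (g' : ℂ) ≠ 0 := natCast_ne_zero_of_not_dvd hM hg'p
  have hc'0 : (c' : ℂ) ≠ 0 := natCast_ne_zero_of_not_dvd hM hc'p
  have hdeg : (χ : G → ℂ) 1 = (p : ℂ) ^ (minNu p B + blockHeight p B (χ : G → ℂ)) * (c' : ℂ) := by
    rw [← coe_charDegree χ.2.isCharacter, hc']
    push_cast
    rfl
  have hcard : (Nat.card G : ℂ) = (p : ℂ) ^ (blockDefect p B + minNu p B) * (g' : ℂ) := by
    rw [hg']
    push_cast
    rfl
  have e : ((p ^ blockDefect p B : ℕ) : ℂ) * N / ((p ^ blockHeight p B (χ : G → ℂ) : ℕ) : ℂ) =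
      ((c' : ℂ) * (g' : ℂ)⁻¹) * ((Nat.card G : ℂ) / (χ : G → ℂ) 1 * N) := by
    rw [hcard, hdeg, pow_add, pow_add]
    push_cast
    field_simp
  rw [e]
  exact mul_mem (mul_mem (natCast_mem _ _) (natCast_inv_mem hM hg'p)) h1

/-- A section of a major subsection does not vanish on a character of the block. -/
theorem kbF_ne_zero (hu : orderOf u = p ^ k) (hX : X = Subgroup.centralizer ({u} : Set G)) {b : Set (IrrCharacter X)}
    {B : Set (IrrCharacter G)} (hB : IsPBlock M B) (hind : IsInducedBlock M X b B) (hbd : blockDefect p b = blockDefect p B)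
    {χ : IrrCharacter G} (hχ : χ ∈ B) : kbF p u X b χ ≠ 0 := by
  classical
  have hP := hM.isPrime
  intro h0
  have hb := hind.1
  obtain ⟨ψ₀, hψ₀, h00⟩ := exists_minNu_eq (p := p) (IsPBlock.nonempty hP hB)
  obtain ⟨n, c, hcR, hcI, hn1, hn2⟩ := exists_nb hM hb
  have h1 := alpha_not_mem hM hB hψ₀ hψ₀ h00 h00 hu X hX hind n c hcR hcI hn2
  rw [← alpha_formula (u := u) X n hn1 ψ₀ ψ₀, hbd] at h1
  obtain ⟨w, hw, hs, hform⟩ := exists_central_W hM X hu hX hb ψ₀
  have hG0 : Nat.card G ≠ 0 := Nat.card_pos.ne'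
  have hψ0 := charDegree_ne_zero ψ₀.2
  have hle := minNu_le_card hM hB
  have e1 : blockDefect p B = (Nat.card G).factorization p - minNu p B := rfl
  obtain ⟨g', hg', hg'p⟩ : ∃ g', Nat.card G = p ^ (blockDefect p B + minNu p B) * g' ∧ ¬ p ∣ g' := by
    refine ⟨_, ?_, Nat.not_dvd_ordCompl hp.out hG0⟩
    have : blockDefect p B + minNu p B = (Nat.card G).factorization p := by omega
    rw [this]
    exact (Nat.ordProj_mul_ordCompl_eq_self _ p).symm
  obtain ⟨c', hc', hc'p⟩ : ∃ c', charDegree (ψ₀ : G → ℂ) = p ^ (minNu p B) * c' ∧ ¬ p ∣ c' := by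
    refine ⟨_, ?_, Nat.not_dvd_ordCompl hp.out hψ0⟩
    rw [← h00]
    exact (Nat.ordProj_mul_ordCompl_eq_self _ p).symm
  have hp0 : (p : ℂ) ≠ 0 := by exact_mod_cast hp.out.ne_zero
  have hg'0 : (g' : ℂ) ≠ 0 := natCast_ne_zero_of_not_dvd hM hg'p
  have hc'0 : (c' : ℂ) ≠ 0 := natCast_ne_zero_of_not_dvd hM hc'p
  have hdeg : (ψ₀ : G → ℂ) 1 = (p : ℂ) ^ (minNu p B) * (c' : ℂ) := by
    rw [← coe_charDegree ψ₀.2.isCharacter, hc']
    push_cast
    rfl
  have hcard : (Nat.card G : ℂ) = (p : ℂ) ^ (blockDefect p B + minNu p B) * (g' : ℂ) := by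
    rw [hg']
    push_cast
    rfl
  set N := classInner (kbF p u X b ψ₀) (kbF p u X b ψ₀) with hN
  have h2 : om (ψ₀ : G → ℂ) w ∉ locI hP := by
    intro h3
    apply h1
    have e : ((p ^ blockDefect p B : ℕ) : ℂ) * N = ((c' : ℂ) * (g' : ℂ)⁻¹) * om (ψ₀ : G → ℂ) w := by
      have hform' : om (ψ₀ : G → ℂ) w = (Nat.card G : ℂ) / (ψ₀ : G → ℂ) 1 * N := hform ψ₀
      rw [hform', hcard, hdeg, pow_add]
      push_cast
      field_simp
    rw [e]
    exact locI_mul_left hP (mul_mem (natCast_mem _ _) (natCast_inv_mem hM hg'p)) h3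
  have hsame : SameBlock M (χ : G → ℂ) (ψ₀ : G → ℂ) := by
    have h3 := blockOf_eq_of_mem hP hB hχ
    have h4 : ψ₀ ∈ blockOf M (χ : G → ℂ) := h3 ▸ hψ₀
    exact h4
  have h5 := om_sub_mem_of_sameBlock hP χ.2 ψ₀.2 hsame hw hs
  have h6 : om (χ : G → ℂ) w = 0 := by
    rw [hform, h0, classInner_zero_right, mul_zero]
  rw [h6, zero_sub] at h5
  exact h2 (by simpa using (locI hP).neg_mem h5)

end P1

section P2

variable {G : Type u} [Group G] [Fintype G] {p : ℕ} [hp : Fact p.Prime] {M : Ideal AlgInt} (hM : IsPModular p M)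

include hM

/-- AM-GM over the Galois group with divisibility. -/
theorem cf_sum_ge_pow {N : ℕ} [NeZero N] {x : CF N} (hx : IsIntegral ℤ (cfEmb N x))
    (hpos : ∀ σ : CF N ≃ₐ[ℚ] CF N, 0 < (cfEmb N (σ x)).re ∧ (cfEmb N (σ x)).im = 0) (h : ℕ)
    (hdiv : ∀ σ : CF N ≃ₐ[ℚ] CF N, cfEmb N (σ x) / ((p ^ h : ℕ) : ℂ) ∈ locR hM.isPrime) :
    (Nat.card (CF N ≃ₐ[ℚ] CF N) : ℝ) * (p : ℝ) ^ h ≤ ∑ σ : CF N ≃ₐ[ℚ] CF N, (cfEmb N (σ x)).re := by
  classical
  have hP := hM.isPrime
  set t : (CF N ≃ₐ[ℚ] CF N) → ℝ := fun σ => (cfEmb N (σ x)).re with ht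
  have htc : ∀ σ, cfEmb N (σ x) = (t σ : ℂ) := fun σ => Complex.ext (by simp [ht]) (by simp [ht, (hpos σ).2])
  have htpos : ∀ σ, 0 < t σ := fun σ => (hpos σ).1
  set P : CF N := ∏ σ : CF N ≃ₐ[ℚ] CF N, σ x with hPd
  have hfix : ∀ τ : CF N ≃ₐ[ℚ] CF N, τ P = P := by
    intro τ
    rw [hPd, map_prod]
    exact Fintype.prod_equiv (Equiv.mulLeft τ) _ _ fun σ => rfl
  obtain ⟨q, hq⟩ := cf_rat N hfix
  have hPval : cfEmb N P = ∏ σ : CF N ≃ₐ[ℚ] CF N, cfEmb N (σ x) := by
    rw [hPd, map_prod]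
  have hint : IsIntegral ℤ (cfEmb N P) := by
    rw [hPval]
    exact IsIntegral.prod _ fun σ _ => cf_integral_sigma N hx σ
  rw [hq] at hint
  obtain ⟨z, hz⟩ := exists_int_of_isIntegral_rat q hint
  have hPz : ∏ σ : CF N ≃ₐ[ℚ] CF N, cfEmb N (σ x) = (z : ℂ) := by
    rw [← hPval, hq, hz]
    simp
  have hPt : (z : ℝ) = ∏ σ, t σ := by
    have h1 : ((z : ℝ) : ℂ) = ((∏ σ, t σ : ℝ) : ℂ) := by
      push_cast
      rw [← hPz]
      exact Finset.prod_congr rfl fun σ _ => htc σ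
    exact_mod_cast h1
  have hzpos : 0 < z := by
    have h1 : (0 : ℝ) < z := by
      rw [hPt]
      exact Finset.prod_pos fun σ _ => htpos σ
    exact_mod_cast h1
  obtain ⟨k, rfl⟩ : ∃ k : ℕ, z = (k : ℤ) := ⟨z.toNat, (Int.toNat_of_nonneg hzpos.le).symm⟩
  have hk0 : k ≠ 0 := by
    rintro rfl
    simp at hzpos
  set c := Nat.card (CF N ≃ₐ[ℚ] CF N) with hc
  have hcF : (Finset.univ : Finset (CF N ≃ₐ[ℚ] CF N)).card = c := by
    rw [hc, Nat.card_eq_fintype_card, Finset.card_univ]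
  have hdivk : DivBy hM (h * c) (k : ℂ) := by
    rw [DivBy]
    have e : (k : ℂ) / (p : ℂ) ^ (h * c) = ∏ σ : CF N ≃ₐ[ℚ] CF N, (cfEmb N (σ x) / ((p ^ h : ℕ) : ℂ)) := by
      rw [Finset.prod_div_distrib, hPz, Finset.prod_const, hcF, pow_mul]
      push_cast
      rfl
    rw [e]
    exact prod_mem fun σ _ => hdiv σ
  have hdvd := (divBy_natCast_iff hM hk0).1 hdivk
  have hle : p ^ (h * c) ≤ k := Nat.le_of_dvd (Nat.pos_of_ne_zero hk0) hdvd
  have hp0 : (0 : ℝ) < p := by exact_mod_cast hp.out.pos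
  have hph : (0 : ℝ) < (p : ℝ) ^ h := pow_pos hp0 h
  have hprod : (1 : ℝ) ≤ ∏ σ, (t σ / (p : ℝ) ^ h) := by
    rw [Finset.prod_div_distrib, ← hPt, Finset.prod_const, hcF, ← pow_mul, le_div_iff₀ (pow_pos hp0 _), one_mul]
    have : (((p ^ (h * c) : ℕ)) : ℝ) ≤ (k : ℝ) := by exact_mod_cast hle
    simpa using this
  have hlog : 0 ≤ ∑ σ, Real.log (t σ / (p : ℝ) ^ h) := by
    rw [← Real.log_prod]
    · exact Real.log_nonneg hprod
    · intro σ _
      exact (div_pos (htpos σ) hph).ne'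
  have hle2 : ∑ σ, Real.log (t σ / (p : ℝ) ^ h) ≤ ∑ σ, (t σ / (p : ℝ) ^ h - 1) :=
    Finset.sum_le_sum fun σ _ => Real.log_le_sub_one_of_pos (div_pos (htpos σ) hph)
  rw [Finset.sum_sub_distrib, ← Finset.sum_div] at hle2
  simp only [Finset.sum_const, nsmul_eq_mul, mul_one, hcF] at hle2
  have h3 : (c : ℝ) ≤ (∑ σ, t σ) / (p : ℝ) ^ h := by linarith
  rwa [le_div_iff₀ hph] at h3

end P2

section P3

theorem central_om_pow {H : Type u} [Group H] [Fintype H] {ψ : H → ℂ} (hψ : IsIrrCharacter H ψ) {z : H}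
    (hz : ∀ g, z * g = g * z) (j : ℕ) : ψ (z ^ j) / ψ 1 = (ψ z / ψ 1) ^ j := by
  have h : ∀ (j : ℕ) (r : H), ψ (z ^ j * r) = (ψ z / ψ 1) ^ j * ψ r := by
    intro j
    induction j with
    | zero => intro r; simp
    | succ j ih =>
      intro r
      rw [pow_succ', mul_assoc, char_mul_central hψ hz, ih, pow_succ']
      ring
  have h1 := h j 1
  rw [mul_one] at h1
  rw [h1, mul_div_assoc, div_self hψ.map_one_ne_zero, mul_one]

theorem pow_pow_coprime {G : Type u} [Group G] {u : G} {m : ℕ} (hm : (orderOf u).Coprime m) : ∃ m', (u ^ m) ^ m' = u := by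
  by_cases h1 : orderOf u = 1
  · refine ⟨1, ?_⟩
    rw [orderOf_eq_one_iff] at h1
    simp [h1]
  by_cases h0 : orderOf u = 0
  · rw [h0, Nat.coprime_zero_left] at hm
    exact ⟨1, by simp [hm]⟩
  have h2 : 1 < orderOf u := by omega
  obtain ⟨m', -, hm'⟩ := Nat.exists_mul_mod_eq_one_of_coprime hm.symm h2
  refine ⟨m', ?_⟩
  rw [← pow_mul, ← pow_mod_orderOf, hm', pow_one]

theorem zpowers_pow_coprime {G : Type u} [Group G] {u : G} {m : ℕ} (hm : (orderOf u).Coprime m) :
    Subgroup.zpowers (u ^ m) = Subgroup.zpowers u := by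
  apply le_antisymm
  · rw [Subgroup.zpowers_le]
    exact (Subgroup.zpowers u).pow_mem (Subgroup.mem_zpowers u) m
  · rw [Subgroup.zpowers_le]
    obtain ⟨m', hm'⟩ := pow_pow_coprime hm
    have h1 := (Subgroup.zpowers (u ^ m)).pow_mem (Subgroup.mem_zpowers _) m'
    rwa [hm'] at h1

theorem centralizer_zpowers_eq {G : Type u} [Group G] (u : G) :
    Subgroup.centralizer ((Subgroup.zpowers u : Subgroup G) : Set G) = Subgroup.centralizer ({u} : Set G) := by
  ext c
  rw [Subgroup.mem_centralizer_iff, Subgroup.mem_centralizer_singleton_iff]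
  constructor
  · intro h
    exact (h u (Subgroup.mem_zpowers u)).symm
  · rintro h _ ⟨i, rfl⟩
    have : Commute u c := h.symm
    exact (this.zpow_left i).eq

variable {G : Type u} [Group G] [Fintype G] {p : ℕ} [hp : Fact p.Prime] {M : Ideal AlgInt} (hM : IsPModular p M)
variable {u : G} {k : ℕ} (X : Subgroup G) [Fintype X]

include hM

open Classical in
theorem galois_sum (hu : orderOf u = p ^ k) (hX : X = Subgroup.centralizer ({u} : Set G)) {b : Set (IrrCharacter X)}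
    {B : Set (IrrCharacter G)} (hB : IsPBlock M B) (hind : IsInducedBlock M X b B) (hbd : blockDefect p b = blockDefect p B)
    {χ : IrrCharacter G} (hχ : χ ∈ B) (m : (CF (Nat.card G) ≃ₐ[ℚ] CF (Nat.card G)) → ℕ)
    (hm : ∀ σ, (m σ).Coprime (Nat.card G) ∧ ∀ w : CF (Nat.card G), w ^ Nat.card G = 1 → σ w = w ^ m σ) :
    (Nat.card (CF (Nat.card G) ≃ₐ[ℚ] CF (Nat.card G)) : ℝ) * (p : ℝ) ^ blockHeight p B (χ : G → ℂ) ≤
      ∑ σ, (((p ^ blockDefect p B : ℕ) : ℂ) * classInner (kbF p (u ^ m σ) X b χ) (kbF p (u ^ m σ) X b χ)).re := by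
  have hP := hM.isPrime
  have huX : u ∈ X := by rw [hX]; exact Subgroup.mem_centralizer_singleton_iff.2 rfl
  let x' : X := ⟨u, huX⟩
  have hz : ∀ g : X, x' * g = g * x' := by
    intro g
    apply Subtype.ext
    have : (g : G) ∈ Subgroup.centralizer ({u} : Set G) := hX ▸ g.2
    exact (Subgroup.mem_centralizer_singleton_iff.1 this).symm
  have hb := hind.1
  obtain ⟨n, c, hcR, hcI, hn1, hn2⟩ := exists_nb hM hb
  have hNpos : 0 < Nat.card G := Nat.card_pos
  have hx'N : x' ^ Nat.card G = 1 := by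
    apply Subtype.ext
    show u ^ Nat.card G = 1
    exact pow_card_eq_one'
  have hwr : ∀ ψ : IrrCharacter X, ((ψ : X → ℂ) x' / (ψ : X → ℂ) 1) ^ Nat.card G = 1 := fun ψ => central_om_root ψ.2 hz hx'N
  have hwrc : ∀ ψ : IrrCharacter X, (conj ((ψ : X → ℂ) x' / (ψ : X → ℂ) 1)) ^ Nat.card G = 1 := by
    intro ψ
    rw [← map_pow, hwr, map_one]
  choose ŵ hŵ hŵ1 using fun ψ => cf_root (Nat.card G) (hwr ψ)
  choose ŵc hŵc hŵc1 using fun ψ => cf_root (Nat.card G) (hwrc ψ)
  choose N₁ hN₁ using fun ψ : IrrCharacter X => (χ.2.isCharacter.restrict X).classInner_nat ψ.2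
  let x₀ : CF (Nat.card G) := ∑ ψ : IrrCharacter X, ∑ ξ : IrrCharacter X,
    (if ψ ∈ b then ŵ ψ * (N₁ ψ : CF (Nat.card G)) else 0) * (if ξ ∈ b then ŵc ξ * (N₁ ξ : CF (Nat.card G)) else 0) * ((n ψ ξ : ℤ) : CF (Nat.card G))
  have hdvdN : orderOf u ∣ Nat.card G := orderOf_dvd_natCard u
  have hcop : ∀ σ, (orderOf u).Coprime (m σ) := fun σ => Nat.Coprime.coprime_dvd_left hdvdN (hm σ).1.symm
  have hoj : ∀ σ, orderOf (u ^ m σ) = p ^ k := fun σ => by
    rw [(hcop σ).orderOf_pow, hu]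
  have hXj : ∀ σ, X = Subgroup.centralizer ({u ^ m σ} : Set G) := by
    intro σ
    rw [← centralizer_zpowers_eq (u ^ m σ), zpowers_pow_coprime (hcop σ), centralizer_zpowers_eq, hX]
  have hinner : ∀ σ (ψ : IrrCharacter X), classInner (fun c : X => (χ : G → ℂ) (u ^ m σ * (c : G))) (ψ : X → ℂ) =
      ((ψ : X → ℂ) x' / (ψ : X → ℂ) 1) ^ m σ * (N₁ ψ : ℂ) := by
    intro σ ψ
    have hzj : ∀ g : X, x' ^ m σ * g = g * x' ^ m σ := fun g => ((Commute.pow_left (hz g) (m σ))).eq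
    have h1 := classInner_translate_gen hzj (fun c : X => (χ : G → ℂ) c) ψ
    have h2 : ∀ c : X, (((x' ^ m σ * c : X)) : G) = u ^ m σ * (c : G) := fun c => by
      push_cast
      rfl
    simp only [h2] at h1
    rw [h1, central_om_pow ψ.2 hz]
    congr 1
    exact hN₁ ψ
  have key : ∀ σ : CF (Nat.card G) ≃ₐ[ℚ] CF (Nat.card G), cfEmb (Nat.card G) (σ x₀) =
      ((p ^ blockDefect p B : ℕ) : ℂ) * classInner (kbF p (u ^ m σ) X b χ) (kbF p (u ^ m σ) X b χ) := by
    intro σ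
    rw [← hbd, alpha_formula (u := u ^ m σ) X n hn1 χ χ]
    show cfEmb (Nat.card G) (σ (∑ ψ : IrrCharacter X, ∑ ξ : IrrCharacter X, _)) = _
    rw [map_sum, map_sum]
    refine Finset.sum_congr rfl fun ψ _ => ?_
    rw [map_sum, map_sum]
    refine Finset.sum_congr rfl fun ξ _ => ?_
    rw [map_mul, map_mul, map_mul, map_mul]
    congr 1
    · congr 1
      · split_ifs
        · rw [map_mul, map_mul, (hm σ).2 _ (hŵ1 ψ), map_pow, hŵ, hinner, map_natCast, map_natCast]
        · simp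
      · split_ifs
        · rw [map_mul, map_mul, (hm σ).2 _ (hŵc1 ξ), map_pow, hŵc, hinner, map_natCast, map_natCast, map_mul, map_pow, Complex.conj_natCast]
        · simp
    · simp
  have hxint : IsIntegral ℤ (cfEmb (Nat.card G) x₀) := by
    have h1 : IsIntegral ℤ x₀ := by
      refine IsIntegral.sum _ fun ψ _ => IsIntegral.sum _ fun ξ _ => ((?_ : IsIntegral ℤ _).mul ?_).mul ?_
      · split_ifs
        · exact (IsIntegral.of_pow hNpos (by rw [hŵ1]; exact isIntegral_one)).mul (isIntegral_algebraMap (R := ℤ) (A := CF (Nat.card G)) (x := ((N₁ ψ : ℤ))) |> fun h => by simpa using h)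
        · exact isIntegral_zero
      · split_ifs
        · exact (IsIntegral.of_pow hNpos (by rw [hŵc1]; exact isIntegral_one)).mul (isIntegral_algebraMap (R := ℤ) (A := CF (Nat.card G)) (x := ((N₁ ξ : ℤ))) |> fun h => by simpa using h)
        · exact isIntegral_zero
      · simpa using isIntegral_algebraMap (R := ℤ) (A := CF (Nat.card G)) (x := n ψ ξ)
    exact h1.map ((cfEmb (Nat.card G)).restrictScalars ℤ)
  have hpos : ∀ σ : CF (Nat.card G) ≃ₐ[ℚ] CF (Nat.card G), 0 < (cfEmb (Nat.card G) (σ x₀)).re ∧ (cfEmb (Nat.card G) (σ x₀)).im = 0 := by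
    intro σ
    rw [key σ]
    have hne := kbF_ne_zero hM X (hoj σ) (hXj σ) hB hind hbd hχ
    have h1 := classInner_self_pos hne
    rw [classInner_self_real] at h1 ⊢
    have e : ((p ^ blockDefect p B : ℕ) : ℂ) = (((p ^ blockDefect p B : ℕ) : ℝ) : ℂ) := by push_cast; rfl
    rw [e, ← Complex.ofReal_mul, Complex.ofReal_re, Complex.ofReal_im]
    rw [Complex.ofReal_re] at h1
    refine ⟨mul_pos ?_ h1, rfl⟩
    exact_mod_cast pow_pos hp.out.pos _
  have hdiv : ∀ σ : CF (Nat.card G) ≃ₐ[ℚ] CF (Nat.card G), cfEmb (Nat.card G) (σ x₀) / ((p ^ blockHeight p B (χ : G → ℂ) : ℕ) : ℂ) ∈ locR hM.isPrime := by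
    intro σ
    rw [key σ]
    exact T_div hM X (hoj σ) (hXj σ) hb hB hχ
  have h := cf_sum_ge_pow hM hxint hpos _ hdiv
  simp only [key] at h
  exact h

end P3

end CfsgLib.Block
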