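import Cfsg.Agent.Lib.Block.HtBd

/-! # The height bound: orthogonality of the section parts -/

set_option autoImplicit false
set_option linter.unusedSectionVars false
set_option linter.unusedVariables false

namespace CfsgLib.Block

open Cfsg CfsgLib.Char
open scoped ComplexConjugate Pointwise

universe u

section Avg

variable {G : Type u} [Group G] [Fintype G]

/-- The conjugation average. -/
noncomputable def htAvg (φ : G → ℂ) : G → ℂ := fun y => ∑ g, φ (g * y * g⁻¹)

theorem classInner_htAvg (φ φ' : G → ℂ) :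
    classInner (htAvg φ) (htAvg φ') = ∑ h : G, ∑ x : G, φ x * conj (φ' (h * x * h⁻¹)) := by
  classical
  have hcard : (Nat.card G : ℂ) ≠ 0 := by exact_mod_cast Nat.card_pos.ne'
  have key : ∀ g : G, ∑ y : G, ∑ g' : G, φ (g * y * g⁻¹) * conj (φ' (g' * y * g'⁻¹)) =
      ∑ x : G, ∑ h : G, φ x * conj (φ' (h * x * h⁻¹)) := by
    intro g
    refine Fintype.sum_equiv (MulAut.conj g).toEquiv _ _ fun y => ?_
    refine Fintype.sum_equiv (Equiv.mulRight g⁻¹) _ _ fun g' => ?_
    have e : g' * g⁻¹ * (g * y * g⁻¹) * (g' * g⁻¹)⁻¹ = g' * y * g'⁻¹ := by group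
    show φ (g * y * g⁻¹) * conj (φ' (g' * y * g'⁻¹)) = φ (g * y * g⁻¹) * conj (φ' (g' * g⁻¹ * (g * y * g⁻¹) * (g' * g⁻¹)⁻¹))
    rw [e]
  rw [classInner_def]
  have h1 : ∑ y : G, htAvg φ y * conj (htAvg φ' y) = ∑ g : G, ∑ y : G, ∑ g' : G, φ (g * y * g⁻¹) * conj (φ' (g' * y * g'⁻¹)) := by
    rw [Finset.sum_comm]
    refine Finset.sum_congr rfl fun y _ => ?_
    rw [htAvg, htAvg, map_sum, Finset.sum_mul_sum]
  rw [h1, Finset.sum_congr rfl fun g _ => key g, Finset.sum_const, Finset.card_univ, nsmul_eq_mul,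
    ← Nat.card_eq_fintype_card, inv_mul_cancel_left₀ hcard, Finset.sum_comm]

theorem classInner_htAvg_class (φ : G → ℂ) {χ : G → ℂ} (hχ : IsClassFunction G χ) :
    classInner (htAvg φ) χ = ∑ x : G, φ x * conj (χ x) := by
  classical
  have hcard : (Nat.card G : ℂ) ≠ 0 := by exact_mod_cast Nat.card_pos.ne'
  have key : ∀ g : G, ∑ y : G, φ (g * y * g⁻¹) * conj (χ y) = ∑ x : G, φ x * conj (χ x) := by
    intro g
    refine Fintype.sum_equiv (MulAut.conj g).toEquiv _ _ fun y => ?_
    show φ (g * y * g⁻¹) * conj (χ y) = φ (g * y * g⁻¹) * conj (χ (g * y * g⁻¹))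
    rw [hχ y g]
  rw [classInner_def]
  have h1 : ∑ y : G, htAvg φ y * conj (χ y) = ∑ g : G, ∑ y : G, φ (g * y * g⁻¹) * conj (χ y) := by
    rw [Finset.sum_comm]
    refine Finset.sum_congr rfl fun y _ => ?_
    rw [htAvg, Finset.sum_mul]
  rw [h1, Finset.sum_congr rfl fun g _ => key g, Finset.sum_const, Finset.card_univ, nsmul_eq_mul,
    ← Nat.card_eq_fintype_card, inv_mul_cancel_left₀ hcard]

variable (X : Subgroup G)

open Classical in
/-- Transport of a function on `X` to the coset `u X`. -/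
noncomputable def htSecF (u : G) (F : X → ℂ) : G → ℂ := fun x => if h : u⁻¹ * x ∈ X then F ⟨u⁻¹ * x, h⟩ else 0

theorem htSecF_mul {u : G} (F : X → ℂ) (s : X) : htSecF X u F (u * s) = F s := by
  classical
  have h : u⁻¹ * (u * (s : G)) ∈ X := by
    rw [inv_mul_cancel_left]
    exact s.2
  rw [htSecF, dif_pos h]
  congr 1
  apply Subtype.ext
  exact inv_mul_cancel_left u s

theorem sum_htSecF [Fintype X] (u : G) (F : X → ℂ) (g : G → ℂ) :
    ∑ x : G, htSecF X u F x * g x = ∑ s : X, F s * g (u * s) := by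
  classical
  rw [← Equiv.sum_comp (Equiv.mulLeft u), sum_subgroup_eq X]
  · refine Finset.sum_congr rfl fun s _ => ?_
    show htSecF X u F (u * s) * g (u * s) = _
    rw [htSecF_mul]
  · intro y hy
    show htSecF X u F (u * y) * g (u * y) = 0
    have h : ¬ u⁻¹ * (u * y) ∈ X := by
      rw [inv_mul_cancel_left]
      exact hy
    rw [htSecF, dif_neg h, zero_mul]

/-- The part of a class function of `G` attached to the function `F` on the coset. -/
noncomputable def htPi [Fintype X] (u : G) (F : X → ℂ) : G → ℂ :=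
  (Nat.card X : ℂ)⁻¹ • htAvg (htSecF X u F)

theorem classInner_htPi_class [Fintype X] (u : G) (F : X → ℂ) {χ : G → ℂ} (hχ : IsClassFunction G χ) :
    classInner (htPi X u F) χ = classInner F (fun c : X => χ (u * c)) := by
  rw [htPi, classInner_smul_left, classInner_htAvg_class _ hχ, classInner_def]
  congr 1
  exact sum_htSecF X u F _

theorem classInner_htPi [Fintype X] (X' : Subgroup G) [Fintype X'] (u u' : G) (F : X → ℂ) (F' : X' → ℂ) :
    classInner (htPi X u F) (htPi X' u' F') = ((Nat.card X : ℂ)⁻¹ * (Nat.card X' : ℂ)⁻¹) *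
      ∑ h : G, ∑ s : X, F s * conj (htSecF X' u' F' (h * (u * s) * h⁻¹)) := by
  rw [htPi, htPi, classInner_smul_left, classInner_smul_right, classInner_htAvg]
  have h1 : ∀ h : G, ∑ x : G, htSecF X u F x * conj (htSecF X' u' F' (h * x * h⁻¹)) =
      ∑ s : X, F s * conj (htSecF X' u' F' (h * (u * s) * h⁻¹)) := fun h =>
    sum_htSecF X u F (fun x => conj (htSecF X' u' F' (h * x * h⁻¹)))
  simp only [h1, map_inv₀, Complex.conj_natCast]
  ring

end Avg

section Off

variable {G : Type u} [Group G] [Fintype G] {p : ℕ} [hp : Fact p.Prime] {M : Ideal AlgInt} (hM : IsPModular p M)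

attribute [local instance] centFintype

theorem kbF_regular {u : G} (X : Subgroup G) [Fintype X] {b : Set (IrrCharacter X)} {χ : IrrCharacter G} {s : X}
    (h : kbF p u X b χ s ≠ 0) : ¬ p ∣ orderOf s := by
  intro hs
  exact h (regPart_of_singular _ hs)

omit hM in
theorem inner_ne_imp_conj {u u' h : G} {k k' : ℕ} (hu : orderOf u = p ^ k) (hu' : orderOf u' = p ^ k') (X X' : Subgroup G)
    [Fintype X] [Fintype X'] (hX : X = Subgroup.centralizer ({u} : Set G)) (hX' : X' = Subgroup.centralizer ({u'} : Set G))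
    {b : Set (IrrCharacter X)} {b' : Set (IrrCharacter X')} {χ : IrrCharacter G}
    (hne : ∑ s : X, kbF p u X b χ s * conj (htSecF X' u' (kbF p u' X' b' χ) (h * (u * s) * h⁻¹)) ≠ 0) :
    h * u * h⁻¹ = u' := by
  classical
  obtain ⟨s, -, hs⟩ := Finset.exists_ne_zero_of_sum_ne_zero hne
  have h1 : kbF p u X b χ s ≠ 0 := left_ne_zero_of_mul hs
  have h2 : htSecF X' u' (kbF p u' X' b' χ) (h * (u * s) * h⁻¹) ≠ 0 := by
    intro h0
    apply hs
    rw [h0, map_zero, mul_zero]
  have hs1 := kbF_regular X h1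
  set g := h * (u * (s : G)) * h⁻¹ with hg
  by_cases hmem : u'⁻¹ * g ∈ X'
  · rw [htSecF, dif_pos hmem] at h2
    have hs2 := kbF_regular X' h2
    have hcs : Commute u (s : G) := by
      have : (s : G) ∈ Subgroup.centralizer ({u} : Set G) := hX ▸ s.2
      exact (Subgroup.mem_centralizer_singleton_iff.1 this).symm
    have hP1 : IsPPart p g (h * u * h⁻¹) := by
      refine ⟨h * s * h⁻¹, by rw [hg]; group, ?_, ⟨k, ?_⟩, ?_⟩
      · show (h * u * h⁻¹) * (h * s * h⁻¹) = (h * s * h⁻¹) * (h * u * h⁻¹)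
        calc (h * u * h⁻¹) * (h * s * h⁻¹) = h * (u * s) * h⁻¹ := by group
          _ = h * (s * u) * h⁻¹ := by rw [hcs.eq]
          _ = (h * s * h⁻¹) * (h * u * h⁻¹) := by group
      · rw [orderOf_conj_eq, hu]
      · rw [orderOf_conj_eq]
        rwa [Subgroup.orderOf_coe]
    have hP2 : IsPPart p g u' := by
      refine ⟨u'⁻¹ * g, by group, ?_, ⟨k', hu'⟩, ?_⟩
      · have : u'⁻¹ * g ∈ Subgroup.centralizer ({u'} : Set G) := hX' ▸ hmem
        exact (Subgroup.mem_centralizer_singleton_iff.1 this).symm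
      · have := hs2
        rwa [Subgroup.orderOf_mk] at this
    exact isPPart_unique hp.out hP1 hP2
  · rw [htSecF, dif_neg hmem] at h2
    exact absurd rfl h2

include hM

open Classical in
theorem kbF_off {u : G} {k : ℕ} (hu : orderOf u = p ^ k) (X : Subgroup G) [Fintype X] {b : Set (IrrCharacter X)} (hb : IsPBlock M b)
    (χ : IrrCharacter G) (ξ : IrrCharacter X) (hξ : ξ ∉ b) : classInner (kbF p u X b χ) (ξ : X → ℂ) = 0 := by
  rw [kbF_eq_sum X b χ, classInner_sum_left]
  refine Finset.sum_eq_zero fun ψ _ => ?_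
  rw [classInner_smul_left]
  split_ifs with hψ
  · rw [classInner_reg_off_block hM hb hψ hξ, mul_zero]
  · rw [zero_mul]

omit hM in
theorem kbF_inner_reg {u : G} (X : Subgroup G) [Fintype X] {b : Set (IrrCharacter X)} (χ : IrrCharacter G) (g : X → ℂ) :
    classInner (kbF p u X b χ) (regPart p g) = classInner (kbF p u X b χ) g := by
  rw [classInner_def, classInner_def]
  congr 1
  refine Finset.sum_congr rfl fun s _ => ?_
  by_cases hs : p ∣ orderOf s
  · simp [kbF, regPart_of_singular _ hs]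
  · rw [regPart_of_regular _ hs]

theorem inner_ne_imp_cp {u u' h : G} {k k' : ℕ} (hu : orderOf u = p ^ k) (hu' : orderOf u' = p ^ k') {Q Q' : Subgroup G}
    (hQ' : cs Q h = Q') (huu : h * u * h⁻¹ = u')
    {b : Set (IrrCharacter (Subgroup.centralizer (Q : Set G)))} {b' : Set (IrrCharacter (Subgroup.centralizer (Q' : Set G)))}
    (hb : IsPBlock M b) (hb' : IsPBlock M b') {χ : IrrCharacter G}
    (hne : ∑ s : Subgroup.centralizer (Q : Set G), kbF p u _ b χ s * conj (htSecF _ u' (kbF p u' _ b' χ) (h * (u * s) * h⁻¹)) ≠ 0) :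
    cp h ⟨Q, b⟩ = ⟨Q', b'⟩ := by
  classical
  have hP := hM.isPrime
  subst hQ'
  let c := conjCent Q h
  have e1 : ∀ s : Subgroup.centralizer (Q : Set G), h * (u * s) * h⁻¹ = u' * ((c s : Subgroup.centralizer ((cs Q h : Subgroup G) : Set G)) : G) := by
    intro s
    rw [← huu, conjCent_coe]
    group
  have e2 : ∀ s : Subgroup.centralizer (Q : Set G), htSecF _ u' (kbF p u' _ b' χ) (h * (u * s) * h⁻¹) = kbF p u' _ b' χ (c s) := by
    intro s
    rw [e1, htSecF_mul]
  simp only [e2] at hne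
  let a' : IrrCharacter (Subgroup.centralizer ((cs Q h : Subgroup G) : Set G)) → ℂ := fun ξ =>
    if ξ ∈ b' then classInner (fun c' : Subgroup.centralizer ((cs Q h : Subgroup G) : Set G) => (χ : G → ℂ) (u' * (c' : G))) (ξ : _ → ℂ) else 0
  have e3 : ∀ s : Subgroup.centralizer (Q : Set G), kbF p u' _ b' χ (c s) =
      ∑ ξ, a' ξ * regPart p (((irrT c).symm ξ : IrrCharacter (Subgroup.centralizer (Q : Set G))) : _ → ℂ) s := by
    intro s
    rw [kbF_eq_sum _ b' χ, Finset.sum_apply]
    refine Finset.sum_congr rfl fun ξ _ => ?_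
    rw [Pi.smul_apply, smul_eq_mul]
    congr 1
    by_cases hs : p ∣ orderOf s
    · have hs' : p ∣ orderOf (c s) := by rwa [MulEquiv.orderOf_eq]
      rw [regPart_of_singular _ hs, regPart_of_singular _ hs']
    · have hs' : ¬ p ∣ orderOf (c s) := by rwa [MulEquiv.orderOf_eq]
      rw [regPart_of_regular _ hs, regPart_of_regular _ hs', irrT_symm_apply]
  simp only [e3, map_sum, map_mul, Finset.mul_sum] at hne
  rw [Finset.sum_comm] at hne
  obtain ⟨ξ, -, hξ⟩ := Finset.exists_ne_zero_of_sum_ne_zero hne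
  have hξb' : ξ ∈ b' := by
    by_contra hcon
    apply hξ
    refine Finset.sum_eq_zero fun s _ => ?_
    show _ * (conj (if ξ ∈ b' then _ else 0) * _) = 0
    rw [if_neg hcon, map_zero, zero_mul, mul_zero]
  have hξ₁ : (irrT c).symm ξ ∈ b := by
    by_contra hcon
    apply hξ
    have h0 := kbF_off hM hu _ hb χ _ hcon
    rw [← kbF_inner_reg (p := p) _ χ, classInner_def] at h0
    have hcard : (Nat.card (Subgroup.centralizer (Q : Set G)) : ℂ)⁻¹ ≠ 0 := by
      apply inv_ne_zero
      exact_mod_cast Nat.card_pos.ne'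
    have h1 := (mul_eq_zero.1 h0).resolve_left hcard
    have e4 : ∑ s : Subgroup.centralizer (Q : Set G), kbF p u _ b χ s * (conj (a' ξ) * conj (regPart p (((irrT c).symm ξ : IrrCharacter (Subgroup.centralizer (Q : Set G))) : _ → ℂ) s)) =
        conj (a' ξ) * ∑ s : Subgroup.centralizer (Q : Set G), kbF p u _ b χ s * conj (regPart p (((irrT c).symm ξ : IrrCharacter (Subgroup.centralizer (Q : Set G))) : _ → ℂ) s) := by
      rw [Finset.mul_sum]
      refine Finset.sum_congr rfl fun s _ => ?_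
      ring
    rw [e4, h1, mul_zero]
  have hξc : ξ ∈ conjBlock Q h b := mem_conjBlock.2 hξ₁
  have hbc : IsPBlock M (conjBlock Q h b) := by
    rw [conjBlock_eq]
    exact isPBlock_setT _ hb
  have e5 : conjBlock Q h b = b' := by
    rw [blockOf_eq_of_mem hP hbc hξc, blockOf_eq_of_mem hP hb' hξb']
  show (⟨cs Q h, conjBlock Q h b⟩ : BrauerPairIdx G) = ⟨cs Q h, b'⟩
  rw [e5]

omit hM in
theorem classInner_htPi_self {u : G} {k : ℕ} (hu : orderOf u = p ^ k) (X : Subgroup G) [Fintype X]
    (hX : X = Subgroup.centralizer ({u} : Set G)) {b : Set (IrrCharacter X)} (χ : IrrCharacter G) :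
    classInner (htPi X u (kbF p u X b χ)) (htPi X u (kbF p u X b χ)) = classInner (kbF p u X b χ) (kbF p u X b χ) := by
  classical
  have hcard : (Nat.card X : ℂ) ≠ 0 := by exact_mod_cast Nat.card_pos.ne'
  rw [classInner_htPi]
  set F := kbF p u X b χ with hF
  have hFc : IsClassFunction X F := isClass_regPart (isClass_proj _ _)
  have h1 : ∀ h : G, ∑ s : X, F s * conj (htSecF X u F (h * (u * s) * h⁻¹)) =
      if h ∈ X then (Nat.card X : ℂ) * classInner F F else 0 := by
    intro h
    split_ifs with hh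
    · rw [classInner_def, mul_inv_cancel_left₀ hcard]
      refine Finset.sum_congr rfl fun s _ => ?_
      have hhu : (h : G) * u = u * h := by
        have : h ∈ Subgroup.centralizer ({u} : Set G) := hX ▸ hh
        exact Subgroup.mem_centralizer_singleton_iff.1 this
      have e : h * (u * s) * h⁻¹ = u * (((⟨h, hh⟩ : X) * s * (⟨h, hh⟩ : X)⁻¹ : X) : G) := by
        push_cast
        calc h * (u * s) * h⁻¹ = (h * u) * s * h⁻¹ := by group
          _ = (u * h) * s * h⁻¹ := by rw [hhu]
          _ = u * (h * s * h⁻¹) := by group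
      rw [e, htSecF_mul, hFc s ⟨h, hh⟩]
    · by_contra hne
      have h2 := inner_ne_imp_conj hu hu X X hX hX hne
      apply hh
      rw [hX, Subgroup.mem_centralizer_singleton_iff]
      calc h * u = h * u * h⁻¹ * h := by group
        _ = u * h := by rw [h2]
  simp only [h1]
  rw [← Finset.sum_filter, Finset.sum_const, nsmul_eq_mul]
  have h2 : ((Finset.univ.filter (· ∈ X)).card : ℂ) = (Nat.card X : ℂ) := by
    rw [Nat.card_eq_fintype_card, Fintype.card_subtype]
  rw [h2]
  field_simp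

end Off

end CfsgLib.Block
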