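import Cfsg.Agent.Lib.Block.HtBd2

/-! # The height bound: Brauer pairs -/

set_option autoImplicit false
set_option linter.unusedSectionVars false
set_option linter.unusedVariables false

namespace CfsgLib.Block

open Cfsg CfsgLib.Char
open scoped ComplexConjugate Pointwise

universe u

section Top

variable {G : Type u} [Group G] [Fintype G] {p : ℕ} [hp : Fact p.Prime] {M : Ideal AlgInt} (hM : IsPModular p M)

attribute [local instance] centFintype

include hM

theorem exists_top_pair {B : Set (IrrCharacter G)} (hB : IsPBlock M B) {D : Subgroup G} (hBD : IsDefectGroup p M B D)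
    {H : Subgroup G} [Fintype H] (hH : H = D ⊔ Subgroup.centralizer (D : Set G)) {b : Set (IrrCharacter H)}
    (hind : IsInducedBlock M H b B) :
    ∃ e₀ : Set (IrrCharacter (Subgroup.centralizer (D : Set G))), IsMaximalBrauerPair p M B D e₀ ∧
      ∀ ξ ∈ e₀, lam D (ξ : Subgroup.centralizer (D : Set G) → ℂ) (incl H (fB b)) - 1 ∈ locI hM.isPrime := by
  classical
  have hPr := hM.isPrime
  have hDp : IsPGroup p D := isPGroup_of_defect hBD
  have hDH : D ≤ H := hH ▸ le_sup_left
  have hCH : Subgroup.centralizer (D : Set G) ≤ H := hH ▸ le_sup_right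
  have hDN : D ≤ Subgroup.normalizer ((H : Subgroup G) : Set G) := hDH.trans Subgroup.le_normalizer
  have hfP : PInv D (incl H (fB b)) := pInv_of_cent hDH (isCent_fB b)
  have hHN : H ≤ Subgroup.normalizer (D : Set G) := by
    rw [hH]
    exact sup_le Subgroup.le_normalizer (centralizer_le_normalizer' D)
  obtain ⟨g, hg⟩ := exists_defectClass hM hind.1
  let S : Sylow p (Subgroup.centralizer ({g} : Set H)) := default
  have hn : (D.subgroupOf H).Normal := by
    refine ⟨fun n hn' y => ?_⟩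
    rw [Subgroup.mem_subgroupOf] at hn' ⊢
    exact (Subgroup.mem_normalizer_iff.1 (hHN y.2) _).1 hn'
  have hPD : D ≤ ((S : Subgroup _).map (Subgroup.centralizer ({g} : Set H)).subtype).map H.subtype := by
    intro d hd
    have h1 := normal_le_of_defectClass hM hind.1 hg S hn hDp.comap_subtype
    exact ⟨⟨d, hDH hd⟩, h1 (Subgroup.mem_subgroupOf.2 hd), rfl⟩
  obtain ⟨c, hc, hne⟩ := coeff_of_defect (P := D) (⟨g, hg, S, rfl⟩ : IsDefectGroup p M b _) hPD hPr
  have hne' : blockCoeff b ⟨(c : G), hCH hc⟩ ∉ locI hPr := by simpa using hne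
  obtain ⟨e₀, he₀, hlam⟩ := exists_pair_of_coeff hM hDp hCH hDN hind hfP hc hne'
  refine ⟨e₀, ⟨he₀, fun R g' hRg hle => ?_⟩, hlam⟩
  obtain ⟨R', g'', hle', hmax⟩ := exists_maximal_above hM R g' hRg
  have hdefR := isDefectGroup_of_maximal hM hmax
  have hc1 := card_defectGroup hM hB hdefR
  have hc2 := card_defectGroup hM hB hBD
  have h1 : D ≤ R := chain_le hle
  have h2 : R ≤ R' := chain_le hle'
  have h3 : D = R' := Subgroup.eq_of_le_of_card_ge (h1.trans h2) (by rw [hc1, hc2])
  exact le_antisymm (by rw [h3]; exact h2) h1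

theorem defect_in_centralizer {B : Set (IrrCharacter G)} (hB : IsPBlock M B) {D : Subgroup G}
    {e₀ : Set (IrrCharacter (Subgroup.centralizer (D : Set G)))} (hmax : IsMaximalBrauerPair p M B D e₀)
    {Q : Subgroup G} {f : Set (IrrCharacter (Subgroup.centralizer (Q : Set G)))} (hf : IsPBlock M f)
    (hle : SubpairLE p M Q f D e₀) (hQC : Q ≤ Subgroup.centralizer (Q : Set G))
    (hDC : D ≤ Subgroup.centralizer (Q : Set G)) :
    IsDefectGroup p M f (D.subgroupOf (Subgroup.centralizer (Q : Set G))) := by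
  classical
  have hPr := hM.isPrime
  have hDe := hmax.1.1
  have hQD : Q ≤ D := chain_le hle
  have hQp : IsPGroup p Q := hDe.1.to_le hQD
  obtain ⟨a₀, h₀, ha₀⟩ := exists_upP_eq (⟨Q, f⟩ : BrauerPairIdx G) hQC le_rfl
  have hcoeff' : ∀ t : (Subgroup.centralizer (Q : Set G)), blockCoeff f t = subgroupBlockCoeff (Subgroup.centralizer ((upP (Subgroup.centralizer (Q : Set G)) a₀ h₀).1 : Set G)) (upP (Subgroup.centralizer (Q : Set G)) a₀ h₀).2 (t : G) := by
    intro t
    rw [ha₀]
    exact (subgroupBlockCoeff_of_mem _ _).symm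
  have hch0 : Relation.ReflTransGen (NormalSubpairRel p M) (upP (Subgroup.centralizer (Q : Set G)) a₀ h₀) ⟨D, e₀⟩ := by
    rw [ha₀]
    exact hle
  obtain ⟨b', hb', hbeq, hchb⟩ := chain_down h₀ hch0 hDC
  have ha₀pair : IsBrauerPair p M a₀.1 a₀.2 := (isBrauerPair_up_iff h₀).1 (by rw [ha₀]; exact ⟨hQp, hf⟩)
  have hb'pair : IsBrauerPair p M b'.1 b'.2 := (isBrauerPair_up_iff hb').1 (by rw [hbeq]; exact hDe)
  have hEa₀ : IsBrauerPairOf p M f a₀.1 a₀.2 := by
    refine ⟨ha₀pair, hf, fun ξ hξ => ?_⟩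
    have h1 := brauerOmega_up h₀ (subgroupBlockCoeff (Subgroup.centralizer ((upP (Subgroup.centralizer (Q : Set G)) a₀ h₀).1 : Set G)) (upP (Subgroup.centralizer (Q : Set G)) a₀ h₀).2) (blockCoeff f) hcoeff' ξ
    have h2 := brauerOmega_self (upP (Subgroup.centralizer (Q : Set G)) a₀ h₀) (irrT (kap (Subgroup.centralizer (Q : Set G)) a₀.1 h₀) ξ) ((irrT_mem_setT _).2 hξ)
    rw [h1]
    have h3 : brauerOmega (a₀.1.map (Subgroup.centralizer (Q : Set G)).subtype) (subgroupBlockCoeff (Subgroup.centralizer ((upP (Subgroup.centralizer (Q : Set G)) a₀ h₀).1 : Set G)) (upP (Subgroup.centralizer (Q : Set G)) a₀ h₀).2)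
        (irrT (kap (Subgroup.centralizer (Q : Set G)) a₀.1 h₀) ξ : _ → ℂ) = 1 := h2
    rw [h3, sub_self]
    exact zero_mem (locI hPr)
  have hEb : IsBrauerPairOf p M f b'.1 b'.2 := (pair_iff_of_chain hM hb'pair ha₀pair hchb hf).2 hEa₀
  have hb1 : b'.1 = D.subgroupOf (Subgroup.centralizer (Q : Set G)) := by
    have h1 : b'.1.map (Subgroup.centralizer (Q : Set G)).subtype = D := congrArg Sigma.fst hbeq
    rw [← h1]
    exact (Subgroup.comap_map_eq_self_of_injective (Subgroup.centralizer (Q : Set G)).subtype_injective _).symm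
  obtain ⟨R', g', hle', hmax'⟩ := exists_maximal_above hM b'.1 b'.2 hEb
  have hdefR' := isDefectGroup_of_maximal hM hmax'
  have hgood : GoodSub (Subgroup.centralizer (Q : Set G)) R' := goodSub_mono (chain_le hle') hb'
  have hup := chain_up (a := b') (b := ⟨R', g'⟩) hle' hb' hgood
  rw [hbeq] at hup
  have hupPair : IsBrauerPair p M (upP (Subgroup.centralizer (Q : Set G)) ⟨R', g'⟩ hgood).1 (upP (Subgroup.centralizer (Q : Set G)) ⟨R', g'⟩ hgood).2 :=
    (isBrauerPair_up_iff hgood).2 hmax'.1.1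
  have hBup : IsBrauerPairOf p M B (upP (Subgroup.centralizer (Q : Set G)) ⟨R', g'⟩ hgood).1 (upP (Subgroup.centralizer (Q : Set G)) ⟨R', g'⟩ hgood).2 :=
    (pair_iff_of_chain hM hupPair hDe hup hB).2 hmax.1
  have h5 := hmax.2 _ _ hBup hup
  have h6 : R' = b'.1 := by
    rw [hb1]
    have h7 : R'.map (Subgroup.centralizer (Q : Set G)).subtype = D := h5
    rw [← h7]
    exact (Subgroup.comap_map_eq_self_of_injective (Subgroup.centralizer (Q : Set G)).subtype_injective _).symm
  rw [← hb1, ← h6]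
  exact hdefR'

/-- Conjugate major subsections are conjugate by an element fixing the top pair. -/
theorem fusion_top {B : Set (IrrCharacter G)} (hB : IsPBlock M B) {D : Subgroup G}
    {e₀ : Set (IrrCharacter (Subgroup.centralizer (D : Set G)))} (hmax : IsMaximalBrauerPair p M B D e₀)
    {z z' g : G} (hz : z ∈ D) (hzc : ∀ d ∈ D, d * z = z * d) (hz' : z' ∈ D) (hzc' : ∀ d ∈ D, d * z' = z' * d)
    (hgz : g * z * g⁻¹ = z')
    {f : Set (IrrCharacter (Subgroup.centralizer ((Subgroup.zpowers z : Subgroup G) : Set G)))}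
    {f' : Set (IrrCharacter (Subgroup.centralizer ((Subgroup.zpowers z' : Subgroup G) : Set G)))}
    (hf : IsPBlock M f) (hf' : IsPBlock M f')
    (hle : SubpairLE p M (Subgroup.zpowers z) f D e₀) (hle' : SubpairLE p M (Subgroup.zpowers z') f' D e₀)
    (hcp : cp g ⟨Subgroup.zpowers z, f⟩ = ⟨Subgroup.zpowers z', f'⟩) :
    ∃ t : G, cp t ⟨D, e₀⟩ = ⟨D, e₀⟩ ∧ t * z * t⁻¹ = z' := by
  classical
  have hPr := hM.isPrime
  have hDe := hmax.1.1
  have hmem : ∀ y c : G, c ∈ Subgroup.centralizer ((Subgroup.zpowers y : Subgroup G) : Set G) ↔ c * y = y * c := by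
    intro y c
    rw [centralizer_zpowers_eq, Subgroup.mem_centralizer_singleton_iff]
  have hQ'C : Subgroup.zpowers z' ≤ Subgroup.centralizer ((Subgroup.zpowers z' : Subgroup G) : Set G) := by
    rw [Subgroup.zpowers_le, hmem]
  have hDC' : D ≤ Subgroup.centralizer ((Subgroup.zpowers z' : Subgroup G) : Set G) := fun d hd => (hmem _ _).2 (hzc' d hd)
  have hdef := defect_in_centralizer hM hB hmax hf' hle' hQ'C hDC'
  have hY : Relation.ReflTransGen (NormalSubpairRel p M) (⟨Subgroup.zpowers z', f'⟩ : BrauerPairIdx G) (cp g ⟨D, e₀⟩) := by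
    rw [← hcp]
    exact subpairLE_cp hM g hle
  have hYΓ : cs D g ≤ Subgroup.centralizer ((Subgroup.zpowers z' : Subgroup G) : Set G) := by
    rintro _ ⟨d, hd, rfl⟩
    rw [hmem, ← hgz]
    have h1 := hzc d hd
    show g * d * g⁻¹ * (g * z * g⁻¹) = g * z * g⁻¹ * (g * d * g⁻¹)
    calc g * d * g⁻¹ * (g * z * g⁻¹) = g * (d * z) * g⁻¹ := by group
      _ = g * (z * d) * g⁻¹ := by rw [h1]
      _ = g * z * g⁻¹ * (g * d * g⁻¹) := by group
  obtain ⟨x, hxΓ, hx₀⟩ := conj_in_ambient hM hQ'C le_rfl hf' (fun t => (subgroupBlockCoeff_of_mem _ _).symm)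
    hle' hDC' hDe hdef (Y := cs D g) (fY := conjBlock D g e₀) hY hYΓ (isBrauerPair_cs g hDe)
  have hx : Relation.ReflTransGen (NormalSubpairRel p M) (cp (x * g) ⟨D, e₀⟩) ⟨D, e₀⟩ := by
    rw [cp_mul]
    exact hx₀
  have hfst : cs D (x * g) = D := by
    have h1 : cs D (x * g) ≤ D := chain_le hx
    refine Subgroup.eq_of_le_of_card_ge h1 ?_
    have : Nat.card (cs D (x * g)) = Nat.card D := Subgroup.card_map_of_injective (MulAut.conj (x * g)).injective
    rw [this]
  refine ⟨x * g, chain_eq_of_fst_eq hM hx hfst, ?_⟩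
  have hxz : x * z' = z' * x := (hmem _ _).1 hxΓ
  calc x * g * z * (x * g)⁻¹ = x * (g * z * g⁻¹) * x⁻¹ := by group
    _ = x * z' * x⁻¹ := by rw [hgz]
    _ = z' := by rw [hxz]; group

end Top

end CfsgLib.Block
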