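import Cfsg.Agent.Lib.Block.HtBd3

/-! # The height bound -/

set_option autoImplicit false
set_option linter.unusedSectionVars false
set_option linter.unusedVariables false

namespace CfsgLib.Block

open Cfsg CfsgLib.Char
open scoped ComplexConjugate Pointwise

universe u

section Final

theorem classInner_re_le {H : Type u} [Group H] [Fintype H] (f g : H → ℂ) :
    2 * (classInner f g).re ≤ (classInner f f).re + (classInner g g).re := by
  have h := classInner_self_nonneg (f - g)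
  have e : classInner (f - g) (f - g) = classInner f f - classInner f g - classInner g f + classInner g g := by
    simp only [classInner_def, Pi.sub_apply, map_sub, mul_sub, sub_mul, Finset.sum_sub_distrib]
    ring
  rw [e, ← conj_classInner f g] at h
  simp only [Complex.add_re, Complex.sub_re, Complex.conj_re] at h
  linarith

variable {G : Type u} [Group G] [Fintype G] {p : ℕ} [hp : Fact p.Prime] {M : Ideal AlgInt} (hM : IsPModular p M)

attribute [local instance] centFintype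

include hM

/-- The elements fixing the top pair stabilize the block of `D C(D)`. -/
theorem stab_of_top {D H : Subgroup G} [Fintype H] (hH : H = D ⊔ Subgroup.centralizer (D : Set G)) {b : Set (IrrCharacter H)}
    (hb : IsPBlock M b) {e₀ : Set (IrrCharacter (Subgroup.centralizer (D : Set G)))} (he₀ : IsPBlock M e₀) (hDp : IsPGroup p D)
    (hlam : ∀ ξ ∈ e₀, lam D (ξ : Subgroup.centralizer (D : Set G) → ℂ) (incl H (fB b)) - 1 ∈ locI hM.isPrime)
    {t : G} (hcp : cp t ⟨D, e₀⟩ = ⟨D, e₀⟩) {θ θ' : IrrCharacter H} (hθ : θ ∈ b)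
    (hθ' : ∀ h h' : H, (h' : G) = t * h * t⁻¹ → (θ' : H → ℂ) h' = (θ : H → ℂ) h) : θ' ∈ b := by
  classical
  have hPr := hM.isPrime
  have hDH : D ≤ H := hH ▸ le_sup_left
  have hCH : Subgroup.centralizer (D : Set G) ≤ H := hH ▸ le_sup_right
  have hcs : cs D t = D := congrArg Sigma.fst hcp
  have htN : t ∈ Subgroup.normalizer (D : Set G) := by
    rw [Subgroup.mem_normalizer_iff]
    intro h
    constructor
    · intro hd
      have h1 : t * h * t⁻¹ ∈ cs D t := conj_mem_cs hd
      rwa [hcs] at h1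
    · intro hd
      have h1 : t * h * t⁻¹ ∈ cs D t := by rwa [hcs]
      rw [mem_cs] at h1
      simpa [mul_assoc] using h1
  have hHnorm : ∀ y ∈ Subgroup.normalizer (D : Set G), ∀ h ∈ H, y * h * y⁻¹ ∈ H := by
    intro y hy h hh
    rw [hH] at hh ⊢
    have hle : D ⊔ Subgroup.centralizer (D : Set G) ≤ (D ⊔ Subgroup.centralizer (D : Set G)).comap (MulAut.conj y).toMonoidHom := by
      refine sup_le (fun d hd => ?_) (fun c hc => ?_)
      · exact Subgroup.mem_sup_left ((Subgroup.mem_normalizer_iff.1 hy d).1 hd)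
      · exact Subgroup.mem_sup_right ((Subgroup.mem_normalizer_iff.1 (le_normalizer_centralizer (le_refl (Subgroup.normalizer (D : Set G))) hy) c).1 hc)
    exact hle hh
  let ct : H ≃* H :=
    { toFun := fun h => ⟨t * h * t⁻¹, hHnorm t htN h h.2⟩
      invFun := fun h => ⟨t⁻¹ * h * t, by
        have := hHnorm t⁻¹ (inv_mem htN) h h.2
        simpa using this⟩
      left_inv := fun h => Subtype.ext (by simp; group)
      right_inv := fun h => Subtype.ext (by simp; group)
      map_mul' := fun a b => Subtype.ext (by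
        show t * ((a : G) * b) * t⁻¹ = (t * a * t⁻¹) * (t * b * t⁻¹)
        group) }
  have hθeq : θ' = irrT ct θ := by
    apply Subtype.ext
    funext h'
    rw [irrT_apply]
    refine hθ' (ct.symm h') h' ?_
    show (h' : G) = t * (t⁻¹ * h' * t) * t⁻¹
    group
  let b' : Set (IrrCharacter H) := setT ct b
  have hb' : IsPBlock M b' := isPBlock_setT ct hb
  have hθb' : θ' ∈ b' := by
    rw [hθeq]
    exact (irrT_mem_setT _).2 hθ
  have hconj : conjA t (incl H (fB b')) = incl H (fB b) := by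
    apply MonoidAlgebra.ext
    ext u
    rw [coeff_conjA]
    by_cases hu : u ∈ H
    · have h1 : t * u * t⁻¹ ∈ H := hHnorm t htN u hu
      rw [coeff_incl_mem _ _ h1, coeff_incl_mem _ _ hu, coeff_fB, coeff_fB]
      exact blockCoeff_setT' ct b ⟨u, hu⟩
    · rw [coeff_incl_not_mem _ _ hu, coeff_incl_not_mem]
      intro h1
      apply hu
      have := hHnorm t⁻¹ (inv_mem htN) _ h1
      simpa [mul_assoc] using this
  have hP00 : ∀ ξ : IrrCharacter (Subgroup.centralizer ((cs D t : Subgroup G) : Set G)), ξ ∈ conjBlock D t e₀ →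
      lam (cs D t) (ξ : Subgroup.centralizer ((cs D t : Subgroup G) : Set G) → ℂ) (incl H (fB b')) - 1 ∈ locI hPr := by
    intro ξ hξ
    rw [lam_conj, hconj]
    exact hlam _ (mem_conjBlock.1 hξ)
  have hP0 : ∀ ξ ∈ (cp t ⟨D, e₀⟩).2, lam (cp t ⟨D, e₀⟩).1 (ξ : _ → ℂ) (incl H (fB b')) - 1 ∈ locI hPr := hP00
  rw [hcp] at hP0
  have hP1 : ∀ ξ ∈ e₀, lam D (ξ : Subgroup.centralizer (D : Set G) → ℂ) (incl H (fB b')) - 1 ∈ locI hPr := hP0
  have hbb : b' = b := by
    by_contra hne
    obtain ⟨ξ₀, hξ₀⟩ := IsPBlock.nonempty hPr he₀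
    have hzero : fB b * fB b' = 0 := fB_mul_of_ne hPr hb hb' (Ne.symm hne)
    have hs1 : SVal hPr (incl H (fB b)) := sval_incl _ hPr (sval_fB hM hb)
    have hs2 : SVal hPr (incl H (fB b')) := sval_incl _ hPr (sval_fB hM hb')
    have h1 := lam_mul_sub_mem hM hDp ξ₀.2 hs1 hs2 (pInv_of_cent hDH (isCent_fB b)) (pInv_of_cent hDH (isCent_fB b'))
      (pInv_of_cent hCH (isCent_fB b)) (pInv_of_cent hCH (isCent_fB b'))
    have hinc0 : incl H (0 : GA H) = 0 := by
      apply MonoidAlgebra.ext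
      ext u
      by_cases hu : u ∈ H
      · rw [coeff_incl_mem _ _ hu]
        rfl
      · rw [coeff_incl_not_mem _ _ hu]
        rfl
    have hl0 : lam D (ξ₀ : Subgroup.centralizer (D : Set G) → ℂ) (incl H (fB b) * incl H (fB b')) = 0 := by
      rw [← incl_mul, hzero, hinc0]
      have e : (0 : GA G) = (0 : ℂ) • (1 : GA G) := (zero_smul _ _).symm
      rw [e, lam_smul, zero_mul]
    rw [hl0] at h1
    have h2 := hlam ξ₀ hξ₀
    have h3 := hP1 ξ₀ hξ₀
    have hl2 : lam D (ξ₀ : Subgroup.centralizer (D : Set G) → ℂ) (incl H (fB b')) ∈ locR hPr :=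
      lam_mem hM ξ₀.2 (pInv_of_cent hCH (isCent_fB b')) hs2
    have h4 := locI_mul_right hPr hl2 h2
    have h5 := (locI hPr).sub_mem ((locI hPr).sub_mem ((locI hPr).neg_mem h1) h4) h3
    have e : -(0 - lam D (ξ₀ : Subgroup.centralizer (D : Set G) → ℂ) (incl H (fB b)) * lam D (ξ₀ : Subgroup.centralizer (D : Set G) → ℂ) (incl H (fB b'))) -
        (lam D (ξ₀ : Subgroup.centralizer (D : Set G) → ℂ) (incl H (fB b)) - 1) * lam D (ξ₀ : Subgroup.centralizer (D : Set G) → ℂ) (incl H (fB b')) -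
        (lam D (ξ₀ : Subgroup.centralizer (D : Set G) → ℂ) (incl H (fB b')) - 1) = 1 := by ring
    rw [e] at h5
    exact one_notMem_locI hPr h5
  rw [← hbb]
  exact hθb'

/-- **The height bound.** -/
theorem ht_bound {B : Set (IrrCharacter G)} (hB : IsPBlock M B) {D : Subgroup G} (hBD : IsDefectGroup p M B D) {d : ℕ}
    (hDd : Nat.card D = p ^ d) {H : Subgroup G} [Fintype H] (hH : H = D ⊔ Subgroup.centralizer (D : Set G))
    {b : Set (IrrCharacter H)} (hind : IsInducedBlock M H b B) {T : Subgroup G}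
    (hT : ∀ g : G, g ∈ T ↔ (g ∈ Subgroup.normalizer (D : Set G) ∧ ∀ θ ∈ b, ∀ θ' : IrrCharacter H,
      (∀ h h' : H, (h' : G) = g * h * g⁻¹ → (θ' : H → ℂ) h' = (θ : H → ℂ) h) → θ' ∈ b)) {e : ℕ} (he : H.relIndex T = e) {n : ℕ}
    (hn : p ^ n ≤ e ∧ e < p ^ (n + 1)) {c : ℕ} (hc : Nat.card (Subgroup.center D) = p ^ c) {χ : IrrCharacter G} (hχ : χ ∈ B) :
    blockHeight p B (χ : G → ℂ) + c ≤ n + d := by
  classical
  have hPr := hM.isPrime
  obtain ⟨e₀, hmax, hlam⟩ := exists_top_pair hM hB hBD hH hind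
  have hDp : IsPGroup p D := isPGroup_of_defect hBD
  have hDe := hmax.1.1
  have hbdD : blockDefect p B = d := by
    have h1 := card_defectGroup hM hB hBD
    rw [hDd] at h1
    exact (Nat.pow_right_injective hp.out.two_le h1).symm
  let Zs : Subgroup G := (Subgroup.center D).map D.subtype
  have hZD : ∀ z : Zs, (z : G) ∈ D ∧ ∀ y ∈ D, y * (z : G) = z * y := by
    rintro ⟨_, ⟨w, hw, rfl⟩⟩
    refine ⟨w.2, fun y hy => ?_⟩
    exact congrArg Subtype.val (Subgroup.mem_center_iff.1 hw ⟨y, hy⟩)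
  have hcardZ : Nat.card Zs = p ^ c := by
    rw [← hc]
    exact Subgroup.card_map_of_injective (Subgroup.subtype_injective _)
  have hfex : ∀ Q : Subgroup G, ∃ f : Set (IrrCharacter (Subgroup.centralizer (Q : Set G))), Q ≤ D → (IsPBlock M f ∧ SubpairLE p M Q f D e₀) := by
    intro Q
    by_cases hQ : Q ≤ D
    · obtain ⟨f, hf, -⟩ := existsUnique_subpair hM hDe hQ
      exact ⟨f, fun _ => hf⟩
    · exact ⟨∅, fun h => absurd h hQ⟩
  choose fQ hfQ using hfex
  have hQD : ∀ z : Zs, Subgroup.zpowers (z : G) ≤ D := fun z => Subgroup.zpowers_le.2 (hZD z).1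
  have hord : ∀ z : Zs, ∃ k, orderOf (z : G) = p ^ k := by
    intro z
    obtain ⟨k, hk⟩ := IsPGroup.iff_orderOf.1 hDp ⟨z, (hZD z).1⟩
    rw [Subgroup.orderOf_mk] at hk
    exact ⟨k, hk⟩
  choose kz hkz using hord
  have hX : ∀ z : Zs, Subgroup.centralizer ((Subgroup.zpowers (z : G) : Subgroup G) : Set G) = Subgroup.centralizer ({(z : G)} : Set G) :=
    fun z => centralizer_zpowers_eq _
  have hfb : ∀ z : Zs, IsPBlock M (fQ (Subgroup.zpowers (z : G))) := fun z => (hfQ _ (hQD z)).1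
  have hfl : ∀ z : Zs, SubpairLE p M (Subgroup.zpowers (z : G)) (fQ (Subgroup.zpowers (z : G))) D e₀ := fun z => (hfQ _ (hQD z)).2
  have hmemC : ∀ (z : Zs) (c : G), c ∈ Subgroup.centralizer ((Subgroup.zpowers (z : G) : Subgroup G) : Set G) ↔ c * z = z * c := by
    intro z c
    rw [hX, Subgroup.mem_centralizer_singleton_iff]
  have hindz : ∀ z : Zs, IsInducedBlock M (Subgroup.centralizer ((Subgroup.zpowers (z : G) : Subgroup G) : Set G)) (fQ (Subgroup.zpowers (z : G))) B := by
    intro z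
    have hQp : IsPGroup p (Subgroup.zpowers (z : G)) := hDp.to_le (hQD z)
    refine (isPair_iff_isInduced hM hQp).1 ?_
    exact (pair_iff_of_chain hM hDe ⟨hQp, hfb z⟩ (hfl z) hB).1 hmax.1
  have hbdz : ∀ z : Zs, blockDefect p (fQ (Subgroup.zpowers (z : G))) = blockDefect p B := by
    intro z
    have hQC : Subgroup.zpowers (z : G) ≤ Subgroup.centralizer ((Subgroup.zpowers (z : G) : Subgroup G) : Set G) := by
      rw [Subgroup.zpowers_le, hmemC]
    have hDC : D ≤ Subgroup.centralizer ((Subgroup.zpowers (z : G) : Subgroup G) : Set G) := fun y hy => (hmemC z y).2 ((hZD z).2 y hy)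
    have h1 := defect_in_centralizer hM hB hmax (hfb z) (hfl z) hQC hDC
    have h2 := card_defectGroup hM (hfb z) h1
    have h3 : Nat.card (D.subgroupOf (Subgroup.centralizer ((Subgroup.zpowers (z : G) : Subgroup G) : Set G))) = Nat.card D :=
      Nat.card_congr (Subgroup.subgroupOfEquivOfLe hDC).toEquiv
    rw [h3, hDd] at h2
    rw [hbdD]
    exact (Nat.pow_right_injective hp.out.two_le h2).symm
  set h := blockHeight p B (χ : G → ℂ) with hh
  let Tf : G → Subgroup G → ℝ := fun u Q =>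
    (((p ^ blockDefect p B : ℕ) : ℂ) * classInner (kbF p u (Subgroup.centralizer (Q : Set G)) (fQ Q) χ) (kbF p u (Subgroup.centralizer (Q : Set G)) (fQ Q) χ)).re
  let g0 : G → ℝ := fun u => Tf u (Subgroup.zpowers u)
  have hm := fun σ : CF (Nat.card G) ≃ₐ[ℚ] CF (Nat.card G) => cf_sigma' (Nat.card G) σ
  choose m hm1 hm2 using hm
  have hlow : ∀ z : Zs, (Nat.card (CF (Nat.card G) ≃ₐ[ℚ] CF (Nat.card G)) : ℝ) * (p : ℝ) ^ h ≤ ∑ σ, g0 ((z : G) ^ m σ) := by
    intro z
    have h1 := galois_sum hM (Subgroup.centralizer ((Subgroup.zpowers (z : G) : Subgroup G) : Set G)) (hkz z) (hX z) hB (hindz z) (hbdz z) hχ m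
      (fun σ => ⟨hm1 σ, hm2 σ⟩)
    refine h1.trans_eq (Finset.sum_congr rfl fun σ _ => ?_)
    have hcop : (orderOf (z : G)).Coprime (m σ) := Nat.Coprime.coprime_dvd_left (orderOf_dvd_natCard _) (hm1 σ).symm
    show Tf ((z : G) ^ m σ) (Subgroup.zpowers (z : G)) = Tf ((z : G) ^ m σ) (Subgroup.zpowers ((z : G) ^ m σ))
    rw [zpowers_pow_coprime hcop]
  have hperm : ∀ σ, ∑ z : Zs, g0 ((z : G) ^ m σ) = ∑ z : Zs, g0 (z : G) := by
    intro σ
    have hcopZ : (Nat.card Zs).Coprime (m σ) := Nat.Coprime.coprime_dvd_left (Subgroup.card_subgroup_dvd_card Zs) (hm1 σ).symm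
    exact Equiv.sum_comp (powCoprime hcopZ) (fun z : Zs => g0 (z : G))
  have hcG : (0 : ℝ) < (Nat.card (CF (Nat.card G) ≃ₐ[ℚ] CF (Nat.card G)) : ℝ) := by
    exact_mod_cast Nat.card_pos
  have hlow2 : (Nat.card Zs : ℝ) * (p : ℝ) ^ h ≤ ∑ z : Zs, g0 (z : G) := by
    have h1 : ∑ z : Zs, ((Nat.card (CF (Nat.card G) ≃ₐ[ℚ] CF (Nat.card G)) : ℝ) * (p : ℝ) ^ h) ≤ ∑ z : Zs, ∑ σ, g0 ((z : G) ^ m σ) :=
      Finset.sum_le_sum fun z _ => hlow z
    rw [Finset.sum_comm, Finset.sum_congr rfl fun σ _ => hperm σ, Finset.sum_const, Finset.sum_const, Finset.card_univ, Finset.card_univ,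
      nsmul_eq_mul, nsmul_eq_mul, ← Nat.card_eq_fintype_card, ← Nat.card_eq_fintype_card] at h1
    have h2 : (Nat.card (CF (Nat.card G) ≃ₐ[ℚ] CF (Nat.card G)) : ℝ) * ((Nat.card Zs : ℝ) * (p : ℝ) ^ h) ≤
        (Nat.card (CF (Nat.card G) ≃ₐ[ℚ] CF (Nat.card G)) : ℝ) * ∑ z : Zs, g0 (z : G) := by
      calc _ = (Nat.card Zs : ℝ) * ((Nat.card (CF (Nat.card G) ≃ₐ[ℚ] CF (Nat.card G)) : ℝ) * (p : ℝ) ^ h) := by ring
        _ ≤ _ := h1
    exact le_of_mul_le_mul_left h2 hcG
  -- the upper bound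
  let F : ∀ z : Zs, Subgroup.centralizer ((Subgroup.zpowers (z : G) : Subgroup G) : Set G) → ℂ :=
    fun z => kbF p (z : G) _ (fQ (Subgroup.zpowers (z : G))) χ
  let A : Zs → ℝ := fun z => (classInner (F z) (F z)).re
  have hAc : ∀ z, classInner (F z) (F z) = (A z : ℂ) := by
    intro z
    have h1 := classInner_self_real (F z)
    show classInner (F z) (F z) = (((classInner (F z) (F z)).re : ℝ) : ℂ)
    rw [h1, Complex.ofReal_re]
  have hA0 : ∀ z, 0 ≤ A z := fun z => classInner_self_nonneg _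
  have hg0 : ∀ z : Zs, g0 (z : G) = ((p : ℝ) ^ d) * A z := by
    intro z
    show (((p ^ blockDefect p B : ℕ) : ℂ) * classInner (F z) (F z)).re = _
    rw [hAc, hbdD]
    have e : ((p ^ d : ℕ) : ℂ) = (((p : ℝ) ^ d : ℝ) : ℂ) := by push_cast; rfl
    rw [e, ← Complex.ofReal_mul, Complex.ofReal_re]
  let Pi : Zs → G → ℂ := fun z => htPi _ (z : G) (F z)
  let S : ℝ := ∑ z, A z
  have hS0 : 0 ≤ S := Finset.sum_nonneg fun z _ => hA0 z
  have hPiχ : ∀ z, classInner (Pi z) (χ : G → ℂ) = classInner (F z) (F z) := by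
    intro z
    show classInner (htPi _ (z : G) (F z)) (χ : G → ℂ) = _
    rw [classInner_htPi_class _ _ _ χ.2.isCharacter.isClassFunction]
    exact classInner_kbF_section hM _ (hkz z) (hX z) (hfb z) χ χ
  have hPiself : ∀ z, classInner (Pi z) (Pi z) = classInner (F z) (F z) :=
    fun z => classInner_htPi_self (hkz z) _ (hX z) χ
  let Rel : Zs → Zs → Prop := fun z z' => ∃ t ∈ T, t * (z : G) * t⁻¹ = z'
  have hrel : ∀ z z', classInner (Pi z) (Pi z') ≠ 0 → Rel z z' := by
    intro z z' hne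
    have hne' : classInner (htPi _ (z : G) (F z)) (htPi _ (z' : G) (F z')) ≠ 0 := hne
    rw [classInner_htPi] at hne'
    obtain ⟨g, -, hg⟩ := Finset.exists_ne_zero_of_sum_ne_zero (right_ne_zero_of_mul hne')
    have h3 := inner_ne_imp_conj (hkz z) (hkz z') _ _ (hX z) (hX z') hg
    have hQ' : cs (Subgroup.zpowers (z : G)) g = Subgroup.zpowers (z' : G) := by
      rw [← h3]
      show (Subgroup.zpowers (z : G)).map (MulAut.conj g).toMonoidHom = _
      rw [MonoidHom.map_zpowers]
      rfl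
    have h4 := inner_ne_imp_cp hM (hkz z) (hkz z') hQ' h3 (hfb z) (hfb z') hg
    obtain ⟨t, ht1, ht2⟩ := fusion_top hM hB hmax (hZD z).1 (hZD z).2 (hZD z').1 (hZD z').2 h3 (hfb z) (hfb z') (hfl z) (hfl z') h4
    refine ⟨t, (hT t).2 ⟨?_, fun θ hθ θ' hθ' => stab_of_top hM hH hind.1 hmax.1.1.2 hDp hlam ht1 hθ hθ'⟩, ht2⟩
    have hcs : cs D t = D := congrArg Sigma.fst ht1
    rw [Subgroup.mem_normalizer_iff]
    intro y
    constructor
    · intro hd
      have h1 : t * y * t⁻¹ ∈ cs D t := conj_mem_cs hd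
      rwa [hcs] at h1
    · intro hd
      have h1 : t * y * t⁻¹ ∈ cs D t := by rwa [hcs]
      rw [mem_cs] at h1
      simpa [mul_assoc] using h1
  have hsymm : ∀ z z', Rel z z' → Rel z' z := by
    rintro z z' ⟨t, ht, hz⟩
    refine ⟨t⁻¹, T.inv_mem ht, ?_⟩
    rw [← hz]
    group
  have hHz : ∀ z : Zs, ∀ y ∈ H, y * (z : G) = z * y := by
    intro z y hy
    have hle : H ≤ Subgroup.centralizer ({(z : G)} : Set G) := by
      rw [hH]
      refine sup_le (fun d' hd' => Subgroup.mem_centralizer_singleton_iff.2 ((hZD z).2 d' hd')) (fun c' hc' => Subgroup.mem_centralizer_singleton_iff.2 ?_)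
      exact ((Subgroup.mem_centralizer_iff.1 hc') z (hZD z).1).symm
    exact Subgroup.mem_centralizer_singleton_iff.1 (hle hy)
  have hcount : ∀ z : Zs, (Finset.univ.filter (fun z' => Rel z z')).card ≤ e := by
    intro z
    have hch : ∀ w : {z' : Zs // Rel z z'}, ∃ t : T, (t : G) * (z : G) * (t : G)⁻¹ = (w.1 : G) := by
      rintro ⟨w, t, ht, hw⟩
      exact ⟨⟨t, ht⟩, hw⟩
    choose τ hτ using hch
    let φ : {z' : Zs // Rel z z'} → T ⧸ H.subgroupOf T := fun w => QuotientGroup.mk (τ w)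
    have hφ : Function.Injective φ := by
      intro w w' heq
      have h1 := QuotientGroup.eq.1 heq
      rw [Subgroup.mem_subgroupOf] at h1
      have h2 := hHz z _ h1
      apply Subtype.ext
      apply Subtype.ext
      rw [← hτ w, ← hτ w']
      have h3 : (τ w' : G) = (τ w : G) * (((τ w)⁻¹ * τ w' : T) : G) := by
        push_cast
        group
      set y : G := (((τ w)⁻¹ * τ w' : T) : G) with hy
      rw [h3]
      calc (τ w : G) * (z : G) * (τ w : G)⁻¹ = (τ w : G) * ((z : G) * y) * y⁻¹ * (τ w : G)⁻¹ := by group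
        _ = (τ w : G) * (y * (z : G)) * y⁻¹ * (τ w : G)⁻¹ := by rw [h2]
        _ = (τ w : G) * y * (z : G) * ((τ w : G) * y)⁻¹ := by group
    have h1 := Nat.card_le_card_of_injective φ hφ
    have h2 : Nat.card (T ⧸ H.subgroupOf T) = e := he
    rw [h2, Nat.card_eq_fintype_card, Fintype.card_subtype] at h1
    exact h1
  have hRe : ∀ z z', (classInner (Pi z) (Pi z')).re ≤ if Rel z z' then (A z + A z') / 2 else 0 := by
    intro z z'
    by_cases hr : Rel z z'
    · rw [if_pos hr]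
      have h1 := classInner_re_le (Pi z) (Pi z')
      rw [hPiself, hPiself] at h1
      have h2 : 2 * (classInner (Pi z) (Pi z')).re ≤ A z + A z' := h1
      linarith
    · rw [if_neg hr]
      have h1 : classInner (Pi z) (Pi z') = 0 := by
        by_contra h0
        exact hr (hrel z z' h0)
      rw [h1]
      simp
  let v : G → ℂ := ∑ z, Pi z
  have hvχ : classInner v (χ : G → ℂ) = (S : ℂ) := by
    show classInner (∑ z, Pi z) (χ : G → ℂ) = _
    rw [classInner_sum_left]
    have eS : (S : ℂ) = ∑ z, (A z : ℂ) := by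
      show ((∑ z, A z : ℝ) : ℂ) = _
      push_cast
      rfl
    rw [eS]
    refine Finset.sum_congr rfl fun z _ => ?_
    rw [hPiχ, hAc]
  have hvv : (classInner v v).re ≤ (e : ℝ) * S := by
    have h1 : classInner v v = ∑ z, ∑ z', classInner (Pi z) (Pi z') := by
      show classInner (∑ z, Pi z) (∑ z, Pi z) = _
      rw [classInner_sum_left]
      refine Finset.sum_congr rfl fun z _ => ?_
      rw [classInner_sum_right]
    rw [h1, Complex.re_sum]
    simp only [Complex.re_sum]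
    have h2 : ∑ z, ∑ z', (classInner (Pi z) (Pi z')).re ≤ ∑ z, ∑ z', if Rel z z' then (A z + A z') / 2 else 0 :=
      Finset.sum_le_sum fun z _ => Finset.sum_le_sum fun z' _ => hRe z z'
    refine h2.trans ?_
    have h3 : ∀ z z', (if Rel z z' then (A z + A z') / 2 else 0) = (if Rel z z' then A z / 2 else 0) + (if Rel z z' then A z' / 2 else 0) := by
      intro z z'
      split_ifs
      · ring
      · ring
    simp only [h3, Finset.sum_add_distrib]
    have h4 : ∑ z, ∑ z', (if Rel z z' then A z' / 2 else 0) = ∑ z, ∑ z', (if Rel z z' then A z / 2 else 0) := by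
      rw [Finset.sum_comm]
      refine Finset.sum_congr rfl fun z _ => Finset.sum_congr rfl fun z' _ => ?_
      by_cases hr : Rel z z'
      · rw [if_pos hr, if_pos (hsymm _ _ hr)]
      · rw [if_neg hr, if_neg (fun h' => hr (hsymm _ _ h'))]
    rw [h4]
    have h5 : ∀ z, ∑ z', (if Rel z z' then A z / 2 else 0) ≤ (e : ℝ) * (A z / 2) := by
      intro z
      rw [← Finset.sum_filter, Finset.sum_const, nsmul_eq_mul]
      have h6 : ((Finset.univ.filter (fun z' => Rel z z')).card : ℝ) ≤ (e : ℝ) := by exact_mod_cast hcount z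
      exact mul_le_mul_of_nonneg_right h6 (by have := hA0 z; linarith)
    have h7 : ∑ z, ∑ z', (if Rel z z' then A z / 2 else 0) ≤ ∑ z, (e : ℝ) * (A z / 2) := Finset.sum_le_sum fun z _ => h5 z
    have h8 : ∑ z, (e : ℝ) * (A z / 2) = (e : ℝ) * S / 2 := by
      show _ = (e : ℝ) * (∑ z, A z) / 2
      rw [Finset.mul_sum, Finset.sum_div]
      refine Finset.sum_congr rfl fun z _ => ?_
      ring
    linarith
  have hχχ : classInner (χ : G → ℂ) (χ : G → ℂ) = 1 := classInner_irr_self χ.2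
  have hmain : S ^ 2 ≤ (e : ℝ) * S := by
    have h1 := classInner_re_le v ((S : ℂ) • (χ : G → ℂ))
    rw [classInner_smul_right, hvχ, classInner_smul_left, classInner_smul_right, hχχ] at h1
    simp only [Complex.conj_ofReal, mul_one] at h1
    have e1 : ((S : ℂ) * (S : ℂ)).re = S ^ 2 := by
      rw [← Complex.ofReal_mul, Complex.ofReal_re]
      ring
    rw [e1] at h1
    linarith
  have hSe : S ≤ (e : ℝ) := by
    by_cases h0 : S = 0
    · rw [h0]
      exact Nat.cast_nonneg _
    · have hSpos : 0 < S := lt_of_le_of_ne hS0 (Ne.symm h0)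
      have h1 : S * S ≤ (e : ℝ) * S := by
        rw [← sq]
        exact hmain
      exact le_of_mul_le_mul_right h1 hSpos
  -- final arithmetic
  have hp0 : (0 : ℝ) < p := by exact_mod_cast hp.out.pos
  have hfin : (p : ℝ) ^ (h + c) ≤ (p : ℝ) ^ d * (e : ℝ) := by
    have h1 : ∑ z : Zs, g0 (z : G) = (p : ℝ) ^ d * S := by
      show _ = (p : ℝ) ^ d * ∑ z, A z
      rw [Finset.mul_sum]
      exact Finset.sum_congr rfl fun z _ => hg0 z
    rw [h1, hcardZ] at hlow2
    have h2 : (p : ℝ) ^ d * S ≤ (p : ℝ) ^ d * (e : ℝ) := mul_le_mul_of_nonneg_left hSe (pow_pos hp0 d).le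
    calc (p : ℝ) ^ (h + c) = ((p ^ c : ℕ) : ℝ) * (p : ℝ) ^ h := by
          push_cast
          rw [pow_add]
          ring
      _ ≤ _ := hlow2.trans h2
  have hlt : p ^ (h + c) < p ^ (d + (n + 1)) := by
    have h1 : (e : ℝ) < (p : ℝ) ^ (n + 1) := by exact_mod_cast hn.2
    have h2 : (p : ℝ) ^ (h + c) < (p : ℝ) ^ (d + (n + 1)) := by
      rw [pow_add (p : ℝ) d]
      exact lt_of_le_of_lt hfin (mul_lt_mul_of_pos_left h1 (pow_pos hp0 d))
    exact_mod_cast h2
  have h5 := (Nat.pow_lt_pow_iff_right hp.out.one_lt).1 hlt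
  omega

end Final

end CfsgLib.Block
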