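import Cfsg.Agent.Lib.Block.Kern
import Cfsg.Agent.Lib.Block.DefectThm
import Cfsg.Agent.Lib.Block.Height

/-! # Knörr: a character vanishing on the elements of order `p` has defect zero -/

set_option autoImplicit false
set_option linter.unusedSectionVars false
set_option linter.unusedVariables false

namespace CfsgLib.Block

open Cfsg CfsgLib.Char CfsgLib.FGS
open scoped ComplexConjugate Pointwise

universe u

section

variable {G : Type u} [Group G] [Fintype G] {p : ℕ} [hp : Fact p.Prime] {M : Ideal AlgInt} (hM : IsPModular p M)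

attribute [local instance] centFintype

include hM

/-- The existence of a central character of `C(P)` lying under a block with nonzero coefficient. -/
theorem exists_lam_self {P : Subgroup G} (hPp : IsPGroup p P) {B : Set (IrrCharacter G)} (hB : IsPBlock M B) {c : G}
    (hc : c ∈ Subgroup.centralizer (P : Set G)) (hne : blockCoeff B c ∉ locI hM.isPrime) :
    ∃ ξ : IrrCharacter (Subgroup.centralizer (P : Set G)),
      lam P (ξ : Subgroup.centralizer (P : Set G) → ℂ) (fB B) - 1 ∈ locI hM.isPrime := by
  classical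
  have hPr := hM.isPrime
  have hws : SVal hPr (fB B) := sval_fB hM hB
  have hfP : PInv P (fB B) := (isCent_fB B).pInv _
  have hwC : PInv (Subgroup.centralizer (P : Set G)) (fB B) := (isCent_fB B).pInv _
  have hzc := isCent_brC hwC
  have hzs := sval_brC (P := P) hM hws
  have hww : fB B * fB B = fB B := fB_mul_self B
  have hz : CDiv hM 1 (brC P (fB B) - brC P (fB B) * brC P (fB B)) := by
    have := brC_mul_cdiv hM hPp hws hws hfP hfP
    rwa [hww] at this
  by_contra hcon
  push Not at hcon
  have h0c : IsCent ((0 : ℂ) • (1 : GA (Subgroup.centralizer (P : Set G)))) := isCent_one.smul 0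
  have h0s : SVal hPr ((0 : ℂ) • (1 : GA (Subgroup.centralizer (P : Set G)))) := SVal.smul hPr (zero_mem _) (sval_one hPr)
  have hom : ∀ ξ : IrrCharacter (Subgroup.centralizer (P : Set G)),
      om (ξ : Subgroup.centralizer (P : Set G) → ℂ) (brC P (fB B)) -
        om (ξ : Subgroup.centralizer (P : Set G) → ℂ) ((0 : ℂ) • (1 : GA (Subgroup.centralizer (P : Set G)))) ∈ locI hPr := by
    intro ξ
    have h1 := lam_mul_sub_mem hM hPp ξ.2 hws hws hfP hfP hwC hwC
    rw [hww] at h1
    have hm : lam P (ξ : Subgroup.centralizer (P : Set G) → ℂ) (fB B) ∈ locR hPr := lam_mem hM ξ.2 hwC hws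
    have h2 : lam P (ξ : Subgroup.centralizer (P : Set G) → ℂ) (fB B) *
        (1 - lam P (ξ : Subgroup.centralizer (P : Set G) → ℂ) (fB B)) ∈ locI hPr := by
      convert h1 using 1
      ring
    rw [om_smul, zero_mul, sub_zero]
    rcases locI_prime hPr hm (sub_mem (one_mem _) hm) h2 with h3 | h3
    · exact h3
    · exfalso
      apply hcon ξ
      have := (locI hPr).neg_mem h3
      convert this using 1
      ring
  have h := cdiv_of_idem_cong hM hzc h0c hzs h0s hz (by simp) hom
  have h2 := DivBy.mem_locI hM (n := 0) (h ⟨c, hc⟩)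
  rw [coeff_sub', coeff_brC] at h2
  have h3 : ((0 : ℂ) • (1 : GA (Subgroup.centralizer (P : Set G)))).coeff ⟨c, hc⟩ = 0 := by simp
  rw [h3, sub_zero, coeff_fB] at h2
  exact hne h2

omit hM in
/-- A fixed-point-free map whose `p`-th iterate is the identity forces `p ∣ card`. -/
theorem p_dvd_card_of_free {α : Type*} [Fintype α] (f : α → α) (hf : f^[p] = id) (hfree : ∀ x, f x ≠ x) :
    p ∣ Fintype.card α := by
  classical
  let F : Function.End α := f
  have h1 : F ^ p ^ 1 = 1 := by
    rw [pow_one]
    have h0 : ∀ k : ℕ, ((F ^ k : Function.End α) : α → α) = f^[k] := by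
      intro k
      induction k with
      | zero => rfl
      | succ k ih =>
        rw [pow_succ, Function.iterate_succ]
        exact congrArg (fun t : α → α => t ∘ f) ih
    have h00 := h0 p
    rw [hf] at h00
    exact h00
  have h2 := Equiv.Perm.card_fixedPoints_modEq (p := p) (n := 1) (f := F) h1
  have h3 : Fintype.card (Function.fixedPoints F) = 0 := by
    rw [Fintype.card_eq_zero_iff]
    exact ⟨fun x => hfree x.1 x.2⟩
  rw [h3] at h2
  exact (Nat.modEq_zero_iff_dvd).1 h2

open Classical in
/-- The sum of the elements of `G` whose `p`-th power is trivial. -/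
noncomputable def omP (p : ℕ) (H : Type u) [Group H] [Fintype H] : GA H := mkA (fun x => if x ^ p = 1 then 1 else 0)

omit hM in
open Classical in
theorem coeff_omP (H : Type u) [Group H] [Fintype H] (x : H) : (omP p H).coeff x = if x ^ p = 1 then 1 else 0 := rfl

omit hM in
theorem isCent_omP : IsCent (omP p G) := by
  classical
  apply isCent_mkA
  intro g x
  have : (x * g * x⁻¹) ^ p = 1 ↔ g ^ p = 1 := by
    rw [conj_pow]
    constructor
    · intro h
      have := congrArg (fun y => x⁻¹ * y * x) h
      simpa [mul_assoc] using this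
    · intro h
      rw [h]
      simp
  simp only [this]

theorem sval_omP : SVal hM.isPrime (omP p G) := by
  classical
  intro g
  rw [coeff_omP]
  split_ifs
  · exact one_mem _
  · exact zero_mem _

/-- The central element squares to a multiple of `p` after truncation to a centralizer. -/
theorem omP_sq_mem {H : Type u} [Group H] [Fintype H] {z : H} (hzc : ∀ x : H, z * x = x * z) (hz : orderOf z = p) (g : H) :
    (omP p H * omP p H).coeff g ∈ locI hM.isPrime := by
  classical
  have hzp : z ^ p = 1 := by rw [← hz]; exact pow_orderOf_eq_one z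
  have hz1 : z ≠ 1 := by
    intro h
    rw [h, orderOf_one] at hz
    exact hp.out.one_lt.ne hz
  have hcoe : (omP p H * omP p H).coeff g =
      ((Fintype.card {x : H // x ^ p = 1 ∧ (x⁻¹ * g) ^ p = 1} : ℕ) : ℂ) := by
    rw [coeff_mul_sum, Fintype.card_subtype, Finset.card_filter]
    push_cast
    refine Finset.sum_congr rfl fun x _ => ?_
    rw [coeff_omP, coeff_omP]
    by_cases h1 : x ^ p = 1 <;> by_cases h2 : (x⁻¹ * g) ^ p = 1 <;> simp [h1, h2]
  rw [hcoe]
  have hcomm : ∀ x : H, Commute z x := fun x => hzc x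
  have hd : p ∣ Fintype.card {x : H // x ^ p = 1 ∧ (x⁻¹ * g) ^ p = 1} := by
    let T : {x : H // x ^ p = 1 ∧ (x⁻¹ * g) ^ p = 1} → {x : H // x ^ p = 1 ∧ (x⁻¹ * g) ^ p = 1} :=
      fun x => ⟨z * x.1, by
        rw [(hcomm x.1).mul_pow, hzp, one_mul]
        exact x.2.1, by
        have h1 : (z * x.1)⁻¹ * g = z⁻¹ * (x.1⁻¹ * g) := by
          rw [mul_inv_rev, ← (hcomm x.1).inv_inv.eq, mul_assoc]
        rw [h1, (hcomm _).inv_left.mul_pow, inv_pow, hzp, inv_one, one_mul]
        exact x.2.2⟩
    have hT : ∀ (k : ℕ) (x : {x : H // x ^ p = 1 ∧ (x⁻¹ * g) ^ p = 1}), ((T^[k] x).1) = z ^ k * x.1 := by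
      intro k
      induction k with
      | zero => intro x; simp
      | succ k ih =>
        intro x
        rw [Function.iterate_succ_apply', pow_succ']
        show z * (T^[k] x).1 = _
        rw [ih, mul_assoc]
    refine p_dvd_card_of_free T ?_ ?_
    · funext x
      apply Subtype.ext
      rw [hT, hzp, one_mul]
      rfl
    · intro x h
      have := congrArg Subtype.val h
      exact hz1 (by simpa [T] using this)
  exact (natCast_mem_locI_iff hM _).2 hd

omit hM in
theorem om_omP_of_vanish {χ : IrrCharacter G} (hvan : ∀ g : G, orderOf g = p → (χ : G → ℂ) g = 0) :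
    om (χ : G → ℂ) (omP p G) = 1 := by
  classical
  have h : hat (χ : G → ℂ) (omP p G) = (χ : G → ℂ) 1 := by
    rw [hat, Finset.sum_eq_single (1 : G)]
    · rw [coeff_omP, if_pos (one_pow p), one_mul]
    · intro g _ hg
      rw [coeff_omP]
      split_ifs with h1
      · have h2 : orderOf g = p := orderOf_eq_prime h1 hg
        rw [hvan g h2, mul_zero]
      · rw [zero_mul]
    · simp
  rw [om, h, div_self χ.2.map_one_ne_zero]

/-- **Knörr's key step**: no element of order `p` lies in a defect group of the block of `χ`. -/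
theorem not_mem_defect_of_vanish {χ : IrrCharacter G} (hvan : ∀ g : G, orderOf g = p → (χ : G → ℂ) g = 0)
    {D : Subgroup G} (hD : IsDefectGroup p M (blockOf M (χ : G → ℂ)) D) {z : G} (hzD : z ∈ D) (hz : orderOf z = p) : False := by
  classical
  have hPr := hM.isPrime
  set B := blockOf M (χ : G → ℂ) with hBdef
  have hB : IsPBlock M B := ⟨χ, rfl⟩
  let P : Subgroup G := Subgroup.zpowers z
  have hPp : IsPGroup p P := by
    rw [IsPGroup.iff_card]
    exact ⟨1, by rw [Nat.card_zpowers, hz, pow_one]⟩
  obtain ⟨g, hg, S, hS⟩ := hD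
  have hgc : g ∈ Subgroup.centralizer (P : Set G) := by
    rw [Subgroup.mem_centralizer_iff]
    have hz2 : z ∈ Subgroup.centralizer ({g} : Set G) := by
      rw [hS] at hzD
      obtain ⟨t, _, rfl⟩ := hzD
      exact t.2
    rw [Subgroup.mem_centralizer_singleton_iff] at hz2
    rintro _ ⟨k, rfl⟩
    have hcomm : Commute z g := hz2
    exact ((hcomm.zpow_left k)).eq
  obtain ⟨ξ, hξ⟩ := exists_lam_self hM hPp hB hgc hg.2.1
  obtain ⟨B₁, hB₁, h1⟩ := exists_block_lam hM hPp ξ.2
  obtain ⟨χ₁, hχ₁⟩ := IsPBlock.nonempty hPr hB₁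
  have h2 := h1 χ₁ hχ₁ (fB B) (isCent_fB B) (sval_fB hM hB)
  rw [om_fB] at h2
  have hχ₁B : χ₁ ∈ B := by
    by_contra hn
    rw [if_neg hn, sub_zero] at h2
    apply one_notMem_locI hPr
    have := (locI hPr).sub_mem h2 hξ
    simpa using this
  have hsame : SameBlock M (χ : G → ℂ) (χ₁ : G → ℂ) := hχ₁B
  have h3 := h1 χ₁ hχ₁ (omP p G) isCent_omP (sval_omP hM)
  have h4 := om_sub_mem_of_sameBlock hPr χ.2 χ₁.2 hsame isCent_omP (sval_omP hM)
  rw [om_omP_of_vanish hvan] at h4
  -- `lam ξ Ω ≡ 1`
  have h5 : lam P (ξ : Subgroup.centralizer (P : Set G) → ℂ) (omP p G) - 1 ∈ locI hPr := by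
    have := (locI hPr).sub_mem h3 h4
    convert this using 1
    ring
  -- the truncation equals `omP` of the centralizer
  let C := Subgroup.centralizer (P : Set G)
  have hbr : brC P (omP p G) = omP p C := by
    apply MonoidAlgebra.ext
    ext c
    show (omP p G).coeff (c : G) = (omP p C).coeff c
    rw [coeff_omP, coeff_omP]
    have : c ^ p = 1 ↔ (c : G) ^ p = 1 := by
      rw [← Subgroup.coe_pow]
      exact (OneMemClass.coe_eq_one).symm
    simp only [this]
  have h6 : lam P (ξ : C → ℂ) (omP p G) = om (ξ : C → ℂ) (omP p C) := by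
    rw [lam, hbr]
  rw [h6] at h5
  have hzC : z ∈ C := by
    rw [Subgroup.mem_centralizer_iff]
    rintro _ ⟨k, rfl⟩
    exact ((Commute.refl z).zpow_left k).eq
  have hoC : orderOf (⟨z, hzC⟩ : C) = p := by
    rw [Subgroup.orderOf_mk, hz]
  have hcomm : ∀ x : C, (⟨z, hzC⟩ : C) * x = x * ⟨z, hzC⟩ := by
    intro x
    apply Subtype.ext
    have := x.2
    rw [Subgroup.mem_centralizer_iff] at this
    exact (this z (Subgroup.mem_zpowers z))
  have hcC : IsCent (omP p C) := isCent_omP
  have h7 : om (ξ : C → ℂ) (omP p C * omP p C) ∈ locI hPr :=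
    om_mem_locI_of_coeff ξ.2 (hcC.mul hcC) (fun g' => omP_sq_mem hM hcomm hoC g')
  rw [om_mul_of_cent ξ.2 hcC] at h7
  have hm : om (ξ : C → ℂ) (omP p C) ∈ locR hPr := om_mem hPr ξ.2 hcC (sval_omP hM)
  have h8 : om (ξ : C → ℂ) (omP p C) ∈ locI hPr := by
    rcases locI_prime hPr hm hm h7 with h | h <;> exact h
  apply one_notMem_locI hPr
  have := (locI hPr).sub_mem h8 h5
  simpa using this

/-- Knörr's theorem. -/
theorem knorr_vanish {χ : IrrCharacter G} (hvan : ∀ g : G, orderOf g = p → (χ : G → ℂ) g = 0) :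
    (charDegree (χ : G → ℂ)).factorization p = (Nat.card G).factorization p := by
  classical
  have hPr := hM.isPrime
  have hB : IsPBlock M (blockOf M (χ : G → ℂ)) := ⟨χ, rfl⟩
  obtain ⟨D, hD⟩ := exists_defectGroup hM hB
  have hcard := card_defectGroup hM hB hD
  have h0 : blockDefect p (blockOf M (χ : G → ℂ)) = 0 := by
    by_contra hne
    have hd : p ∣ Nat.card D := by
      rw [hcard]
      exact dvd_pow_self p hne
    obtain ⟨z, hz⟩ := exists_prime_orderOf_dvd_card' p hd
    refine not_mem_defect_of_vanish hM hvan hD z.2 ?_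
    rwa [Subgroup.orderOf_coe]
  have h1 : (Nat.card G).factorization p ≤ minNu p (blockOf M (χ : G → ℂ)) := by
    have := h0
    rw [blockDefect] at this
    exact Nat.sub_eq_zero_iff_le.1 this
  have h2 := minNu_le (p := p) (self_mem_blockOf hPr χ : χ ∈ blockOf M (χ : G → ℂ))
  exact le_antisymm (minNu_le_factorization) (h1.trans h2)

end

end CfsgLib.Block
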