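import Cfsg.Agent.Lib.Block.Rank

set_option autoImplicit false

namespace CfsgLib.Block

open Cfsg CfsgLib.Char

universe u
open Classical in
/-- Landau's lemma on Egyptian fractions. -/
theorem egyptian_bound (k : ℕ) : ∀ c : ℚ, ∃ N : ℕ, ∀ s : Multiset ℕ, Multiset.card s = k → (∀ n ∈ s, 0 < n) →
    (s.map (fun n : ℕ => (1 : ℚ) / n)).sum = c → ∀ n ∈ s, n ≤ N := by
  induction k with
  | zero =>
    intro c
    refine ⟨0, fun s hs _ _ n hn => ?_⟩
    rw [Multiset.card_eq_zero] at hs
    simp [hs] at hn
  | succ k ih =>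
    intro c
    by_cases hc : c ≤ 0
    · refine ⟨0, fun s hs hpos hsum n hn => ?_⟩
      exfalso
      have h1 : 0 < (s.map (fun n : ℕ => (1 : ℚ) / n)).sum := by
        have hne : s ≠ 0 := by
          rintro rfl
          simp at hs
        obtain ⟨m, hm⟩ := Multiset.exists_mem_of_ne_zero hne
        rw [← Multiset.cons_erase hm, Multiset.map_cons, Multiset.sum_cons]
        have h2 : (0 : ℚ) < 1 / m := by
          have := hpos m hm
          positivity
        have h3 : 0 ≤ ((s.erase m).map (fun n : ℕ => (1 : ℚ) / n)).sum := by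
          apply Multiset.sum_nonneg
          intro x hx
          obtain ⟨y, _, rfl⟩ := Multiset.mem_map.1 hx
          positivity
        linarith
      linarith
    · push Not at hc
      set Mx : ℕ := ⌈((k : ℚ) + 1) / c⌉₊ with hMx
      choose Nf hNf using ih
      set N : ℕ := Mx + (Finset.range (Mx + 1)).sup (fun m => Nf (c - 1 / (m : ℚ))) with hN
      refine ⟨N, fun s hs hpos hsum n hn => ?_⟩
      -- the minimum of `s`
      have hne : s ≠ 0 := by
        rintro rfl
        simp at hs
      obtain ⟨m, hm, hmin⟩ : ∃ m ∈ s, ∀ x ∈ s, m ≤ x := by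
        refine ⟨s.toFinset.min' (by simpa [Finset.Nonempty, Multiset.mem_toFinset] using Multiset.exists_mem_of_ne_zero hne), ?_, ?_⟩
        · exact Multiset.mem_toFinset.1 (Finset.min'_mem _ _)
        · intro x hx
          exact Finset.min'_le _ _ (Multiset.mem_toFinset.2 hx)
      have hm0 := hpos m hm
      have hm0' : (0 : ℚ) < m := by exact_mod_cast hm0
      have hle : c ≤ ((k : ℚ) + 1) * (1 / m) := by
        rw [← hsum]
        have h1 : ∀ x ∈ s.map (fun n : ℕ => (1 : ℚ) / n), x ≤ 1 / (m : ℚ) := by
          intro x hx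
          obtain ⟨y, hy, rfl⟩ := Multiset.mem_map.1 hx
          have hy0 : (m : ℚ) ≤ y := by exact_mod_cast hmin y hy
          exact one_div_le_one_div_of_le hm0' hy0
        have h2 := Multiset.sum_le_card_nsmul _ _ h1
        rw [Multiset.card_map, hs, nsmul_eq_mul] at h2
        push_cast at h2
        exact h2
      have hmM : m ≤ Mx := by
        have h1 : (m : ℚ) ≤ ((k : ℚ) + 1) / c := by
          rw [le_div_iff₀ hc]
          have h2 : c * m ≤ ((k : ℚ) + 1) * (1 / m) * m := mul_le_mul_of_nonneg_right hle hm0'.le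
          have h3 : ((k : ℚ) + 1) * (1 / m) * m = (k : ℚ) + 1 := by field_simp
          rw [h3] at h2
          linarith
        have h2 : (m : ℚ) ≤ (Mx : ℚ) := h1.trans (Nat.le_ceil _)
        exact_mod_cast h2
      by_cases hnm : n = m
      · subst hnm
        omega
      · have hn' : n ∈ s.erase m := (Multiset.mem_erase_of_ne hnm).2 hn
        have hs' : Multiset.card (s.erase m) = k := by
          rw [Multiset.card_erase_of_mem hm, hs]
          rfl
        have hsum' : ((s.erase m).map (fun n : ℕ => (1 : ℚ) / n)).sum = c - 1 / (m : ℚ) := by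
          rw [← hsum, ← Multiset.cons_erase hm, Multiset.map_cons, Multiset.sum_cons, Multiset.erase_cons_head]
          ring
        have h1 := hNf (c - 1 / (m : ℚ)) (s.erase m) hs' (fun x hx => hpos x (Multiset.mem_of_mem_erase hx)) hsum' n hn'
        have h2 : Nf (c - 1 / (m : ℚ)) ≤ (Finset.range (Mx + 1)).sup (fun m => Nf (c - 1 / (m : ℚ))) :=
          Finset.le_sup (f := fun m : ℕ => Nf (c - 1 / (m : ℚ))) (Finset.mem_range.2 (by omega))
        omega

/-- **Landau's theorem**: the order of a group is bounded in terms of its number of classes. -/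
theorem landau (K : ℕ) : ∃ N : ℕ, ∀ (G : Type u) [Group G] [Finite G], Nat.card (ConjClasses G) ≤ K → Nat.card G ≤ N := by
  classical
  choose Nf hNf using fun k : ℕ => egyptian_bound k 1
  refine ⟨(Finset.range (K + 1)).sup Nf, fun G _ _ hK => ?_⟩
  letI : Fintype G := Fintype.ofFinite G
  letI : Fintype (ConjClasses G) := Fintype.ofFinite _
  set s : Multiset ℕ := (Finset.univ : Finset (ConjClasses G)).val.map
    (fun E => Nat.card (Subgroup.centralizer ({E.out} : Set G))) with hs
  have hcard : Multiset.card s = Nat.card (ConjClasses G) := by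
    simp [hs, Nat.card_eq_fintype_card]
  have hpos : ∀ n ∈ s, 0 < n := by
    intro n hn
    obtain ⟨E, _, rfl⟩ := Multiset.mem_map.1 hn
    exact Nat.card_pos
  have hG : (Nat.card G : ℚ) ≠ 0 := by
    exact_mod_cast Nat.card_pos.ne'
  have hsum : (s.map (fun n : ℕ => (1 : ℚ) / n)).sum = 1 := by
    have h1 : ∀ E : ConjClasses G, (1 : ℚ) / (Nat.card (Subgroup.centralizer ({E.out} : Set G)) : ℚ) =
        ((classFinset E.out).card : ℚ) / (Nat.card G : ℚ) := by
      intro E
      have h2 : (classFinset E.out).card • Nat.card (Subgroup.centralizer ({E.out} : Set G)) = Nat.card G := by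
        rw [← card_class_mul_card_centralizer E.out, smul_eq_mul, card_classFinset, index_centralizer_eq]
      have h3 : (Nat.card (Subgroup.centralizer ({E.out} : Set G)) : ℚ) ≠ 0 := by
        exact_mod_cast Nat.card_pos.ne'
      rw [div_eq_div_iff h3 hG, one_mul]
      have h4 : ((classFinset E.out).card : ℚ) * (Nat.card (Subgroup.centralizer ({E.out} : Set G)) : ℚ) = (Nat.card G : ℚ) := by
        exact_mod_cast h2
      rw [h4]
    have h5 : (s.map (fun n : ℕ => (1 : ℚ) / n)).sum =
        ∑ E : ConjClasses G, (1 : ℚ) / (Nat.card (Subgroup.centralizer ({E.out} : Set G)) : ℚ) := by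
      rw [hs, Multiset.map_map]
      rfl
    rw [h5]
    simp only [h1]
    rw [← Finset.sum_div, div_eq_one_iff_eq hG]
    have h6 := sum_eq_sum_classes (fun _ : G => (1 : ℕ)) (fun _ _ => rfl)
    have h7 : ∑ _a : G, (1 : ℕ) = Nat.card G := by
      simp [Nat.card_eq_fintype_card]
    rw [h7] at h6
    rw [h6]
    simp
  have h1 : Nat.card (Subgroup.centralizer ({(1 : G)} : Set G)) = Nat.card G := by
    have : Subgroup.centralizer ({(1 : G)} : Set G) = ⊤ := by
      ext z
      simp [Subgroup.mem_centralizer_singleton_iff]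
    rw [this, Nat.card_congr Subgroup.topEquiv.toEquiv]
  have hmem : Nat.card G ∈ s := by
    rw [hs]
    refine Multiset.mem_map.2 ⟨ConjClasses.mk (1 : G), Finset.mem_univ _, ?_⟩
    have h2 : (ConjClasses.mk (1 : G)).out = 1 := by
      have h3 := ConjClasses.mk_eq_mk_iff_isConj.1 (Quotient.out_eq (ConjClasses.mk (1 : G)))
      exact isConj_one_right.1 h3.symm |>.symm ▸ rfl
    rw [h2]
    exact h1
  have h2 := hNf (Nat.card (ConjClasses G)) s hcard hpos hsum _ hmem
  have h3 : Nf (Nat.card (ConjClasses G)) ≤ (Finset.range (K + 1)).sup Nf :=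
    Finset.le_sup (Finset.mem_range.2 (by omega))
  omega

end CfsgLib.Block
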