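import Cfsg.Agent.Lib.Block.Nil
import Cfsg.Prelude.Def_BlockRank

/-! # Rank one principal blocks -/

set_option autoImplicit false
set_option linter.unusedSectionVars false
set_option linter.unusedVariables false

namespace CfsgLib.Block

open Cfsg CfsgLib.Char
open scoped ComplexConjugate Pointwise

universe u

variable {G : Type u} [Group G] [Fintype G] {p : ℕ} [hp : Fact p.Prime] {M : Ideal AlgInt}

theorem isPRegular_one (p : ℕ) [hp : Fact p.Prime] : IsPRegular p (1 : G) := by
  simpa [IsPRegular] using hp.out.one_lt.ne'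

/-- The kernel of a set of characters containing the principal one, when the idempotent vanishes on `p`-singular
elements, is a `p'`-group. -/
theorem coprime_of_setKer (hM : IsPModular p M) {B : Set (IrrCharacter G)} (hB : IsPBlock M B) (hne : B.Nonempty)
    (K : Subgroup G) (hK : ∀ g, g ∈ K ↔ ∀ χ ∈ B, (χ : G → ℂ) g = (χ : G → ℂ) 1) :
    (Nat.card K).Coprime p := by
  classical
  rw [Nat.coprime_comm, Nat.Prime.coprime_iff_not_dvd hp.out]
  intro hd
  obtain ⟨x, hx⟩ := exists_prime_orderOf_dvd_card' (G := K) p hd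
  have hx' : p ∣ orderOf (x : G) := by
    rw [Subgroup.orderOf_coe, hx]
  have h0 := blockCoeff_singular hM hB hx'
  rw [blockCoeff, finsum_mem_eq_sum_ite] at h0
  have hc : (Nat.card G : ℂ)⁻¹ ≠ 0 := inv_ne_zero (by exact_mod_cast Nat.card_pos.ne')
  have h1 := (mul_eq_zero.1 h0).resolve_left hc
  have h2 : ∀ χ : IrrCharacter G, (if χ ∈ B then (χ : G → ℂ) 1 * conj ((χ : G → ℂ) x) else 0) =
      ((if χ ∈ B then charDegree (χ : G → ℂ) ^ 2 else 0 : ℕ) : ℂ) := by
    intro χ
    split_ifs with hχ
    · have h3 := (hK x).1 x.2 χ hχ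
      rw [h3, ← coe_charDegree χ.2.isCharacter, Complex.conj_natCast]
      push_cast
      ring
    · simp
  simp only [h2] at h1
  rw [← Nat.cast_sum, Nat.cast_eq_zero, Finset.sum_eq_zero_iff] at h1
  obtain ⟨χ, hχ⟩ := hne
  have h3 := h1 χ (Finset.mem_univ _)
  rw [if_pos hχ] at h3
  exact (charDegree_ne_zero χ.2) (pow_eq_zero_iff (by norm_num) |>.1 h3)

/-- If every character of `B₀` has all `p`-regular elements in its kernel, then there is a normal `p`-complement. -/
theorem hasNormalPComplement_of_regular_ker (hM : IsPModular p M)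
    (h : ∀ χ ∈ principalBlock M G, ∀ x : G, IsPRegular p x → (χ : G → ℂ) x = (χ : G → ℂ) 1) :
    HasNormalPComplement p G := by
  classical
  have hP := hM.isPrime
  have hB₀ : IsPBlock M (principalBlock M G) := ⟨oneIrr G, rfl⟩
  obtain ⟨K, hKn, hK⟩ := exists_setKer (principalBlock M G)
  haveI := hKn
  have hc := coprime_of_setKer hM hB₀ ⟨oneIrr G, oneIrr_mem_principal hP⟩ K hK
  have hreg : ∀ x : G, IsPRegular p x → x ∈ K := fun x hx => (hK x).2 fun χ hχ => h χ hχ x hx
  have hq : IsPGroup p (G ⧸ K) := by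
    intro y
    obtain ⟨g, rfl⟩ := QuotientGroup.mk_surjective y
    have hne : orderOf g ≠ 0 := (orderOf_pos g).ne'
    obtain ⟨a, m, hm, hgm⟩ := Nat.exists_eq_pow_mul_and_not_dvd hne p hp.out.ne_one
    refine ⟨a, ?_⟩
    rw [← QuotientGroup.mk_pow, QuotientGroup.eq_one_iff]
    apply hreg
    rw [IsPRegular, orderOf_pow' g (pow_ne_zero _ hp.out.ne_zero)]
    have h3 : Nat.gcd (orderOf g) (p ^ a) = p ^ a := by
      rw [hgm]
      exact Nat.gcd_eq_right (Dvd.intro _ rfl)
    rw [h3, hgm, Nat.mul_div_cancel_left _ (pow_pos hp.out.pos _)]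
    exact hm
  obtain ⟨k, hk⟩ := IsPGroup.iff_card.1 hq
  exact CfsgLib.Trans.hasNormalPComplement_iff.2 ⟨K, hKn, hc, k, by rw [Subgroup.index_eq_card]; exact hk⟩

theorem rank_eq_one_iff (hM : IsPModular p M) :
    blockRank p (principalBlock M G) = 1 ↔ HasNormalPComplement p G := by
  classical
  have hP := hM.isPrime
  set u : G → ℂ := pRegularPart p ((oneIrr G : IrrCharacter G) : G → ℂ) with hu
  have hu1 : u 1 = 1 := by
    rw [hu, pRegularPart]
    rw [if_pos (isPRegular_one p)]
    rfl
  have hu0 : u ≠ 0 := by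
    intro h0
    rw [h0] at hu1
    simp at hu1
  have hureg : ∀ x, IsPRegular p x → u x = 1 := by
    intro x hx
    rw [hu, pRegularPart]
    rw [if_pos hx]
    rfl
  have husing : ∀ x, ¬ IsPRegular p x → u x = 0 := by
    intro x hx
    rw [hu, pRegularPart]
    rw [if_neg hx]
  have hmem : u ∈ (fun χ : IrrCharacter G => pRegularPart p (χ : G → ℂ)) '' (principalBlock M G) :=
    ⟨oneIrr G, oneIrr_mem_principal hP, rfl⟩
  constructor
  · intro h
    apply hasNormalPComplement_of_regular_ker hM
    intro χ hχ x hx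
    have hv : pRegularPart p (χ : G → ℂ) ∈
        Submodule.span ℂ ((fun χ : IrrCharacter G => pRegularPart p (χ : G → ℂ)) '' (principalBlock M G)) :=
      Submodule.subset_span ⟨χ, hχ, rfl⟩
    have hu' : u ∈ Submodule.span ℂ ((fun χ : IrrCharacter G => pRegularPart p (χ : G → ℂ)) '' (principalBlock M G)) :=
      Submodule.subset_span hmem
    have hne : (⟨u, hu'⟩ : ↥(Submodule.span ℂ ((fun χ : IrrCharacter G => pRegularPart p (χ : G → ℂ)) '' (principalBlock M G)))) ≠ 0 := by
      intro h0
      apply hu0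
      exact congrArg Subtype.val h0
    obtain ⟨c, hc⟩ := (finrank_eq_one_iff_of_nonzero' _ hne).1 h ⟨_, hv⟩
    have hc' : c • u = pRegularPart p (χ : G → ℂ) := congrArg Subtype.val hc
    have h1 := congrFun hc' x
    have h2 := congrFun hc' 1
    simp only [Pi.smul_apply, smul_eq_mul] at h1 h2
    rw [hureg x hx, pRegularPart] at h1
    rw [hu1, pRegularPart] at h2
    rw [if_pos hx] at h1
    rw [if_pos (isPRegular_one p)] at h2
    rw [← h1, ← h2]
  · intro h
    obtain ⟨N, hN, hNc, k, hk⟩ := CfsgLib.Trans.hasNormalPComplement_iff.1 h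
    haveI := hN
    have hNp : ¬ p ∣ Nat.card N := fun hd =>
      (Nat.Prime.coprime_iff_not_dvd hp.out).1 hNc.symm hd
    have hxN : ∀ x : G, IsPRegular p x → x ∈ N := by
      intro x hx
      apply CfsgLib.Trans.mem_of_coprime_index
      rw [hk]
      exact Nat.Coprime.pow_right _ ((Nat.Prime.coprime_iff_not_dvd hp.out).2 hx).symm
    have hspan : Submodule.span ℂ ((fun χ : IrrCharacter G => pRegularPart p (χ : G → ℂ)) '' (principalBlock M G)) =
        Submodule.span ℂ {u} := by
      apply le_antisymm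
      · rw [Submodule.span_le]
        rintro v ⟨χ, hχ, rfl⟩
        rw [SetLike.mem_coe, Submodule.mem_span_singleton]
        refine ⟨(χ : G → ℂ) 1, ?_⟩
        funext x
        simp only [Pi.smul_apply, smul_eq_mul]
        by_cases hx : IsPRegular p x
        · rw [hureg x hx, pRegularPart]
          rw [if_pos hx, mul_one, principal_ker hM N hNp hχ (hxN x hx)]
        · rw [husing x hx, pRegularPart]
          rw [if_neg hx, mul_zero]
      · rw [Submodule.span_le, Set.singleton_subset_iff]
        exact Submodule.subset_span hmem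
    rw [blockRank, hspan]
    exact finrank_span_singleton hu0

end CfsgLib.Block
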