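import Cfsg.Agent.Lib.Block.NilFus

/-! # Nilpotent blocks: passage to centralizers -/

set_option autoImplicit false
set_option linter.unusedSectionVars false
set_option linter.unusedVariables false

namespace CfsgLib.Block

open Cfsg CfsgLib.Char
open scoped ComplexConjugate Pointwise

universe u

section CentPass

variable {G : Type u} [Group G] [Fintype G] {p : ℕ} [hp : Fact p.Prime] {M : Ideal AlgInt}

attribute [local instance] centFintype

variable (Q : Subgroup G) (R : Subgroup (Subgroup.centralizer (Q : Set G)))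

/-- The subgroup `Q R`. -/
def hatS : Subgroup G := Q ⊔ R.map (Subgroup.centralizer (Q : Set G)).subtype

theorem mem_cent_hat (c : Subgroup.centralizer (Q : Set G)) :
    (c : G) ∈ Subgroup.centralizer ((hatS Q R : Subgroup G) : Set G) ↔ c ∈ Subgroup.centralizer (R : Set (Subgroup.centralizer (Q : Set G))) := by
  rw [Subgroup.mem_centralizer_iff, Subgroup.mem_centralizer_iff]
  constructor
  · intro h s hs
    exact Subtype.ext (h s (Subgroup.mem_sup_right (show (s : G) ∈ R.map (Subgroup.centralizer (Q : Set G)).subtype from ⟨s, hs, rfl⟩)))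
  · intro h
    have hle : hatS Q R ≤ Subgroup.centralizer ({(c : G)} : Set G) := by
      refine sup_le (fun q hq => ?_) ?_
      · rw [Subgroup.mem_centralizer_singleton_iff]
        exact (Subgroup.mem_centralizer_iff.1 c.2 q hq)
      · rintro _ ⟨s, hs, rfl⟩
        rw [Subgroup.mem_centralizer_singleton_iff]
        exact (congrArg Subtype.val (h s hs))
    intro s hs
    exact (Subgroup.mem_centralizer_singleton_iff.1 (hle hs))

/-- The isomorphism of centralizers. -/
def kapC : Subgroup.centralizer (R : Set (Subgroup.centralizer (Q : Set G))) ≃* Subgroup.centralizer ((hatS Q R : Subgroup G) : Set G) where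
  toFun c := ⟨((c : Subgroup.centralizer (Q : Set G)) : G), (mem_cent_hat Q R _).2 c.2⟩
  invFun c := ⟨⟨c, centralizer_anti (le_sup_left : Q ≤ hatS Q R) c.2⟩, (mem_cent_hat Q R ⟨c, centralizer_anti (le_sup_left : Q ≤ hatS Q R) c.2⟩).1 c.2⟩
  left_inv c := rfl
  right_inv c := rfl
  map_mul' a b := rfl

variable {Q R}

theorem brauerOmega_kapC (f : Set (IrrCharacter (Subgroup.centralizer (Q : Set G))))
    (ξ : IrrCharacter (Subgroup.centralizer (R : Set (Subgroup.centralizer (Q : Set G))))) :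
    brauerOmega R (blockCoeff f) (ξ : _ → ℂ) =
      brauerOmega (hatS Q R) (subgroupBlockCoeff (Subgroup.centralizer (Q : Set G)) f) (irrT (kapC Q R) ξ : _ → ℂ) := by
  unfold brauerOmega
  rw [← finsum_comp_equiv (kapC Q R).toEquiv]
  refine finsum_congr fun c => ?_
  have h1 : (irrT (kapC Q R) ξ : Subgroup.centralizer ((hatS Q R : Subgroup G) : Set G) → ℂ) ((kapC Q R).toEquiv c) = (ξ : Subgroup.centralizer (R : Set (Subgroup.centralizer (Q : Set G))) → ℂ) c := by
    show (irrT (kapC Q R) ξ : Subgroup.centralizer ((hatS Q R : Subgroup G) : Set G) → ℂ) (kapC Q R c) = _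
    rw [irrT_apply']
  have h2 : (irrT (kapC Q R) ξ : Subgroup.centralizer ((hatS Q R : Subgroup G) : Set G) → ℂ) 1 = (ξ : Subgroup.centralizer (R : Set (Subgroup.centralizer (Q : Set G))) → ℂ) 1 := by
    have := irrT_apply' (kapC Q R) ξ 1
    rwa [map_one] at this
  rw [h1, h2]
  have h3 : subgroupBlockCoeff (Subgroup.centralizer (Q : Set G)) f (((kapC Q R).toEquiv c : Subgroup.centralizer ((hatS Q R : Subgroup G) : Set G)) : G) =
      blockCoeff f (c : Subgroup.centralizer (Q : Set G)) := subgroupBlockCoeff_of_mem (H := Subgroup.centralizer (Q : Set G)) f _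
  rw [h3]

theorem isPGroup_hatS (hQ : IsPGroup p Q) (hR : IsPGroup p R) : IsPGroup p (hatS Q R) := by
  have h1 : IsPGroup p (R.map (Subgroup.centralizer (Q : Set G)).subtype) := hR.map _
  refine hQ.to_sup_of_normal_left' h1 ?_
  rintro _ ⟨s, hs, rfl⟩
  exact Subgroup.centralizer_le_normalizer _ s.2

variable (hM : IsPModular p M)
include hM

theorem normal_hatS {f : Set (IrrCharacter (Subgroup.centralizer (Q : Set G)))} (hQf : IsBrauerPair p M Q f)
    {h : Set (IrrCharacter (Subgroup.centralizer (R : Set (Subgroup.centralizer (Q : Set G)))))}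
    (hRh : IsBrauerPairOf p M f R h) : IsNormalSubpair p M Q f (hatS Q R) (setT (kapC Q R) h) := by
  have hle : hatS Q R ≤ stabT (⟨Q, f⟩ : BrauerPairIdx G) := by
    refine sup_le (fun c hc => mem_stabT.2 ⟨Subgroup.le_normalizer hc, stabilizes_of_mem_self _ hc⟩) ?_
    rintro _ ⟨s, hs, rfl⟩
    exact mem_stabT.2 ⟨Subgroup.centralizer_le_normalizer _ s.2, stabilizes_of_mem_centralizer _ s.2⟩
  refine ⟨hQf, ⟨isPGroup_hatS hQf.1 hRh.1.1, isPBlock_setT _ hRh.1.2⟩, le_sup_left, fun t ht => (mem_stabT.1 (hle ht)).1,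
    fun t ht => (mem_stabT.1 (hle ht)).2, fun ξ hξ => ?_⟩
  have h1 := hRh.2.2 _ hξ
  rw [brauerOmega_kapC] at h1
  rwa [Equiv.apply_symm_apply] at h1

/-- **S4688**, first part. -/
theorem nilpotent_cent {B : Set (IrrCharacter G)} (hnil : IsNilpotentBlock p M B) {f : Set (IrrCharacter (Subgroup.centralizer (Q : Set G)))}
    (hQf : IsBrauerPairOf p M B Q f) : IsNilpotentBlock p M f := by
  classical
  refine ⟨hQf.1.2, fun R h hRh x hxN hxs hxr => ?_⟩
  have hn := normal_hatS hM hQf.1 hRh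
  have hpairR : IsBrauerPair p M (hatS Q R) (setT (kapC Q R) h) := hn.2.1
  have hpair : IsBrauerPairOf p M B (hatS Q R) (setT (kapC Q R) h) :=
    (pair_iff_of_chain hM hpairR hQf.1 (Relation.ReflTransGen.single hn) hQf.2.1).2 hQf
  have hcs : cs (hatS Q R) (x : G) = hatS Q R := by
    show (Q ⊔ R.map (Subgroup.centralizer (Q : Set G)).subtype).map (MulAut.conj (x : G)).toMonoidHom = Q ⊔ R.map (Subgroup.centralizer (Q : Set G)).subtype
    rw [Subgroup.map_sup]
    congr 1
    · exact cs_eq_of_mem_normalizer (Subgroup.centralizer_le_normalizer _ x.2)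
    · have h1 := cs_eq_of_mem_normalizer hxN
      have h2 : (R.map (Subgroup.centralizer (Q : Set G)).subtype).map (MulAut.conj (x : G)).toMonoidHom =
          (cs R x).map (Subgroup.centralizer (Q : Set G)).subtype := by
        ext z
        constructor
        · rintro ⟨_, ⟨s, hs, rfl⟩, rfl⟩
          exact ⟨_, ⟨s, hs, rfl⟩, rfl⟩
        · rintro ⟨_, ⟨s, hs, rfl⟩, rfl⟩
          exact ⟨_, ⟨s, hs, rfl⟩, rfl⟩
      rw [h2, h1]
  have hxN' : (x : G) ∈ Subgroup.normalizer ((hatS Q R : Subgroup G) : Set G) := mem_normalizer_of_cs_eq hcs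
  have hxs' : StabilizesBlock (Subgroup.centralizer ((hatS Q R : Subgroup G) : Set G)) (setT (kapC Q R) h) (x : G) := by
    refine ⟨le_normalizer_centralizer (le_refl _) hxN', fun χ hχ => ?_⟩
    obtain ⟨χ', hχ', hc⟩ := hxs.2 _ hχ
    refine ⟨irrT (kapC Q R) χ', (irrT_mem_setT _).2 hχ', fun k k' hk => ?_⟩
    rw [irrT_apply]
    have h1 := hc ((kapC Q R).symm k) ((kapC Q R).symm k') (by
      apply Subtype.ext
      exact hk)
    rw [h1, irrT_symm_apply, MulEquiv.apply_symm_apply]
  have hxr' : IsPRegular p (x : G) := by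
    show ¬ p ∣ orderOf (x : G)
    rw [Subgroup.orderOf_coe]
    exact hxr
  have h3 := hnil.2 _ _ hpair _ hxN' hxs' hxr'
  exact (mem_cent_hat Q R x).1 h3

/-- **S4688** -/
theorem s4688 {B : Set (IrrCharacter G)} {P : Subgroup G} {e : Set (IrrCharacter (Subgroup.centralizer (P : Set G)))}
    (hmax : IsMaximalBrauerPair p M B P e) (hnil : IsNilpotentBlock p M B) {f : Set (IrrCharacter (Subgroup.centralizer (Q : Set G)))}
    (hQf : IsBrauerPairOf p M B Q f) :
    IsNilpotentBlock p M f ∧ (SubpairLE p M Q f P e →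
      IsDefectGroup p M f ((P ⊓ Subgroup.centralizer (Q : Set G)).subgroupOf (Subgroup.centralizer (Q : Set G)))) := by
  classical
  refine ⟨nilpotent_cent hM hnil hQf, fun hle => ?_⟩
  have hF := blockFus_isBlock hM hmax
  have hQP : Q ≤ P := chain_le hle
  refine (s4678 hM hmax hF hQP hQf.1.2 hle).1 ⟨hQP, fun Q₁ hQ₁ => ?_⟩
  obtain ⟨φ, hφ, rfl⟩ := hQ₁
  rw [(s4686 hM hF).1 hnil Q] at hφ
  obtain ⟨-, u, hu, hux⟩ := hφ
  have hle2 : FusionSystem.centralizerIn P φ.range ≤ cs (FusionSystem.centralizerIn P Q) u := by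
    rintro y ⟨hyP, hyc⟩
    rw [mem_cs]
    refine ⟨P.mul_mem (P.mul_mem (P.inv_mem hu) hyP) hu, ?_⟩
    show u⁻¹ * y * u ∈ Subgroup.centralizer (Q : Set G)
    rw [Subgroup.mem_centralizer_iff]
    intro q hq
    have h1 := Subgroup.mem_centralizer_iff.1 hyc (u * q * u⁻¹) ⟨⟨q, hq⟩, hux ⟨q, hq⟩⟩
    calc q * (u⁻¹ * y * u) = u⁻¹ * ((u * q * u⁻¹) * y) * u := by group
      _ = u⁻¹ * (y * (u * q * u⁻¹)) * u := by rw [show (u * q * u⁻¹) * y = y * (u * q * u⁻¹) from h1]
      _ = _ := by group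
  have h3 := Subgroup.card_le_of_le hle2
  rwa [Subgroup.card_map_of_injective (MulAut.conj u).injective] at h3

end CentPass

section Centric

variable {G : Type u} [Group G] [Fintype G] {p : ℕ} [hp : Fact p.Prime] {M : Ideal AlgInt} (hM : IsPModular p M)

attribute [local instance] centFintype

include hM

/-- **S4693** -/
theorem s4693 {B : Set (IrrCharacter G)} {P : Subgroup G} {e : Set (IrrCharacter (Subgroup.centralizer (P : Set G)))}
    (hmax : IsMaximalBrauerPair p M B P e) {F : FusionSystem P} (hF : IsBlockFusionSystemOn p M B P e F) {Q : Subgroup G}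
    {f : Set (IrrCharacter (Subgroup.centralizer (Q : Set G)))} (hQP : Q ≤ P) (hf : IsPBlock M f) (hle : SubpairLE p M Q f P e)
    (hcen : F.IsCentric Q) (hG : ∀ x : G, x ∈ Subgroup.normalizer (Q : Set G) ∧ StabilizesBlock (Subgroup.centralizer (Q : Set G)) f x) :
    (∀ g : G, MemLocalIdeal M (blockCoeff B g - subgroupBlockCoeff (Subgroup.centralizer (Q : Set G)) f g)) ∧
    ∃ F' : Set (IrrCharacter ↥(Q ⊔ Subgroup.centralizer (Q : Set G))), IsPBlock M F' ∧
      (∀ t : ↥(Q ⊔ Subgroup.centralizer (Q : Set G)), blockCoeff F' t = subgroupBlockCoeff (Subgroup.centralizer (Q : Set G)) f (t : G)) ∧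
      IsNilpotentBlock p M F' := by
  classical
  have hPr := hM.isPrime
  have hPe := hmax.1.1
  have hQp : IsPGroup p Q := hPe.1.to_le hQP
  have hQf : IsBrauerPair p M Q f := ⟨hQp, hf⟩
  have hBf : IsBrauerPairOf p M B Q f := (pair_iff_of_chain hM hPe hQf hle hmax.1.2.1).1 hmax.1
  constructor
  · -- `B` has the idempotent of `f`
    haveI hQn : Q.Normal := ⟨fun n hn g => (Subgroup.mem_normalizer_iff.1 (hG g).1 n).1 hn⟩
    haveI hCn : (Subgroup.centralizer (Q : Set G)).Normal := ⟨fun n hn g =>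
      (Subgroup.mem_normalizer_iff.1 (le_normalizer_centralizer (le_refl _) (hG g).1) n).1 hn⟩
    have hsupp : ∀ B' : Set (IrrCharacter G), IsPBlock M B' → ∀ x, x ∉ Subgroup.centralizer (Q : Set G) → blockCoeff B' x = 0 :=
      fun B' hB' x hx => blockCoeff_eq_zero_of_not_centralizer hM Q hQp hB' hx
    obtain ⟨E, hE, hfE⟩ := exists_block_idem (Subgroup.centralizer (Q : Set G)) hM hsupp hf
    have hst : orbitSet (Subgroup.centralizer (Q : Set G)) f = f := by
      apply Set.Subset.antisymm _ (subset_orbitSet _ _)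
      rintro _ ⟨t, θ, hθ, rfl⟩
      obtain ⟨χ', hχ', hc⟩ := (hG t⁻¹).2.2 _ hθ
      convert hχ' using 1
      apply Subtype.ext
      funext c
      have h1 : t⁻¹ * (t * (c : G) * t⁻¹) * (t⁻¹)⁻¹ = c := by group
      have h2 := hc ⟨t * c * t⁻¹, hCn.conj_mem c c.2 t⟩ c (by rw [h1])
      rw [h2]
      rfl
    rw [hst] at hfE
    have hcoeffE : ∀ g : G, blockCoeff E g = subgroupBlockCoeff (Subgroup.centralizer (Q : Set G)) f g := by
      intro g
      rw [← coeff_fB, hfE, subgroupBlockCoeff_eq]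
    have hEf : IsBrauerPairOf p M E Q f := by
      refine ⟨hQf, hE, fun ξ hξ => ?_⟩
      have h1 := brauerOmega_self (⟨Q, f⟩ : BrauerPairIdx G) ξ hξ
      have h2 : blockCoeff E = subgroupBlockCoeff (Subgroup.centralizer (Q : Set G)) f := funext hcoeffE
      rw [h2]
      have h3 : brauerOmega Q (subgroupBlockCoeff (Subgroup.centralizer (Q : Set G)) f) (ξ : Subgroup.centralizer (Q : Set G) → ℂ) = 1 := h1
      rw [h3, sub_self]
      exact zero_mem (locI hPr)
    have hBE : B = E := (existsUnique_block_of_pair hM hQf).unique hBf hEf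
    intro g
    rw [hBE, hcoeffE, sub_self]
    exact zero_mem (locI hPr)
  · obtain ⟨Γ, hΓdef⟩ : ∃ Γ, Γ = Q ⊔ Subgroup.centralizer (Q : Set G) := ⟨_, rfl⟩
    rw [← hΓdef]
    letI : Fintype Γ := Fintype.ofFinite _
    have hQΓ : Q ≤ Γ := by
      rw [hΓdef]
      exact le_sup_left
    have hCΓ : Subgroup.centralizer (Q : Set G) ≤ Γ := by
      rw [hΓdef]
      exact le_sup_right
    obtain ⟨E, hE, hcoeff⟩ := exists_block_ambient hM hQp hf hQΓ hCΓ (fun t _ => hG t)
    refine ⟨E, hE, hcoeff, hE, fun R h hRh x hxN hxs hxr => ?_⟩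
    -- the normal subgroup
    haveI hSn : (Q.subgroupOf Γ).Normal := ⟨fun n hn g => (Subgroup.mem_normalizer_iff.1 (hG g).1 n).1 hn⟩
    have hSp : IsPGroup p (Q.subgroupOf Γ) := hQp.comap_subtype
    have hcent := (s4680 hM hmax hF hQP hf hle).1 hcen
    have hdefeq : ∀ D₀ : Subgroup Γ, IsDefectGroup p M E D₀ → D₀ = Q.subgroupOf Γ := by
      intro D₀ hD₀
      have hSD : Q.subgroupOf Γ ≤ D₀ := by
        obtain ⟨g, hg, Y, rfl⟩ := hD₀
        exact normal_le_of_defectClass hM hE hg Y hSn hSp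
      obtain ⟨h1, -⟩ := ambient_knorr hM hf hCΓ (fun t _ => hG t) hE hcoeff hD₀
      have hcard := card_defectGroup hM hf h1
      have hcard2 := card_defectGroup hM hf hcent
      have hsub : (Q ⊓ Subgroup.centralizer (Q : Set G)).subgroupOf (Subgroup.centralizer (Q : Set G)) ≤
          (D₀.map Γ.subtype ⊓ Subgroup.centralizer (Q : Set G)).subgroupOf (Subgroup.centralizer (Q : Set G)) := by
        intro c hc
        have hc' : (c : G) ∈ Q ⊓ Subgroup.centralizer (Q : Set G) := hc
        exact Subgroup.mem_subgroupOf.2 ⟨⟨⟨c, hCΓ c.2⟩, hSD hc'.1, rfl⟩, c.2⟩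
      have heq := Subgroup.eq_of_le_of_card_ge hsub (by rw [hcard, hcard2])
      refine le_antisymm (fun d hd => ?_) hSD
      have hdΓ : (d : G) ∈ Q ⊔ Subgroup.centralizer (Q : Set G) := by
        rw [← hΓdef]
        exact d.2
      obtain ⟨u, hu, z, hz, hdeq⟩ := exists_mul_of_mem_sup
        (fun t ht => le_normalizer_centralizer (le_refl _) (Subgroup.le_normalizer ht)) hdΓ
      have huD : (⟨u, hQΓ hu⟩ : Γ) ∈ D₀ := hSD hu
      have hzD : (⟨z, hCΓ hz⟩ : Γ) ∈ D₀ := by
        have h2 : (⟨z, hCΓ hz⟩ : Γ) = (⟨u, hQΓ hu⟩ : Γ)⁻¹ * d := by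
          apply Subtype.ext
          show z = u⁻¹ * (d : G)
          rw [hdeq]
          group
        rw [h2]
        exact D₀.mul_mem (D₀.inv_mem huD) hd
      have hz2 : (⟨z, hz⟩ : Subgroup.centralizer (Q : Set G)) ∈
          (D₀.map Γ.subtype ⊓ Subgroup.centralizer (Q : Set G)).subgroupOf (Subgroup.centralizer (Q : Set G)) :=
        Subgroup.mem_subgroupOf.2 ⟨⟨_, hzD, rfl⟩, hz⟩
      rw [← heq] at hz2
      have hz3 : z ∈ Q ⊓ Subgroup.centralizer (Q : Set G) := hz2
      show (d : G) ∈ Q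
      rw [hdeq]
      exact Q.mul_mem hu hz3.1
    obtain ⟨R₁, g₁, hRg, hmaxR⟩ := exists_maximal_above hM R h hRh
    have hR₁ := hdefeq R₁ (isDefectGroup_of_maximal hM hmaxR)
    have hRS : R ≤ Q.subgroupOf Γ := by
      rw [← hR₁]
      exact chain_le hRg
    have hxΓ : ((x : Γ) : G) ∈ Q ⊔ Subgroup.centralizer (Q : Set G) := by
      rw [← hΓdef]
      exact x.2
    obtain ⟨q, hq, z, hz, hxeq⟩ := exists_mul_of_mem_sup
      (fun t ht => le_normalizer_centralizer (le_refl _) (Subgroup.le_normalizer ht)) hxΓ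
    have hact : ∀ r ∈ R, x * r * x⁻¹ = (⟨q, hQΓ hq⟩ : Γ) * r * (⟨q, hQΓ hq⟩ : Γ)⁻¹ := by
      intro r hr
      apply Subtype.ext
      show (x : G) * (r : G) * (x : G)⁻¹ = q * (r : G) * q⁻¹
      rw [hxeq]
      have h1 : (r : G) ∈ Q := hRS hr
      have h2 := Subgroup.mem_centralizer_iff.1 hz _ h1
      calc q * z * (r : G) * (q * z)⁻¹ = q * (z * r) * z⁻¹ * q⁻¹ := by group
        _ = q * ((r : G) * z) * z⁻¹ * q⁻¹ := by rw [← show (r : G) * z = z * r from h2]
        _ = _ := by group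
    have huN : (⟨q, hQΓ hq⟩ : Γ) ∈ Subgroup.normalizer (R : Set Γ) := by
      refine CfsgLib.Fusion.mem_normalizer_of_conj_mem fun r hr => ?_
      rw [← hact r hr]
      exact (Subgroup.mem_normalizer_iff.1 hxN r).1 hr
    obtain ⟨k, hk⟩ := (IsPGroup.iff_orderOf.1 hQp) ⟨q, hq⟩
    have hk' : orderOf (⟨q, hQΓ hq⟩ : Γ) = p ^ k := by
      simpa [Subgroup.orderOf_mk] using hk
    exact mem_centralizer_of_action hxN huN hxr hk' hact

end Centric

end CfsgLib.Block
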