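import Cfsg.Agent.Lib.Block.NilFus2
import Cfsg.Agent.Lib.Trans.Basic

/-! # Nilpotent blocks and normal subgroups of `p`-power index -/

set_option autoImplicit false
set_option linter.unusedSectionVars false
set_option linter.unusedVariables false

namespace CfsgLib.Block

open Cfsg CfsgLib.Char
open scoped ComplexConjugate Pointwise

universe u

section PIndex

variable {G : Type u} [Group G] [Fintype G] {p : ℕ} [hp : Fact p.Prime] {M : Ideal AlgInt}

attribute [local instance] centFintype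

variable (N : Subgroup G) (R : Subgroup N)

/-- `N ∩ C_G(R)`. -/
abbrev xR : Subgroup G := N ⊓ Subgroup.centralizer ((R.map N.subtype : Subgroup G) : Set G)

/-- `N ∩ C_G(R)` inside the centralizer. -/
abbrev nC : Subgroup (Subgroup.centralizer ((R.map N.subtype : Subgroup G) : Set G)) := N.subgroupOf _

/-- `C_N(R)` is `N ∩ C_G(R)`. -/
def jOne : Subgroup.centralizer (R : Set N) ≃* xR N R where
  toFun c := ⟨((c : N) : G), c.1.2, (mem_cent_up N R c.1).2 c.2⟩
  invFun x := ⟨⟨x, x.2.1⟩, (mem_cent_up N R ⟨x, x.2.1⟩).1 x.2.2⟩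
  left_inv c := rfl
  right_inv c := rfl
  map_mul' a b := rfl

/-- `N ∩ C` as a subgroup of `C`. -/
def eTwo : nC N R ≃* xR N R where
  toFun n := ⟨((n : Subgroup.centralizer ((R.map N.subtype : Subgroup G) : Set G)) : G), n.2, n.1.2⟩
  invFun x := ⟨⟨x, x.2.2⟩, x.2.1⟩
  left_inv c := rfl
  right_inv c := rfl
  map_mul' a b := rfl

@[simp] theorem jOne_coe (c : Subgroup.centralizer (R : Set N)) : ((jOne N R c : xR N R) : G) = ((c : N) : G) := rfl
@[simp] theorem jOne_symm_coe (x : xR N R) : (((jOne N R).symm x : Subgroup.centralizer (R : Set N)) : N).1 = (x : G) := rfl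
@[simp] theorem eTwo_coe (n : nC N R) : ((eTwo N R n : xR N R) : G) = ((n : Subgroup.centralizer ((R.map N.subtype : Subgroup G) : Set G)) : G) := rfl
@[simp] theorem eTwo_symm_coe (x : xR N R) : (((eTwo N R).symm x : nC N R) : Subgroup.centralizer ((R.map N.subtype : Subgroup G) : Set G)).1 = (x : G) := rfl

variable {N R}

/-- The Brauer map value on a constituent. -/
theorem omega_cover [Fintype N] [Fintype (nC N R)] {B : Set (IrrCharacter G)} {c : Set (IrrCharacter N)}
    (hBc : ∀ g : G, blockCoeff B g = subgroupBlockCoeff N c g) (ξ : IrrCharacter (Subgroup.centralizer ((R.map N.subtype : Subgroup G) : Set G)))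
    (θ : IrrCharacter (xR N R))
    (hcov : classInner (fun n : nC N R => (ξ : Subgroup.centralizer ((R.map N.subtype : Subgroup G) : Set G) → ℂ) n)
      (irrT (eTwo N R).symm θ : nC N R → ℂ) ≠ 0) :
    brauerOmega (R.map N.subtype) (blockCoeff B) (ξ : _ → ℂ) = brauerOmega R (blockCoeff c) (irrT (jOne N R).symm θ : _ → ℂ) := by
  classical
  have hW : IsCent (brC (R.map N.subtype) (fB B)) := isCent_res_of_isCent _ (isCent_fB B)
  have hs : ∀ g, g ∉ nC N R → (brC (R.map N.subtype) (fB B)).coeff g = 0 := by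
    intro g hg
    rw [coeff_brC, coeff_fB, hBc]
    have hg' : (g : G) ∉ N := hg
    unfold subgroupBlockCoeff
    rw [dif_neg hg']
  have h1 := incl_res_of_support (nC N R) hs
  have h0 : brauerOmega (R.map N.subtype) (blockCoeff B) (ξ : Subgroup.centralizer ((R.map N.subtype : Subgroup G) : Set G) → ℂ) =
      om (ξ : Subgroup.centralizer ((R.map N.subtype : Subgroup G) : Set G) → ℂ) (brC (R.map N.subtype) (fB B)) :=
    brauerOmega_eq_lam _ (fB B) _ (β := blockCoeff B) (fun g => (coeff_fB B g).symm)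
  rw [h0, ← h1, om_incl_of_constituent (nC N R) ξ.2 (irrT (eTwo N R).symm θ).2 hcov (isCent_res_of_isCent _ hW) (by rw [h1]; exact hW)]
  rw [brauerOmega, finsum_eq_sum_of_fintype, om, hat, Finset.sum_div]
  refine Fintype.sum_equiv ((eTwo N R).trans (jOne N R).symm).toEquiv _ _ fun n => ?_
  have h3 : (res (nC N R) (brC (R.map N.subtype) (fB B))).coeff n = blockCoeff c (((((eTwo N R).trans (jOne N R).symm).toEquiv n : Subgroup.centralizer (R : Set N))) : N) := by
    rw [coeff_res, coeff_brC, coeff_fB, hBc]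
    unfold subgroupBlockCoeff
    rw [dif_pos (show ((n : Subgroup.centralizer ((R.map N.subtype : Subgroup G) : Set G)) : G) ∈ N from n.2)]
    rfl
  have h4 : (irrT (jOne N R).symm θ : Subgroup.centralizer (R : Set N) → ℂ) ((((eTwo N R).trans (jOne N R).symm).toEquiv n)) =
      (irrT (eTwo N R).symm θ : nC N R → ℂ) n := rfl
  have h5 : (irrT (jOne N R).symm θ : Subgroup.centralizer (R : Set N) → ℂ) 1 = (irrT (eTwo N R).symm θ : nC N R → ℂ) 1 := rfl
  rw [h3, h4, h5]

variable (hM : IsPModular p M)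

include hM

/-- A single character in the block decides the pair. -/
theorem isPairOf_of_mem {Q : Subgroup G} {e : Set (IrrCharacter (Subgroup.centralizer (Q : Set G)))} {B : Set (IrrCharacter G)}
    (hQ : IsPGroup p Q) (he : IsPBlock M e) (hB : IsPBlock M B) {ξ₀ : IrrCharacter (Subgroup.centralizer (Q : Set G))} (hξ₀ : ξ₀ ∈ e)
    (h : MemLocalIdeal M (brauerOmega Q (blockCoeff B) (ξ₀ : Subgroup.centralizer (Q : Set G) → ℂ) - 1)) : IsBrauerPairOf p M B Q e := by
  classical
  have hPr := hM.isPrime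
  refine (isPair_iff hPr).2 ⟨⟨hQ, he⟩, hB, fun ξ hξ => ?_⟩
  have h1 : lam Q (ξ₀ : Subgroup.centralizer (Q : Set G) → ℂ) (fB B) - 1 ∈ locI hPr := by
    rw [← brauerOmega_eq_lam Q (fB B) _ (β := blockCoeff B) (fun g => (coeff_fB B g).symm)]
    exact h
  have h2 := om_sub_mem_of_sameBlock hPr ξ.2 ξ₀.2 (sameBlock_of_mem hPr he hξ hξ₀)
    (isCent_res_of_isCent _ (isCent_fB B)) (sval_res _ _ (sval_fB hM hB))
  have h3 : lam Q (ξ : Subgroup.centralizer (Q : Set G) → ℂ) (fB B) - 1 =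
      (om (ξ : Subgroup.centralizer (Q : Set G) → ℂ) (res (Subgroup.centralizer (Q : Set G)) (fB B)) -
        om (ξ₀ : Subgroup.centralizer (Q : Set G) → ℂ) (res (Subgroup.centralizer (Q : Set G)) (fB B))) +
      (lam Q (ξ₀ : Subgroup.centralizer (Q : Set G) → ℂ) (fB B) - 1) := by
    show om _ _ - 1 = _ + (om _ _ - 1)
    simp only [brC]
    ring
  rw [h3]
  exact add_mem h2 h1

end PIndex

section Conv

variable {G : Type u} [Group G] [Fintype G] {p : ℕ} [hp : Fact p.Prime] {M : Ideal AlgInt}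

attribute [local instance] centFintype

variable {N : Subgroup G} {R : Subgroup N}

theorem mem_normalizer_up' (x : N) : x ∈ Subgroup.normalizer (R : Set N) ↔ (x : G) ∈ Subgroup.normalizer ((R.map N.subtype : Subgroup G) : Set G) := by
  constructor
  · intro h
    have h1 : Subgroup.zpowers x ≤ Subgroup.normalizer (R : Set N) := Subgroup.zpowers_le.2 h
    exact (normalizer_up.1 h1) ⟨x, Subgroup.mem_zpowers x, rfl⟩
  · intro h
    have h1 : (Subgroup.zpowers x).map N.subtype ≤ Subgroup.normalizer ((R.map N.subtype : Subgroup G) : Set G) := by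
      rw [MonoidHom.map_zpowers]
      exact Subgroup.zpowers_le.2 h
    exact (normalizer_up.2 h1) (Subgroup.mem_zpowers x)

theorem isConjChar_conv (x : N) (ψ ψ' : IrrCharacter (Subgroup.centralizer (R : Set N))) :
    IsConjCharOf (Subgroup.centralizer (R : Set N)) x (ψ : _ → ℂ) (ψ' : _ → ℂ) ↔
      IsConjCharOf (xR N R) (x : G) (irrT (jOne N R) ψ : _ → ℂ) (irrT (jOne N R) ψ' : _ → ℂ) := by
  constructor
  · intro h k k' hk
    rw [irrT_apply, irrT_apply]
    apply h
    apply Subtype.ext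
    exact hk
  · intro h k k' hk
    have h1 := h (jOne N R k) (jOne N R k') (by
      rw [jOne_coe, jOne_coe, hk]
      rfl)
    rw [irrT_apply', irrT_apply'] at h1
    exact h1

theorem stabilizes_conv (h' : Set (IrrCharacter (Subgroup.centralizer (R : Set N)))) (x : N)
    (hx : x ∈ Subgroup.normalizer (R : Set N)) :
    StabilizesBlock (Subgroup.centralizer (R : Set N)) h' x ↔ StabilizesBlock (xR N R) (setT (jOne N R) h') (x : G) := by
  letI : Fintype N := Fintype.ofFinite _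
  have h1 : x ∈ Subgroup.normalizer ((Subgroup.centralizer (R : Set N) : Subgroup N) : Set N) :=
    le_normalizer_centralizer (le_refl _) hx
  have hxN := (mem_normalizer_up' x).1 hx
  have hxC := le_normalizer_centralizer (le_refl _) hxN
  have h2 : (x : G) ∈ Subgroup.normalizer ((xR N R : Subgroup G) : Set G) := by
    rw [Subgroup.mem_normalizer_iff]
    intro c
    have hconj : c ∈ N ↔ (x : G) * c * (x : G)⁻¹ ∈ N := by
      constructor
      · intro hc
        exact N.mul_mem (N.mul_mem x.2 hc) (N.inv_mem x.2)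
      · intro hc
        have h3 : c = (x : G)⁻¹ * ((x : G) * c * (x : G)⁻¹) * (x : G) := by group
        rw [h3]
        exact N.mul_mem (N.mul_mem (N.inv_mem x.2) hc) x.2
    exact and_congr hconj (Subgroup.mem_normalizer_iff.1 hxC c)
  constructor
  · rintro ⟨-, h4⟩
    refine ⟨h2, fun χ hχ => ?_⟩
    obtain ⟨ψ', hψ', hc⟩ := h4 _ hχ
    refine ⟨irrT (jOne N R) ψ', (irrT_mem_setT _).2 hψ', ?_⟩
    have := (isConjChar_conv x _ _).1 hc
    rwa [Equiv.apply_symm_apply] at this
  · rintro ⟨-, h4⟩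
    refine ⟨h1, fun ψ hψ => ?_⟩
    obtain ⟨χ', hχ', hc⟩ := h4 (irrT (jOne N R) ψ) ((irrT_mem_setT _).2 hψ)
    refine ⟨(irrT (jOne N R)).symm χ', hχ', ?_⟩
    rw [isConjChar_conv, Equiv.apply_symm_apply]
    exact hc

end Conv

section Main

variable {G : Type u} [Group G] [Fintype G] {p : ℕ} [hp : Fact p.Prime] {M : Ideal AlgInt}

attribute [local instance] centFintype

variable {N : Subgroup G} {R : Subgroup N}

theorem cov_smul [Fintype (nC N R)] (t₁ : Subgroup.normalizer ((Subgroup.centralizer ((R.map N.subtype : Subgroup G) : Set G) : Subgroup G) : Set G))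
    (t₂ : Subgroup.normalizer ((xR N R : Subgroup G) : Set G)) (ht : (t₁ : G) = t₂)
    (ξ : IrrCharacter (Subgroup.centralizer ((R.map N.subtype : Subgroup G) : Set G))) (θ : IrrCharacter (xR N R)) :
    classInner (fun n : nC N R => ((t₁ • ξ : IrrCharacter _) : Subgroup.centralizer ((R.map N.subtype : Subgroup G) : Set G) → ℂ) n)
      (irrT (eTwo N R).symm (t₂ • θ) : nC N R → ℂ) =
    classInner (fun n : nC N R => (ξ : Subgroup.centralizer ((R.map N.subtype : Subgroup G) : Set G) → ℂ) n)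
      (irrT (eTwo N R).symm θ : nC N R → ℂ) := by
  classical
  unfold classInner
  congr 1
  refine Fintype.sum_equiv ((eTwo N R).trans ((nAut (xR N R) t₂).symm.trans (eTwo N R).symm)).toEquiv _ _ fun n => ?_
  have h1 : ((t₁ • ξ : IrrCharacter _) : Subgroup.centralizer ((R.map N.subtype : Subgroup G) : Set G) → ℂ) (n : Subgroup.centralizer ((R.map N.subtype : Subgroup G) : Set G)) =
      (ξ : Subgroup.centralizer ((R.map N.subtype : Subgroup G) : Set G) → ℂ) ((((eTwo N R).trans ((nAut (xR N R) t₂).symm.trans (eTwo N R).symm)).toEquiv n : nC N R) : Subgroup.centralizer ((R.map N.subtype : Subgroup G) : Set G)) := by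
    rw [smul_irr_apply]
    refine congrArg _ (Subtype.ext ?_)
    rw [coe_nAut_symm, ht]
    show _ = (((nAut (xR N R) t₂).symm (eTwo N R n) : xR N R) : G)
    rw [coe_nAut_symm]
    rfl
  have h2 : (irrT (eTwo N R).symm (t₂ • θ) : nC N R → ℂ) n =
      (irrT (eTwo N R).symm θ : nC N R → ℂ) (((eTwo N R).trans ((nAut (xR N R) t₂).symm.trans (eTwo N R).symm)).toEquiv n) := by
    show ((t₂ • θ : IrrCharacter _) : xR N R → ℂ) (eTwo N R n) = (θ : xR N R → ℂ) (eTwo N R ((eTwo N R).symm ((nAut (xR N R) t₂).symm (eTwo N R n))))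
    rw [MulEquiv.apply_symm_apply, smul_irr_apply]
  beta_reduce
  rw [h1, h2]

variable (hM : IsPModular p M)
include hM

/-- `B` nilpotent implies `c` nilpotent. -/
theorem nil_down [hN : N.Normal] {k : ℕ} (hidx : N.index = p ^ k) {c : Set (IrrCharacter N)} (hc : IsPBlock M c)
    {B : Set (IrrCharacter G)} (hB : IsPBlock M B) (hBc : ∀ g : G, blockCoeff B g = subgroupBlockCoeff N c g)
    (hnil : IsNilpotentBlock p M B) : IsNilpotentBlock p M c := by
  classical
  letI : Fintype N := Fintype.ofFinite _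
  have hPr := hM.isPrime
  refine ⟨hc, fun R h' hRh y hyN hys hyr => ?_⟩
  letI : Fintype (nC N R) := Fintype.ofFinite _
  haveI hnC : (nC N R).Normal := Subgroup.normal_subgroupOf
  obtain ⟨l, hl⟩ : ∃ l, (nC N R).index = p ^ l := by
    have h0 : (nC N R).index ∣ p ^ k := by
      rw [← hidx]
      exact Subgroup.relIndex_dvd_index_of_normal _ _
    obtain ⟨l, -, hl⟩ := (Nat.dvd_prime_pow hp.out).1 h0
    exact ⟨l, hl⟩
  have hRp : IsPGroup p (R.map N.subtype) := hRh.1.1.map _
  obtain ⟨θ₀', hθ₀'⟩ := IsPBlock.nonempty hPr hRh.1.2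
  obtain ⟨ξ₀, hξ₀⟩ := exists_irr_above (nC N R) (irrT (eTwo N R).symm (irrT (jOne N R) θ₀'))
  have hfb : IsPBlock M (blockOf M (ξ₀ : Subgroup.centralizer ((R.map N.subtype : Subgroup G) : Set G) → ℂ)) := ⟨ξ₀, rfl⟩
  have hval := omega_cover (c := c) hBc ξ₀ (irrT (jOne N R) θ₀') hξ₀
  have hpair : IsBrauerPairOf p M B (R.map N.subtype) (blockOf M (ξ₀ : Subgroup.centralizer ((R.map N.subtype : Subgroup G) : Set G) → ℂ)) := by
    refine isPairOf_of_mem hM hRp hfb hB (self_mem_blockOf hPr ξ₀) ?_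
    rw [hval]
    have h0 : irrT (jOne N R).symm (irrT (jOne N R) θ₀') = θ₀' := (irrT (jOne N R)).symm_apply_apply θ₀'
    rw [h0]
    exact hRh.2.2 _ hθ₀'
  have hyG : (y : G) ∈ Subgroup.normalizer ((R.map N.subtype : Subgroup G) : Set G) := (mem_normalizer_up' y).1 hyN
  have hyC := le_normalizer_centralizer (le_refl _) hyG
  have hys2 := (stabilizes_conv h' y hyN).1 hys
  have hyX : (y : G) ∈ Subgroup.normalizer ((xR N R : Subgroup G) : Set G) := hys2.1
  have hfs : StabilizesBlock (Subgroup.centralizer ((R.map N.subtype : Subgroup G) : Set G))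
      (blockOf M (ξ₀ : Subgroup.centralizer ((R.map N.subtype : Subgroup G) : Set G) → ℂ)) (y : G) := by
    rw [stabilizes_iff_smul _ hyC, smul_blockOf]
    have hsm : (⟨y, hyX⟩ : Subgroup.normalizer ((xR N R : Subgroup G) : Set G)) • irrT (jOne N R) θ₀' ∈ setT (jOne N R) h' := by
      have h1 := (stabilizes_iff_smul _ hyX).1 hys2
      have h3 := Set.smul_mem_smul_set (a := (⟨y, hyX⟩ : Subgroup.normalizer ((xR N R : Subgroup G) : Set G))) ((irrT_mem_setT (jOne N R)).2 hθ₀')
      rwa [h1] at h3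
    have hb' : IsPBlock M (setT (eTwo N R).symm (setT (jOne N R) h')) := isPBlock_setT _ (isPBlock_setT _ hRh.1.2)
    have hsame := sameBlock_of_mem hPr hb' ((irrT_mem_setT _).2 ((irrT_mem_setT _).2 hθ₀')) ((irrT_mem_setT (eTwo N R).symm).2 hsm)
    have hcov := cov_smul (⟨y, hyC⟩ : Subgroup.normalizer ((Subgroup.centralizer ((R.map N.subtype : Subgroup G) : Set G) : Subgroup G) : Set G))
      ⟨y, hyX⟩ rfl ξ₀ (irrT (jOne N R) θ₀')
    have h2 := sameBlock_of_constituents_of_pIndex (nC N R) hM hl hsame hξ₀ (by rw [hcov]; exact hξ₀)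
    exact blockOf_eq_of_sameBlock hPr h2
  have hyr' : IsPRegular p (y : G) := by
    show ¬ p ∣ orderOf (y : G)
    rw [Subgroup.orderOf_coe]
    exact hyr
  exact (mem_cent_up N R y).1 (hnil.2 _ _ hpair (y : G) hyG hfs hyr')

end Main

section Up

variable {G : Type u} [Group G] [Fintype G] {p : ℕ} [hp : Fact p.Prime] {M : Ideal AlgInt}

attribute [local instance] centFintype

omit hp in
/-- A `p`-regular element of a normal subgroup centralizing `Q ∩ N` centralizes `Q`. -/
theorem mem_centralizer_of_inf [hp : Fact p.Prime] {N Q : Subgroup G} [hN : N.Normal] {x : G} (hxN : x ∈ Subgroup.normalizer (Q : Set G))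
    (hxM : x ∈ N) (hxr : IsPRegular p x) (hQp : IsPGroup p Q)
    (hC : x ∈ Subgroup.centralizer ((Q ⊓ N : Subgroup G) : Set G)) : x ∈ Subgroup.centralizer (Q : Set G) := by
  classical
  rw [Subgroup.mem_centralizer_iff]
  intro q hq
  have hq1 : x * q * x⁻¹ ∈ Q := (Subgroup.mem_normalizer_iff.1 hxN q).1 hq
  obtain ⟨r, hr⟩ : ∃ r, r = x * q * x⁻¹ * q⁻¹ := ⟨_, rfl⟩
  have hrQ : r ∈ Q := by
    rw [hr]
    exact Q.mul_mem hq1 (Q.inv_mem hq)
  have hrN : r ∈ N := by
    have h2 : r = x * (q * x⁻¹ * q⁻¹) := by rw [hr]; group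
    rw [h2]
    exact N.mul_mem hxM (hN.conj_mem _ (N.inv_mem hxM) _)
  have hrc : r * x = x * r := Subgroup.mem_centralizer_iff.1 hC r ⟨hrQ, hrN⟩
  have hpow : ∀ n : ℕ, x ^ n * q * (x ^ n)⁻¹ = r ^ n * q := by
    intro n
    induction n with
    | zero => simp
    | succ n ih =>
      have h3 : x * r ^ n * x⁻¹ = r ^ n := by
        have : Commute r x := hrc
        have h4 := (this.pow_left n).eq
        rw [← h4]
        group
      have h5 : x * q * x⁻¹ = r * q := by rw [hr]; group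
      calc x ^ (n + 1) * q * (x ^ (n + 1))⁻¹ = x * (x ^ n * q * (x ^ n)⁻¹) * x⁻¹ := by
            rw [pow_succ']; group
        _ = x * (r ^ n * q) * x⁻¹ := by rw [ih]
        _ = (x * r ^ n * x⁻¹) * (x * q * x⁻¹) := by group
        _ = r ^ n * (r * q) := by rw [h3, h5]
        _ = r ^ (n + 1) * q := by rw [pow_succ]; group
  have h6 := hpow (orderOf x)
  rw [pow_orderOf_eq_one] at h6
  have h7 : r ^ orderOf x = 1 := by
    have h8 : (1 : G) * q * (1 : G)⁻¹ = q := by group
    rw [h8] at h6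
    exact (mul_eq_right.1 h6.symm)
  obtain ⟨m, hm⟩ := (IsPGroup.iff_orderOf.1 hQp) ⟨r, hrQ⟩
  have hm' : orderOf r = p ^ m := by simpa [Subgroup.orderOf_mk] using hm
  have h9 : orderOf r ∣ orderOf x := orderOf_dvd_of_pow_eq_one h7
  have hcop : (p ^ m).Coprime (orderOf x) := Nat.Coprime.pow_left _ ((Nat.Prime.coprime_iff_not_dvd hp.out).2 hxr)
  have h10 : orderOf r = 1 := by
    have h13 : orderOf r ∣ p ^ m := by rw [hm']
    exact Nat.eq_one_of_dvd_coprimes hcop h13 h9
  rw [orderOf_eq_one_iff] at h10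
  have h11 : x * q * x⁻¹ = q := by
    have h12 : x * q * x⁻¹ = r * q := by rw [hr]; group
    rw [h12, h10, one_mul]
  calc q * x = (x * q * x⁻¹) * x := by rw [h11]
    _ = x * q := by group

variable {N : Subgroup G} (hM : IsPModular p M)
include hM

/-- `c` nilpotent implies `B` nilpotent. -/
theorem nil_up [hN : N.Normal] {k : ℕ} (hidx : N.index = p ^ k) {c : Set (IrrCharacter N)} (hc : IsPBlock M c)
    {B : Set (IrrCharacter G)} (hB : IsPBlock M B) (hBc : ∀ g : G, blockCoeff B g = subgroupBlockCoeff N c g)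
    (hnil : IsNilpotentBlock p M c) : IsNilpotentBlock p M B := by
  classical
  letI : Fintype N := Fintype.ofFinite _
  have hPr := hM.isPrime
  refine ⟨hB, fun Q f hQf x hxN hxs hxr => ?_⟩
  have hregN : ∀ z : G, IsPRegular p z → z ∈ N := by
    intro z hz
    apply CfsgLib.Trans.mem_of_coprime_index
    rw [hidx]
    exact Nat.Coprime.pow_right _ ((Nat.Prime.coprime_iff_not_dvd hp.out).2 hz).symm
  have hxM : x ∈ N := hregN x hxr
  obtain ⟨R, hRdef⟩ : ∃ R : Subgroup N, R = (Q ⊓ N).subgroupOf N := ⟨_, rfl⟩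
  have hRmap : R.map N.subtype = Q ⊓ N := by
    rw [hRdef]
    exact Subgroup.map_subgroupOf_eq_of_le inf_le_right
  have hRQ : R.map N.subtype ≤ Q := by
    rw [hRmap]
    exact inf_le_left
  have hQp := hQf.1.1
  have hRp : IsPGroup p R := isPGroup_up_iff.1 (hQp.to_le hRQ)
  obtain ⟨fR, hfR, hch⟩ := exists_subpair hM hQf.1 (R.map N.subtype) hRQ
  have hRfR : IsBrauerPair p M (R.map N.subtype) fR := ⟨hQp.to_le hRQ, hfR⟩
  have hpairR : IsBrauerPairOf p M B (R.map N.subtype) fR := (pair_iff_of_chain hM hQf.1 hRfR hch hB).1 hQf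
  have hxR : x ∈ Subgroup.normalizer ((R.map N.subtype : Subgroup G) : Set G) := by
    rw [hRmap, Subgroup.mem_normalizer_iff]
    intro y
    exact and_congr (Subgroup.mem_normalizer_iff.1 hxN y) ⟨fun h => hN.conj_mem y h x, fun h => by
      have := hN.conj_mem _ h x⁻¹
      simpa [mul_assoc] using this⟩
  have hNX : ∀ t ∈ Subgroup.normalizer ((R.map N.subtype : Subgroup G) : Set G), t ∈ Subgroup.normalizer ((xR N R : Subgroup G) : Set G) := by
    intro t ht
    rw [Subgroup.mem_normalizer_iff]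
    intro y
    exact and_congr ⟨fun h => hN.conj_mem y h t, fun h => by
      have := hN.conj_mem _ h t⁻¹
      simpa [mul_assoc] using this⟩ (Subgroup.mem_normalizer_iff.1 (le_normalizer_centralizer (le_refl _) ht) y)
  have hcpQ : cp x ⟨Q, f⟩ = ⟨Q, f⟩ := cp_eq_of_stabilizes hxN hxs
  have hxsR : StabilizesBlock (Subgroup.centralizer ((R.map N.subtype : Subgroup G) : Set G)) fR x := by
    have h1 := subpairLE_cp hM x hch
    rw [hcpQ] at h1
    exact stabilizes_of_cp_eq hxR (pair_eq_of_chain hM hQf.1 h1 hch (cs_eq_of_mem_normalizer hxR))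
  obtain ⟨ξ₀, hξ₀⟩ := IsPBlock.nonempty hPr hfR
  letI : Fintype (nC N R) := Fintype.ofFinite _
  haveI hnC : (nC N R).Normal := Subgroup.normal_subgroupOf
  obtain ⟨τ₀, hτ₀⟩ := exists_constituent_irr (nC N R) ξ₀.2
  obtain ⟨θ₀, hθ₀⟩ : ∃ θ₀, θ₀ = irrT (eTwo N R) τ₀ := ⟨_, rfl⟩
  have hcov₀ : classInner (fun n : nC N R => (ξ₀ : Subgroup.centralizer ((R.map N.subtype : Subgroup G) : Set G) → ℂ) n)
      (irrT (eTwo N R).symm θ₀ : nC N R → ℂ) ≠ 0 := by
    have h0 : irrT (eTwo N R).symm θ₀ = τ₀ := by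
      rw [hθ₀]
      exact (irrT (eTwo N R)).symm_apply_apply τ₀
    rw [h0]
    exact hτ₀
  obtain ⟨h₂, hh₂def⟩ : ∃ h₂, h₂ = blockOf M (θ₀ : xR N R → ℂ) := ⟨_, rfl⟩
  have hh₂ : IsPBlock M h₂ := ⟨θ₀, hh₂def⟩
  have hθ₀h₂ : θ₀ ∈ h₂ := by
    rw [hh₂def]
    exact self_mem_blockOf hPr θ₀
  have hh' : IsPBlock M (setT (jOne N R).symm h₂) := isPBlock_setT _ hh₂
  have hRh : IsBrauerPairOf p M c R (setT (jOne N R).symm h₂) := by
    refine isPairOf_of_mem hM hRp hh' hc (ξ₀ := irrT (jOne N R).symm θ₀) ((irrT_mem_setT _).2 hθ₀h₂) ?_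
    rw [← omega_cover hBc ξ₀ θ₀ hcov₀]
    exact hpairR.2.2 ξ₀ hξ₀
  have hxC := le_normalizer_centralizer (le_refl _) hxR
  have hxX := hNX x hxR
  have hξx : (⟨x, hxC⟩ : Subgroup.normalizer ((Subgroup.centralizer ((R.map N.subtype : Subgroup G) : Set G) : Subgroup G) : Set G)) • ξ₀ ∈ fR := by
    have h1 := (stabilizes_iff_smul _ hxC).1 hxsR
    have h3 := Set.smul_mem_smul_set (a := (⟨x, hxC⟩ : Subgroup.normalizer ((Subgroup.centralizer ((R.map N.subtype : Subgroup G) : Set G) : Subgroup G) : Set G))) hξ₀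
    rwa [h1] at h3
  have hcovx := cov_smul (⟨x, hxC⟩ : Subgroup.normalizer ((Subgroup.centralizer ((R.map N.subtype : Subgroup G) : Set G) : Subgroup G) : Set G)) ⟨x, hxX⟩ rfl ξ₀ θ₀
  have hb : IsPBlock M (setT (eTwo N R).symm h₂) := isPBlock_setT _ hh₂
  obtain ⟨z, τ₁, hτ₁, heq⟩ := constituent_mem_orbit (nC N R) hM hfR hb hξ₀ (θ := irrT (eTwo N R).symm θ₀) ((irrT_mem_setT _).2 hθ₀h₂) hcov₀ hξx
    (ψ := irrT (eTwo N R).symm ((⟨x, hxX⟩ : Subgroup.normalizer ((xR N R : Subgroup G) : Set G)) • θ₀)) (by rw [hcovx]; exact hcov₀)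
  have hzR : (z : G) ∈ Subgroup.normalizer ((R.map N.subtype : Subgroup G) : Set G) := Subgroup.centralizer_le_normalizer _ z.2
  have hyR : (z : G) * x ∈ Subgroup.normalizer ((R.map N.subtype : Subgroup G) : Set G) := Subgroup.mul_mem _ hzR hxR
  have hyX := hNX _ hyR
  have ht₃ : (⟨(z : G) * x, hyX⟩ : Subgroup.normalizer ((xR N R : Subgroup G) : Set G)) • θ₀ = irrT (eTwo N R) τ₁ := by
    apply Subtype.ext
    funext m
    rw [smul_irr_apply, irrT_apply]
    have hmem : (z : G)⁻¹ * m * z ∈ xR N R := by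
      have h1 := (Subgroup.mem_normalizer_iff.1 (hNX _ (Subgroup.inv_mem _ hzR)) m).1 m.2
      simpa using h1
    obtain ⟨n, hn⟩ : ∃ n : nC N R, eTwo N R n = ⟨(z : G)⁻¹ * m * z, hmem⟩ := ⟨(eTwo N R).symm _, MulEquiv.apply_symm_apply _ _⟩
    have h := congrFun (congrArg Subtype.val heq) n
    have h1 : ((irrT (eTwo N R).symm ((⟨x, hxX⟩ : Subgroup.normalizer ((xR N R : Subgroup G) : Set G)) • θ₀) : IrrCharacter (nC N R)) : nC N R → ℂ) n =
        (θ₀ : xR N R → ℂ) ((nAut (xR N R) ⟨x, hxX⟩).symm (eTwo N R n)) := rfl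
    rw [h1, hn] at h
    have h2 : (nAut (xR N R) ⟨x, hxX⟩).symm ⟨(z : G)⁻¹ * m * z, hmem⟩ = (nAut (xR N R) ⟨(z : G) * x, hyX⟩).symm m := by
      apply Subtype.ext
      rw [coe_nAut_symm, coe_nAut_symm]
      show x⁻¹ * ((z : G)⁻¹ * m * z) * x = ((z : G) * x)⁻¹ * m * ((z : G) * x)
      group
    rw [h2] at h
    rw [h]
    show (τ₁ : nC N R → ℂ) _ = (τ₁ : nC N R → ℂ) _
    refine congrArg _ (Subtype.ext (Subtype.ext ?_))
    have h3 : ((n : Subgroup.centralizer ((R.map N.subtype : Subgroup G) : Set G)) : G) = (z : G)⁻¹ * m * z := congrArg Subtype.val hn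
    show (z : G) * ((n : Subgroup.centralizer ((R.map N.subtype : Subgroup G) : Set G)) : G) * (z : G)⁻¹ = m
    rw [h3]
    group
  have ht₃mem : (⟨(z : G) * x, hyX⟩ : Subgroup.normalizer ((xR N R : Subgroup G) : Set G)) • θ₀ ∈ h₂ := by
    rw [ht₃]
    exact hτ₁
  have hys : StabilizesBlock (xR N R) h₂ ((z : G) * x) := by
    rw [stabilizes_iff_smul _ hyX, hh₂def, smul_blockOf]
    rw [hh₂def] at ht₃mem hh₂
    exact (blockOf_eq_of_mem hPr hh₂ ht₃mem).symm
  have hy'S : pReg p ((z : G) * x) ∈ stabSub (xR N R) h₂ := pReg_mem_of_mem _ ((mem_stabSub _).2 hys)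
  have hy'R : pReg p ((z : G) * x) ∈ Subgroup.normalizer ((R.map N.subtype : Subgroup G) : Set G) := pReg_mem_of_mem _ hyR
  have hy'reg : IsPRegular p (pReg p ((z : G) * x)) := not_dvd_orderOf_pReg _
  have hy'M := hregN _ hy'reg
  have hy''N := (mem_normalizer_up' (R := R) (⟨_, hy'M⟩ : N)).2 hy'R
  have hstab := (stabilizes_conv (setT (jOne N R).symm h₂) (⟨_, hy'M⟩ : N) hy''N).2 (by
    rw [setT_setT_symm]
    exact (mem_stabSub _).1 hy'S)
  have hy''reg : IsPRegular p (⟨_, hy'M⟩ : N) := by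
    show ¬ p ∣ orderOf (⟨_, hy'M⟩ : N)
    rw [Subgroup.orderOf_mk]
    exact hy'reg
  have hc' := hnil.2 R _ hRh _ hy''N hstab hy''reg
  have hy'C : pReg p ((z : G) * x) ∈ Subgroup.centralizer ((R.map N.subtype : Subgroup G) : Set G) := (mem_cent_up N R (⟨_, hy'M⟩ : N)).2 hc'
  have huR := pPart_mem_of_mem (p := p) _ hyR
  obtain ⟨k', hk'⟩ := orderOf_pPart (p := p) ((z : G) * x)
  have hact : ∀ r ∈ R.map N.subtype, x * r * x⁻¹ = pPart p ((z : G) * x) * r * (pPart p ((z : G) * x))⁻¹ := by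
    intro r hr
    have h1 := Subgroup.mem_centralizer_iff.1 z.2 _ ((Subgroup.mem_normalizer_iff.1 hxR r).1 hr)
    have h2 := Subgroup.mem_centralizer_iff.1 hy'C r hr
    have h3 : (z : G) * x * r * ((z : G) * x)⁻¹ = x * r * x⁻¹ := by
      calc (z : G) * x * r * ((z : G) * x)⁻¹ = (z : G) * (x * r * x⁻¹) * (z : G)⁻¹ := by group
        _ = (x * r * x⁻¹) * z * (z : G)⁻¹ := by rw [← show (x * r * x⁻¹) * (z : G) = z * (x * r * x⁻¹) from h1]
        _ = _ := by group
    rw [← h3]
    conv_lhs => rw [← pPart_mul_pReg (p := p) ((z : G) * x)]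
    have key : ∀ u v : G, r * v = v * r → u * v * r * (u * v)⁻¹ = u * r * u⁻¹ := by
      intro u v h
      calc u * v * r * (u * v)⁻¹ = u * (v * r) * v⁻¹ * u⁻¹ := by group
        _ = u * (r * v) * v⁻¹ * u⁻¹ := by rw [h]
        _ = _ := by group
    exact key _ _ h2
  have hCR := mem_centralizer_of_action hxR huR hxr hk' hact
  rw [hRmap] at hCR
  exact mem_centralizer_of_inf hxN hxM hxr hQp hCR

/-- **S4692** -/
theorem s4692 [hN : N.Normal] {k : ℕ} (hidx : N.index = p ^ k) {c : Set (IrrCharacter N)} (hc : IsPBlock M c)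
    {B : Set (IrrCharacter G)} (hB : IsPBlock M B) (hBc : ∀ g : G, blockCoeff B g = subgroupBlockCoeff N c g) :
    IsNilpotentBlock p M c ↔ IsNilpotentBlock p M B :=
  ⟨nil_up hM hidx hc hB hBc, nil_down hM hidx hc hB hBc⟩

end Up

end CfsgLib.Block
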