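import Cfsg.Agent.Lib.Block.Quick3
import Cfsg.Agent.Lib.Block.BrauerFeit

/-! # `p`-conjugate characters -/

set_option autoImplicit false
set_option linter.unusedSectionVars false
set_option linter.unusedVariables false

namespace CfsgLib.Block

open Cfsg CfsgLib.Char
open scoped ComplexConjugate

universe u

variable {G : Type u} [Group G] [Fintype G] {p : ℕ} [hp : Fact p.Prime]

/-- A field automorphism fixing the `n'`-th roots of unity fixes the `p`-regular values of characters. -/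
theorem sigma_regular_value (σ : ℂ ≃+* ℂ)
    (hσ : σ (Complex.exp (2 * Real.pi * Complex.I / ((Nat.card G / p ^ (Nat.card G).factorization p) : ℕ))) =
      Complex.exp (2 * Real.pi * Complex.I / ((Nat.card G / p ^ (Nat.card G).factorization p) : ℕ)))
    {χ : G → ℂ} (hχ : IsCharacter G χ) {g : G} (hg : ¬ p ∣ orderOf g) : σ (χ g) = χ g := by
  classical
  set m : ℕ := Nat.card G / p ^ (Nat.card G).factorization p with hm
  have hmdef : Nat.card G = p ^ (Nat.card G).factorization p * m := by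
    rw [hm]
    exact (Nat.ordProj_mul_ordCompl_eq_self _ p).symm
  have hm0 : m ≠ 0 := by
    rintro h
    rw [h, mul_zero] at hmdef
    exact Nat.card_pos.ne' hmdef
  have hdvd : orderOf g ∣ m := by
    have h1 : orderOf g ∣ p ^ (Nat.card G).factorization p * m := hmdef ▸ orderOf_dvd_natCard g
    have h2 : Nat.Coprime (orderOf g) (p ^ (Nat.card G).factorization p) :=
      Nat.Coprime.pow_right _ ((Nat.Prime.coprime_iff_not_dvd hp.out).2 hg).symm
    exact h2.dvd_of_dvd_mul_left h1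
  obtain ⟨ι, _, μ, h1, h2⟩ := char_sum_roots hχ g
  rw [h1, map_sum]
  refine Finset.sum_congr rfl fun i _ => ?_
  have hz : μ i ^ m = 1 := by
    obtain ⟨c, hc⟩ := hdvd
    rw [hc, pow_mul, h2, one_pow]
  haveI : NeZero m := ⟨hm0⟩
  have hz0 : μ i ≠ 0 := by
    intro h
    rw [h, zero_pow hm0] at hz
    exact zero_ne_one hz
  have h3 : Units.mk0 (μ i) hz0 ∈ rootsOfUnity m ℂ := by
    rw [mem_rootsOfUnity]
    ext
    simpa using hz
  obtain ⟨j, _, hj⟩ := (Complex.mem_rootsOfUnity m _).1 h3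
  have h4 : μ i = Complex.exp (2 * Real.pi * Complex.I / (m : ℂ)) ^ j := by
    rw [← Complex.exp_nat_mul]
    have : (j : ℂ) * (2 * Real.pi * Complex.I / (m : ℂ)) = 2 * Real.pi * Complex.I * ((j : ℂ) / (m : ℂ)) := by ring
    rw [this, hj]
    rfl
  rw [h4, map_pow, hσ]

/-- **S4506** -/
theorem s4506 (χ : IrrCharacter G) (r : ℕ)
    (hr : Nat.card {ψ : IrrCharacter G // ∃ σ : ℂ ≃+* ℂ,
      σ (Complex.exp (2 * Real.pi * Complex.I / ((Nat.card G / p ^ (Nat.card G).factorization p) : ℕ))) =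
        Complex.exp (2 * Real.pi * Complex.I / ((Nat.card G / p ^ (Nat.card G).factorization p) : ℕ)) ∧
      (ψ : G → ℂ) = fun g => σ ((χ : G → ℂ) g)} = r) :
    (r * charDegree (χ : G → ℂ)).factorization p ≤ (Nat.card G).factorization p ∧
      (p ^ (Nat.card G).factorization p ∣ r * charDegree (χ : G → ℂ) →
        p ^ (Nat.card G).factorization p ∣ charDegree (χ : G → ℂ)) := by
  classical
  obtain ⟨M, hM⟩ := exists_isPModular p hp.out
  set a := (Nat.card G).factorization p with ha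
  set ν := (charDegree (χ : G → ℂ)).factorization p with hν
  set ζ : ℂ := Complex.exp (2 * Real.pi * Complex.I / ((Nat.card G / p ^ (Nat.card G).factorization p) : ℕ)) with hζ
  let T : Finset (IrrCharacter G) := Finset.univ.filter (fun ψ => ∃ σ : ℂ ≃+* ℂ, σ ζ = ζ ∧ (ψ : G → ℂ) = fun g => σ ((χ : G → ℂ) g))
  have hcard : T.card = r := by
    rw [← hr]
    exact (Nat.subtype_card T (by intro x; simp [T])).symm
  have hχT : χ ∈ T := by
    simp only [T, Finset.mem_filter, Finset.mem_univ, true_and]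
    exact ⟨RingEquiv.refl ℂ, rfl, rfl⟩
  have hr0 : r ≠ 0 := by
    rw [← hcard]
    exact Finset.card_ne_zero.2 ⟨χ, hχT⟩
  have hdeg0 : charDegree (χ : G → ℂ) ≠ 0 := charDegree_ne_zero χ.2
  -- the truncations agree
  have htl : ∀ ψ ∈ T, tl p (ψ : G → ℂ) = tl p (χ : G → ℂ) := by
    intro ψ hψ
    obtain ⟨σ, hσ, hψσ⟩ := (Finset.mem_filter.1 hψ).2
    funext g
    by_cases hg : p ∣ orderOf g
    · rw [tl_of_singular _ hg, tl_of_singular _ hg]
    · rw [tl_of_regular _ hg, tl_of_regular _ hg, hψσ]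
      simp only
      rw [sigma_regular_value σ hσ χ.2.isCharacter hg]
  set N : ℤ := nZ p χ χ with hN
  have hNpos : 0 < N := nZ_diag_pos (p := p) χ
  have hnZT : ∀ ψ ∈ T, nZ p χ ψ = N := by
    intro ψ hψ
    rw [nZ_symm, hN]
    have h1 := nZ_spec (p := p) ψ χ
    rw [htl ψ hψ, nZ_spec] at h1
    exact_mod_cast h1.symm
  have hsum := sum_nZ_sq (p := p) χ
  have hsplit : ∑ ψ : IrrCharacter G, (nZ p χ ψ) ^ 2 = (r : ℤ) * N ^ 2 + ∑ ψ ∈ Finset.univ \ T, (nZ p χ ψ) ^ 2 := by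
    rw [← Finset.sum_sdiff (Finset.subset_univ T), add_comm, Finset.sum_congr rfl fun ψ hψ => by rw [hnZT ψ hψ],
      Finset.sum_const, hcard, nsmul_eq_mul]
  have hrest : 0 ≤ ∑ ψ ∈ Finset.univ \ T, (nZ p χ ψ) ^ 2 := Finset.sum_nonneg fun ψ _ => sq_nonneg _
  have hpa : (0 : ℤ) < ((p ^ a : ℕ) : ℤ) := by exact_mod_cast pow_pos hp.out.pos _
  have hrN : (r : ℤ) * N ≤ ((p ^ a : ℕ) : ℤ) := by
    have h1 : (r : ℤ) * N ^ 2 ≤ ((p ^ a : ℕ) : ℤ) * N := by
      rw [← hsum, hsplit]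
      linarith
    have h2 : ((r : ℤ) * N) * N ≤ ((p ^ a : ℕ) : ℤ) * N := by
      calc ((r : ℤ) * N) * N = (r : ℤ) * N ^ 2 := by ring
        _ ≤ _ := h1
    exact le_of_mul_le_mul_right h2 hNpos
  have hνN : ((p ^ ν : ℕ) : ℤ) ∣ N := pow_dvd_nZ (p := p) hM χ χ
  have hνle : ((p ^ ν : ℕ) : ℤ) ≤ N := Int.le_of_dvd hNpos hνN
  set w := r.factorization p with hw
  obtain ⟨r', hr', hr'p⟩ : ∃ r', r = p ^ w * r' ∧ ¬ p ∣ r' :=
    ⟨_, (Nat.ordProj_mul_ordCompl_eq_self r p).symm, Nat.not_dvd_ordCompl hp.out hr0⟩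
  have hr'pos : 0 < r' := by
    rcases Nat.eq_zero_or_pos r' with h | h
    · rw [h, mul_zero] at hr'
      exact absurd hr' hr0
    · exact h
  have hrν : r * p ^ ν ≤ p ^ a := by
    have h1 : (r : ℤ) * ((p ^ ν : ℕ) : ℤ) ≤ ((p ^ a : ℕ) : ℤ) :=
      le_trans (mul_le_mul_of_nonneg_left hνle (by positivity)) hrN
    exact_mod_cast h1
  have hfac : (r * charDegree (χ : G → ℂ)).factorization p = w + ν := by
    rw [Nat.factorization_mul hr0 hdeg0]
    rfl
  have hle : w + ν ≤ a := by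
    have h1 : p ^ (w + ν) ≤ p ^ a := by
      refine le_trans ?_ hrν
      rw [pow_add]
      refine Nat.mul_le_mul_right _ ?_
      rw [hr']
      exact Nat.le_mul_of_pos_right _ hr'pos
    exact (Nat.pow_le_pow_iff_right hp.out.one_lt).1 h1
  refine ⟨by rw [hfac]; exact hle, fun hdvd => ?_⟩
  have hge : a ≤ w + ν := by
    have h1 := (hp.out.pow_dvd_iff_le_factorization (mul_ne_zero hr0 hdeg0)).1 hdvd
    rw [hfac] at h1
    exact h1
  have heq : a = w + ν := le_antisymm hge hle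
  have hpw : 0 < p ^ w := pow_pos hp.out.pos _
  have hpν : 0 < p ^ ν := pow_pos hp.out.pos _
  have hr1 : r' = 1 := by
    have h1 : (p ^ w * r') * p ^ ν ≤ p ^ w * p ^ ν := by
      rw [← hr', ← pow_add, ← heq]
      exact hrν
    have h2 : r' * (p ^ w * p ^ ν) ≤ 1 * (p ^ w * p ^ ν) := by
      calc r' * (p ^ w * p ^ ν) = (p ^ w * r') * p ^ ν := by ring
        _ ≤ p ^ w * p ^ ν := h1
        _ = 1 * (p ^ w * p ^ ν) := by ring
    have h3 := Nat.le_of_mul_le_mul_right h2 (Nat.mul_pos hpw hpν)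
    omega
  have hrw : r = p ^ w := by rw [hr', hr1, mul_one]
  have hNν : N = ((p ^ ν : ℕ) : ℤ) := by
    refine le_antisymm ?_ hνle
    have h1 : ((p ^ w : ℕ) : ℤ) * N ≤ ((p ^ w : ℕ) : ℤ) * ((p ^ ν : ℕ) : ℤ) := by
      have h2 := hrN
      rw [hrw, heq, pow_add] at h2
      push_cast at h2 ⊢
      exact h2
    exact le_of_mul_le_mul_left h1 (by positivity)
  -- everything outside `T` vanishes
  have hout : ∀ ψ, ψ ∉ T → nZ p χ ψ = 0 := by
    intro ψ hψ
    have h1 : ∑ ψ ∈ Finset.univ \ T, (nZ p χ ψ) ^ 2 = 0 := by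
      have h2 := hsum
      rw [hsplit] at h2
      have h3 : (r : ℤ) * N ^ 2 = ((p ^ a : ℕ) : ℤ) * N := by
        rw [hNν, hrw, heq, pow_add]
        push_cast
        ring
      linarith
    have h2 := (Finset.sum_eq_zero_iff_of_nonneg (fun ψ _ => sq_nonneg (nZ p χ ψ))).1 h1 ψ
      (Finset.mem_sdiff.2 ⟨Finset.mem_univ _, hψ⟩)
    exact pow_eq_zero_iff two_ne_zero |>.1 h2
  have hexp : ∀ x : G, tl p (χ : G → ℂ) x = (N : ℂ) * ∑ ψ ∈ T, (ψ : G → ℂ) x := by
    intro x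
    have h1 := congrFun (tl_eq_sum (p := p) χ.2.isCharacter) x
    simp only [Finset.sum_apply, Pi.smul_apply, smul_eq_mul, nZ_spec] at h1
    rw [h1, Finset.mul_sum, ← Finset.sum_subset (Finset.subset_univ T)]
    · exact Finset.sum_congr rfl fun ψ hψ => by rw [hnZT ψ hψ]
    · intro ψ _ hψ
      rw [hout ψ hψ]
      simp
  -- sum over a Sylow subgroup
  obtain ⟨P⟩ := (inferInstance : Nonempty (Sylow p G))
  letI : Fintype (P : Subgroup G) := Fintype.ofFinite _
  have hPc : Nat.card (P : Subgroup G) = p ^ a := Sylow.card_eq_multiplicity P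
  obtain ⟨n₁, hn₁⟩ := (χ.2.isCharacter.restrict (P : Subgroup G)).classInner_nat (oneIrr (P : Subgroup G)).2
  have hP0 : (Nat.card (P : Subgroup G) : ℂ) ≠ 0 := by exact_mod_cast Nat.card_pos.ne'
  have hsumχ : ∑ x : (P : Subgroup G), (χ : G → ℂ) x = ((p ^ a : ℕ) : ℂ) * (n₁ : ℂ) := by
    rw [classInner_def] at hn₁
    have h1 : ∀ x : (P : Subgroup G), (χ : G → ℂ) x * conj ((↑(oneIrr ↥(P : Subgroup G)) : ↥(P : Subgroup G) → ℂ) x) = (χ : G → ℂ) x := by
      intro x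
      have : (↑(oneIrr ↥(P : Subgroup G)) : ↥(P : Subgroup G) → ℂ) x = 1 := rfl
      rw [this, map_one, mul_one]
    rw [Finset.sum_congr rfl fun x _ => h1 x] at hn₁
    rw [← hPc, ← hn₁]
    field_simp
  have hsumψ : ∀ ψ ∈ T, ∑ x : (P : Subgroup G), (ψ : G → ℂ) x = ((p ^ a : ℕ) : ℂ) * (n₁ : ℂ) := by
    intro ψ hψ
    obtain ⟨σ, hσ, hψσ⟩ := (Finset.mem_filter.1 hψ).2
    rw [hψσ]
    simp only
    rw [← map_sum, hsumχ, map_mul, map_natCast, map_natCast]
  have hPtl : ∑ x : (P : Subgroup G), tl p (χ : G → ℂ) x = ((p ^ a : ℕ) : ℂ) * (χ : G → ℂ) 1 := by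
    rw [Finset.sum_eq_single (1 : (P : Subgroup G))]
    · rw [show (((1 : (P : Subgroup G))) : G) = 1 from rfl, tl_of_regular _ (by simpa using hp.out.one_lt.ne')]
    · intro x _ hx
      apply tl_of_singular
      have hxo : orderOf (x : G) = orderOf x := Subgroup.orderOf_coe x
      have hPg : IsPGroup p (P : Subgroup G) := P.isPGroup'
      obtain ⟨k, hk⟩ := hPg x
      have h2 : orderOf x ∣ p ^ k := orderOf_dvd_of_pow_eq_one hk
      obtain ⟨j, -, hj⟩ := (Nat.dvd_prime_pow hp.out).1 h2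
      rw [hxo, hj]
      have hj0 : j ≠ 0 := by
        rintro rfl
        rw [pow_zero, orderOf_eq_one_iff] at hj
        exact hx hj
      exact dvd_pow_self p hj0
    · simp
  have hmain : ((p ^ a : ℕ) : ℂ) * (χ : G → ℂ) 1 = (N : ℂ) * ((r : ℂ) * (((p ^ a : ℕ) : ℂ) * (n₁ : ℂ))) := by
    have e1 : ∑ x : (P : Subgroup G), tl p (χ : G → ℂ) x = ∑ x : (P : Subgroup G), (N : ℂ) * ∑ ψ ∈ T, (ψ : G → ℂ) x :=
      Finset.sum_congr rfl fun x _ => hexp (x : G)
    rw [← hPtl, e1, ← Finset.mul_sum, Finset.sum_comm,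
      Finset.sum_congr rfl hsumψ, Finset.sum_const, hcard, nsmul_eq_mul]
  have hpa0 : ((p ^ a : ℕ) : ℂ) ≠ 0 := by exact_mod_cast (pow_pos hp.out.pos _).ne'
  have hone : (χ : G → ℂ) 1 = (N : ℂ) * ((r : ℂ) * (n₁ : ℂ)) := by
    apply mul_left_cancel₀ hpa0
    rw [hmain]
    ring
  have hfin : charDegree (χ : G → ℂ) = p ^ a * n₁ := by
    have h1 := coe_charDegree χ.2.isCharacter
    rw [hone, hNν, hrw] at h1
    have h2 : ((charDegree (χ : G → ℂ) : ℕ) : ℂ) = ((p ^ a * n₁ : ℕ) : ℂ) := by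
      rw [h1, heq, pow_add]
      push_cast
      ring
    exact_mod_cast h2
  rw [hfin]
  exact dvd_mul_right _ _

end CfsgLib.Block
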