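import Cfsg.Agent.Lib.Block.Quick
import Cfsg.Agent.Lib.Char.Diag

/-! # Faithful characters of small degree in the principal block -/

set_option autoImplicit false
set_option linter.unusedSectionVars false
set_option linter.unusedVariables false

namespace CfsgLib.Block

open Cfsg CfsgLib.Char

universe u

variable {G : Type u} [Group G] [Fintype G] {p : ℕ} [hp : Fact p.Prime] {M : Ideal AlgInt}

/-- Values of a principal block character on the centralizer of a Sylow subgroup. -/
theorem principal_value_cong (hM : IsPModular p M) (P : Sylow p G) {χ : IrrCharacter G}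
    (hχ : χ ∈ principalBlock M G) {y : G} (hy : y ∈ Subgroup.centralizer ((P : Subgroup G) : Set G)) :
    (χ : G → ℂ) y - (χ : G → ℂ) 1 ∈ locI hM.isPrime := by
  classical
  have hP := hM.isPrime
  have h1 : MemLocalIdeal M (centralChar (fun _ : G => (1 : ℂ)) y - centralChar (χ : G → ℂ) y) := hχ y
  have h2 : centralChar (fun _ : G => (1 : ℂ)) y - centralChar (χ : G → ℂ) y ∈ locI hP := h1
  set m := (Subgroup.centralizer ({y} : Set G)).index with hm
  have hle : (P : Subgroup G) ≤ Subgroup.centralizer ({y} : Set G) := by
    intro z hz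
    rw [Subgroup.mem_centralizer_singleton_iff]
    have := (Subgroup.mem_centralizer_iff.1 hy) z hz
    exact this
  have hmp : ¬ p ∣ m := fun h => P.not_dvd_index (h.trans (Subgroup.index_dvd_of_le hle))
  have hm0 : (m : ℂ) ≠ 0 := natCast_ne_zero_of_not_dvd hM hmp
  have hone0 : (χ : G → ℂ) 1 ≠ 0 := by
    rw [← coe_charDegree χ.2.isCharacter]
    exact_mod_cast charDegree_ne_zero χ.2
  have h3 : (χ : G → ℂ) y - (χ : G → ℂ) 1 =
      (-(m : ℂ)⁻¹ * (χ : G → ℂ) 1) * (centralChar (fun _ : G => (1 : ℂ)) y - centralChar (χ : G → ℂ) y) := by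
    simp only [centralChar]
    rw [← hm]
    field_simp
    ring
  rw [h3]
  refine locI_mul_left hP (mul_mem (neg_mem (natCast_inv_mem hM hmp)) ?_) h2
  rw [← coe_charDegree χ.2.isCharacter]
  exact natCast_mem _ _

/-- **S4729** -/
theorem s4729 (hM : IsPModular p M) (hperf : commutator G = ⊤) (P : Sylow p G) (χ : IrrCharacter G)
    (hχ : χ ∈ principalBlock M G) (hfaith : ∀ g : G, (χ : G → ℂ) g = (χ : G → ℂ) 1 → g = 1)
    (hdeg : charDegree (χ : G → ℂ) < 2 * p) :
    IsPGroup p (Subgroup.centralizer ((P : Subgroup G) : Set G)) := by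
  classical
  have hPr := hM.isPrime
  have key : ∀ (q : ℕ) (y : G), q.Prime → q ≠ p → orderOf y = q →
      y ∈ Subgroup.centralizer ((P : Subgroup G) : Set G) → False := by
    intro q y hq hqp hyq hy
    have hq0 : 0 < q := hq.pos
    obtain ⟨n, ρ, hρ⟩ := χ.2.isCharacter
    obtain ⟨m, b, μ, h1, -⟩ := rep_eigenbasis ρ y
    have hpow : ∀ (k : ℕ) (i : Fin m), ρ (y ^ k) (b i) = μ i ^ k • b i := by
      intro k i
      induction k with
      | zero => simp
      | succ k ih =>
        rw [pow_succ, map_mul, Module.End.mul_apply, h1, map_smul, ih, smul_smul, pow_succ]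
        ring_nf
    have hμq : ∀ i, μ i ^ q = 1 := by
      intro i
      have h3 := hpow q i
      rw [← hyq, pow_orderOf_eq_one, map_one, Module.End.one_apply] at h3
      have h4 : (μ i ^ orderOf y - 1) • b i = 0 := by
        rw [sub_smul, one_smul, ← h3, sub_self]
      rw [← hyq]
      exact sub_eq_zero.1 ((smul_eq_zero.1 h4).resolve_right (b.ne_zero i))
    have hχpow : ∀ k : ℕ, (χ : G → ℂ) (y ^ k) = ∑ i, μ i ^ k := by
      intro k
      rw [← hρ]
      exact character_eq_sum ρ (y ^ k) b _ (fun i => hpow k i)
    have hone : (χ : G → ℂ) 1 = (m : ℂ) := by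
      have := hχpow 0
      simpa using this
    have hdegm : charDegree (χ : G → ℂ) = m := by
      have h2 := coe_charDegree χ.2.isCharacter
      rw [hone] at h2
      exact_mod_cast h2
    rw [hdegm] at hdeg
    -- multiplicities are divisible by p
    have hdiv : ∀ l : ℂ, l ^ q = 1 → l ≠ 1 → p ∣ (Finset.univ.filter (fun i => μ i = l)).card := by
      intro l hl hl1
      have hl0 : l ≠ 0 := by
        rintro rfl
        rw [zero_pow hq0.ne'] at hl
        exact zero_ne_one hl
      have hmem : l⁻¹ ∈ locR hPr := by
        have h2 : l⁻¹ ^ q = 1 := by rw [inv_pow, hl, inv_one]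
        exact locR_of_isIntegral hPr (IsIntegral.of_pow hq0 (by rw [h2]; exact isIntegral_one))
      have hs : ∑ k ∈ Finset.range q, ((χ : G → ℂ) (y ^ k) - (χ : G → ℂ) 1) * l⁻¹ ^ k ∈ locI hPr := by
        refine sum_mem fun k _ => ?_
        refine locI_mul_right hPr (pow_mem hmem k) ?_
        exact principal_value_cong hM P hχ (Subgroup.pow_mem _ hy k)
      have geom : ∀ z : ℂ, z ^ q = 1 → z ≠ 1 → ∑ k ∈ Finset.range q, z ^ k = 0 := by
        intro z hz hz1
        have h2 := geom_sum_mul z q
        rw [hz, sub_self] at h2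
        exact (mul_eq_zero.1 h2).resolve_right (sub_ne_zero.2 hz1)
      have hval : ∑ k ∈ Finset.range q, ((χ : G → ℂ) (y ^ k) - (χ : G → ℂ) 1) * l⁻¹ ^ k =
          (q : ℂ) * ((Finset.univ.filter (fun i => μ i = l)).card : ℂ) := by
        have e1 : ∀ k ∈ Finset.range q, ((χ : G → ℂ) (y ^ k) - (χ : G → ℂ) 1) * l⁻¹ ^ k =
            (∑ i, (μ i * l⁻¹) ^ k) - (χ : G → ℂ) 1 * l⁻¹ ^ k := by
          intro k _
          rw [hχpow, sub_mul, Finset.sum_mul]
          simp only [mul_pow]
        rw [Finset.sum_congr rfl e1, Finset.sum_sub_distrib, ← Finset.mul_sum,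
          geom l⁻¹ (by rw [inv_pow, hl, inv_one]) (by simpa using hl1), mul_zero, sub_zero, Finset.sum_comm]
        have e2 : ∀ i : Fin m, ∑ k ∈ Finset.range q, (μ i * l⁻¹) ^ k = if μ i = l then (q : ℂ) else 0 := by
          intro i
          by_cases hi : μ i = l
          · rw [if_pos hi, hi, mul_inv_cancel₀ hl0]
            simp
          · rw [if_neg hi]
            apply geom
            · rw [mul_pow, hμq, inv_pow, hl, one_mul, inv_one]
            · intro h
              apply hi
              field_simp at h
              exact h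
        rw [Finset.sum_congr rfl fun i _ => e2 i, Finset.sum_ite, Finset.sum_const_zero, add_zero, Finset.sum_const, nsmul_eq_mul]
        ring
      rw [hval] at hs
      have h3 : ((q * (Finset.univ.filter (fun i => μ i = l)).card : ℕ) : ℂ) ∈ locI hPr := by
        push_cast
        exact hs
      have h4 := (natCast_mem_locI_iff hM _).1 h3
      exact (hp.out.dvd_mul.1 h4).resolve_left (fun h => hqp ((Nat.prime_dvd_prime_iff_eq hp.out hq).1 h).symm)
    have hy1 : y ≠ 1 := by
      rintro rfl
      rw [orderOf_one] at hyq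
      exact hq.one_lt.ne hyq
    have hne : ∃ i, μ i ≠ 1 := by
      by_contra hc
      push Not at hc
      apply hy1
      apply hfaith
      have h2 := hχpow 1
      rw [pow_one] at h2
      rw [h2, hone]
      simp [hc]
    obtain ⟨i₀, hi₀⟩ := hne
    set l := μ i₀ with hl
    have hcardpos : 0 < (Finset.univ.filter (fun i => μ i = l)).card :=
      Finset.card_pos.2 ⟨i₀, by simp [hl]⟩
    have hdvdl := hdiv l (hμq i₀) hi₀
    have hge := Nat.le_of_dvd hcardpos hdvdl
    have hle : (Finset.univ.filter (fun i => μ i = l)).card ≤ m := by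
      have := Finset.card_le_univ (Finset.univ.filter (fun i => μ i = l))
      simpa using this
    have hcard : (Finset.univ.filter (fun i => μ i = l)).card = p := by
      obtain ⟨t, ht⟩ := hdvdl
      have ht1 : t = 1 := by
        rw [ht] at hle hcardpos
        have h3 : 0 < t := Nat.pos_of_mul_pos_left hcardpos |> fun _ => by
          rcases Nat.eq_zero_or_pos t with h | h
          · rw [h] at hcardpos; simp at hcardpos
          · exact h
        have h4 : t < 2 := by
          by_contra h5
          have h6 : 2 ≤ t := by omega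
          have h7 : p * 2 ≤ p * t := Nat.mul_le_mul_left p h6
          omega
        omega
      rw [ht, ht1, mul_one]
    have hall : ∀ i, μ i = 1 ∨ μ i = l := by
      intro i
      by_contra hc
      push Not at hc
      have h2 := hdiv (μ i) (hμq i) hc.1
      have hpos : 0 < (Finset.univ.filter (fun j => μ j = μ i)).card :=
        Finset.card_pos.2 ⟨i, by simp⟩
      have hge' := Nat.le_of_dvd hpos h2
      have hdisj : Disjoint (Finset.univ.filter (fun j => μ j = l)) (Finset.univ.filter (fun j => μ j = μ i)) := by
        rw [Finset.disjoint_filter]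
        intro j _ h3 h4
        exact hc.2 (h4 ▸ h3)
      have h3 := Finset.card_union_of_disjoint hdisj
      have h4 := Finset.card_le_univ ((Finset.univ.filter (fun j => μ j = l)) ∪ (Finset.univ.filter (fun j => μ j = μ i)))
      simp only [Fintype.card_fin] at h4
      omega
    -- the determinant
    have hdet : LinearMap.det (ρ y) = ∏ i, μ i := by
      rw [← LinearMap.det_toMatrix b]
      have : LinearMap.toMatrix b b (ρ y) = Matrix.diagonal μ := by
        ext i j
        rw [LinearMap.toMatrix_apply, h1, map_smul, Module.Basis.repr_self]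
        by_cases hij : i = j
        · subst hij
          simp
        · simp [Matrix.diagonal_apply_ne _ hij, Finsupp.single_apply, Ne.symm hij]
      rw [this, Matrix.det_diagonal]
    have hprod : ∏ i, μ i = l ^ p := by
      have e1 : ∀ i ∈ (Finset.univ : Finset (Fin m)), μ i = if μ i = l then l else 1 := by
        intro i _
        split_ifs with h
        · exact h
        · exact (hall i).resolve_right h
      rw [Finset.prod_congr rfl e1, Finset.prod_ite, Finset.prod_const_one, mul_one, Finset.prod_const, hcard]
    let φ : G →* ℂ := (LinearMap.det).comp ρ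
    let ψ : G →* ℂˣ := φ.toHomUnits
    have hψ : y ∈ ψ.ker := by
      have h2 : y ∈ commutator G := by rw [hperf]; trivial
      exact Abelianization.commutator_subset_ker ψ h2
    have hdet1 : LinearMap.det (ρ y) = 1 := by
      have h2 : ψ y = 1 := hψ
      have h3 := congrArg Units.val h2
      simpa [ψ, φ] using h3
    rw [hdet, hprod] at hdet1
    have h5 : orderOf l ∣ p := orderOf_dvd_of_pow_eq_one hdet1
    have h6 : orderOf l ∣ q := orderOf_dvd_of_pow_eq_one (hμq i₀)
    have h7 : orderOf l ∣ Nat.gcd p q := Nat.dvd_gcd h5 h6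
    have h8 : Nat.gcd p q = 1 := (Nat.coprime_primes hp.out hq).2 (Ne.symm hqp)
    rw [h8, Nat.dvd_one, orderOf_eq_one_iff] at h7
    exact hi₀ h7
  rw [IsPGroup.iff_card]
  refine ⟨_, Nat.eq_prime_pow_of_unique_prime_dvd Nat.card_pos.ne' ?_⟩
  intro q hq hqd
  by_contra hne
  haveI : Fact q.Prime := ⟨hq⟩
  obtain ⟨x, hx⟩ := exists_prime_orderOf_dvd_card' q hqd
  exact key q x hq hne (by rw [Subgroup.orderOf_coe]; exact hx) x.2

end CfsgLib.Block
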