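import Cfsg.Agent.Lib.Block.V4
import Cfsg.Agent.Lib.Block.Infl2
import Cfsg.Agent.Lib.Block.Rank
import Cfsg.Agent.Lib.Block.Col
import Cfsg.Agent.Lib.Block.Second
import Cfsg.Agent.Lib.Block.NilFus
import Cfsg.Agent.Lib.Trans.Basic
import Cfsg.Agent.Lib.Invol.BrauerFowler
import Cfsg.Agent.S4512

set_option autoImplicit false
set_option linter.unusedSectionVars false

namespace CfsgLib.Block

open Cfsg
open scoped ComplexConjugate

universe u

section RankQuot

variable {G : Type u} [Group G] [Fintype G] {M : Ideal AlgInt}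

attribute [local instance] quotFT

theorem card_rank_eq [Fact (Nat.Prime 2)] (hM : IsPModular 2 M) {B : Set (IrrCharacter G)} (hB : IsPBlock M B) [DecidablePred (· ∈ B)]
    [DecidablePred fun x : G => 2 ∣ orderOf x] :
    (Nat.card G : ℂ) * (blockRank 2 B : ℂ) =
      ∑ x : G, if 2 ∣ orderOf x then 0 else ∑ χ : IrrCharacter G, if χ ∈ B then (χ : G → ℂ) x * conj ((χ : G → ℂ) x) else 0 := by
  classical
  rw [card_mul_blockRank hM hB]
  refine Finset.sum_congr rfl fun x _ => ?_
  rw [finsum_mem_eq_sum_ite]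
  by_cases hx : 2 ∣ orderOf x
  · rw [if_pos hx]
    refine Finset.sum_eq_zero fun χ _ => ?_
    have : pRegularPart 2 (χ : G → ℂ) x = 0 := by
      rw [pRegularPart, if_neg]
      exact not_not.2 hx
    rw [this, zero_mul, ite_self]
  · rw [if_neg hx]
    refine Finset.sum_congr rfl fun χ _ => ?_
    have : pRegularPart 2 (χ : G → ℂ) x = (χ : G → ℂ) x := by
      rw [pRegularPart, if_pos]
      exact hx
    rw [this, χ.2.map_inv]
    congr

theorem rank_quot_central (hM : IsPModular 2 M) (N : Subgroup G) [hN : N.Normal] (z : G) (hz1 : z ≠ 1) (hz2 : z * z = 1)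
    (hNz : ∀ g, g ∈ N ↔ g = 1 ∨ g = z) (hzc : ∀ g, z * g = g * z) :
    blockRank 2 (principalBlock M G) = blockRank 2 (principalBlock M (G ⧸ N)) := by
  classical
  haveI : Fact (Nat.Prime 2) := ⟨by norm_num⟩
  have hP := hM.isPrime
  have hzN : z ∈ N := (hNz z).2 (Or.inr rfl)
  have hNp : IsPGroup 2 N := by
    rintro ⟨x, hx⟩
    refine ⟨1, ?_⟩
    apply Subtype.ext
    show x ^ (2 ^ 1) = 1
    rcases (hNz x).1 hx with rfl | rfl
    · simp
    · rw [pow_one, sq]; exact hz2
  have hC : ∃ k : ℕ, (Subgroup.centralizer (N : Set G)).index = 2 ^ k := by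
    refine ⟨0, ?_⟩
    have : Subgroup.centralizer (N : Set G) = ⊤ := by
      rw [eq_top_iff]
      intro g _
      rw [Subgroup.mem_centralizer_iff]
      intro h hh
      rcases (hNz h).1 hh with rfl | rfl
      · simp
      · exact hzc g
    rw [this, Subgroup.index_top, pow_zero]
  have hcardN : Nat.card N = 2 := by
    have h0 : N = Subgroup.zpowers z := by
      ext g
      rw [hNz, Subgroup.mem_zpowers_iff]
      constructor
      · rintro (rfl | rfl)
        · exact ⟨0, by simp⟩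
        · exact ⟨1, by simp⟩
      · rintro ⟨k, rfl⟩
        rcases Int.even_or_odd' k with ⟨c, rfl | rfl⟩
        · left
          rw [zpow_mul, zpow_ofNat, sq, hz2, one_zpow]
        · right
          rw [zpow_add, zpow_mul, zpow_ofNat, sq, hz2, one_zpow, one_mul, zpow_one]
    have h1 : orderOf z = 2 := orderOf_eq_prime (by rw [sq, hz2]) hz1
    rw [h0, Nat.card_zpowers, h1]
  have hB : IsPBlock M (principalBlock M G) := ⟨oneIrr G, rfl⟩
  have hBb : IsPBlock M (principalBlock M (G ⧸ N)) := ⟨oneIrr _, rfl⟩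
  have e1 := card_rank_eq hM hB
  have e2 := card_rank_eq hM hBb
  -- B⁺
  have hmem2 : ∀ χb ∈ principalBlock M (G ⧸ N), inflIrr N χb ∈ principalBlock M G := by
    intro χb hχb
    have h := sameBlock_infl N hP hχb
    exact h
  have hmem : ∀ χ : IrrCharacter G, χ ∈ principalBlock M G → (χ : G → ℂ) z = (χ : G → ℂ) 1 →
      ∃ χb ∈ principalBlock M (G ⧸ N), inflIrr N χb = χ := by
    intro χ hχ hz
    obtain ⟨χb, rfl⟩ := exists_descend N (θ := χ) (by
      intro n hn
      rcases (hNz n).1 hn with rfl | rfl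
      · rfl
      · exact hz)
    refine ⟨χb, ?_, rfl⟩
    have := (blocks_quot_of_central N hM hNp hC).1 (oneIrr _) χb
    exact this.2 hχ
  have hinfz : ∀ χb : IrrCharacter (G ⧸ N), (inflIrr N χb : G → ℂ) z = (inflIrr N χb : G → ℂ) 1 := by
    intro χb
    rw [inflIrr_apply, inflIrr_apply, (QuotientGroup.eq_one_iff z).2 hzN, QuotientGroup.mk_one]
  have hsq : ∀ χ : IrrCharacter G, (χ : G → ℂ) z = (χ : G → ℂ) 1 ∨ (χ : G → ℂ) z = - (χ : G → ℂ) 1 := by
    intro χ
    have h0 := χ.2.map_one_ne_zero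
    have h1 := char_mul_central χ.2 hzc z
    rw [hz2] at h1
    have h2 : ((χ : G → ℂ) z - (χ : G → ℂ) 1) * ((χ : G → ℂ) z + (χ : G → ℂ) 1) = 0 := by
      field_simp at h1
      linear_combination - h1
    rcases mul_eq_zero.1 h2 with h | h
    · left; linear_combination h
    · right; linear_combination h
  -- the key identity for odd elements
  have key : ∀ x : G, ¬ 2 ∣ orderOf x →
      (∑ χ : IrrCharacter G, if χ ∈ principalBlock M G then (χ : G → ℂ) x * conj ((χ : G → ℂ) x) else 0) =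
      2 * ∑ χb : IrrCharacter (G ⧸ N), if χb ∈ principalBlock M (G ⧸ N) then
        (χb : G ⧸ N → ℂ) (x : G ⧸ N) * conj ((χb : G ⧸ N → ℂ) (x : G ⧸ N)) else 0 := by
    intro x hx
    have horth := block_orthogonality hM hB (g := z * x) (h := x) (x := z) (y := 1)
      ⟨x, rfl, hzc x, ⟨1, by rw [pow_one]; exact orderOf_eq_prime (by rw [sq, hz2]) hz1⟩, hx⟩
      ⟨x, one_mul x, Commute.one_left x, ⟨0, by simp⟩, hx⟩ (by
        intro hc
        exact hz1 (isConj_one_right.1 hc.symm))
    have h1 : (∑ χ : IrrCharacter G, if χ ∈ principalBlock M G then (χ : G → ℂ) x * conj ((χ : G → ℂ) x) else 0) =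
        ∑ χ : IrrCharacter G, if χ ∈ principalBlock M G then
          ((χ : G → ℂ) x * conj ((χ : G → ℂ) x) + (χ : G → ℂ) (z * x) * conj ((χ : G → ℂ) x)) else 0 := by
      rw [← add_zero (∑ χ : IrrCharacter G, if χ ∈ principalBlock M G then (χ : G → ℂ) x * conj ((χ : G → ℂ) x) else 0), ← horth,
        ← Finset.sum_add_distrib]
      refine Finset.sum_congr rfl fun χ _ => ?_
      split_ifs
      · rfl
      · simp
    rw [h1]
    have h2 : ∀ χ : IrrCharacter G, (if χ ∈ principalBlock M G then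
          ((χ : G → ℂ) x * conj ((χ : G → ℂ) x) + (χ : G → ℂ) (z * x) * conj ((χ : G → ℂ) x)) else 0) =
        if χ ∈ inflIrr N '' principalBlock M (G ⧸ N) then 2 * ((χ : G → ℂ) x * conj ((χ : G → ℂ) x)) else 0 := by
      intro χ
      have h0 := χ.2.map_one_ne_zero
      rw [char_mul_central χ.2 hzc x]
      by_cases hχ : χ ∈ principalBlock M G
      · rw [if_pos hχ]
        rcases hsq χ with h | h
        · obtain ⟨χb, hχb, rfl⟩ := hmem χ hχ h
          rw [if_pos ⟨χb, hχb, rfl⟩, h, div_self h0]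
          ring
        · rw [if_neg]
          · rw [h, neg_div, div_self h0]
            ring
          · rintro ⟨χb, _, rfl⟩
            have h3 := hinfz χb
            rw [h3] at h
            have h4 : (2 : ℂ) * (inflIrr N χb : G → ℂ) 1 = 0 := by linear_combination h
            exact h0 (by simpa using h4)
      · rw [if_neg hχ, if_neg]
        rintro ⟨χb, hb, rfl⟩
        exact hχ (hmem2 χb hb)
    simp only [h2]
    rw [← Finset.sum_filter, ← Finset.sum_filter, Finset.mul_sum]
    symm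
    refine Finset.sum_nbij (inflIrr N) ?_ ((inflIrr_injective N).injOn) ?_ ?_
    · intro χb hχb
      simp only [Finset.mem_filter, Finset.mem_univ, true_and] at hχb ⊢
      exact ⟨χb, hχb, rfl⟩
    · intro χ hχ
      simp only [Finset.coe_filter, Finset.mem_univ, true_and, Set.mem_setOf_eq] at hχ
      obtain ⟨χb, hb, rfl⟩ := hχ
      exact ⟨χb, by simpa using hb, rfl⟩
    · intro χb _
      rfl
  -- the odd elements biject
  have hbij : (∑ x : G, if 2 ∣ orderOf x then (0 : ℂ) else
        ∑ χb : IrrCharacter (G ⧸ N), if χb ∈ principalBlock M (G ⧸ N) then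
        (χb : G ⧸ N → ℂ) (x : G ⧸ N) * conj ((χb : G ⧸ N → ℂ) (x : G ⧸ N)) else 0) =
      ∑ t : G ⧸ N, if 2 ∣ orderOf t then (0 : ℂ) else
        ∑ χb : IrrCharacter (G ⧸ N), if χb ∈ principalBlock M (G ⧸ N) then
        (χb : G ⧸ N → ℂ) t * conj ((χb : G ⧸ N → ℂ) t) else 0 := by
    have hf : ∀ {α : Type u} (s : Finset α) (P : α → Prop) [DecidablePred P] (f : α → ℂ),
        (∑ a ∈ s, if P a then (0 : ℂ) else f a) = ∑ a ∈ s.filter (fun a => ¬ P a), f a := by
      intro α s P _ f
      rw [Finset.sum_filter]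
      refine Finset.sum_congr rfl fun a _ => ?_
      by_cases h : P a <;> simp [h]
    rw [hf, hf]
    refine Finset.sum_nbij (fun x : G => (x : G ⧸ N)) ?_ ?_ ?_ ?_
    · intro x hx
      simp only [Finset.mem_filter, Finset.mem_univ, true_and] at hx ⊢
      intro h
      exact hx (h.trans (orderOf_map_dvd (QuotientGroup.mk' N) x))
    · intro x hx y hy hxy
      simp only [Finset.coe_filter, Finset.mem_univ, true_and, Set.mem_setOf_eq] at hx hy
      have h1 : x⁻¹ * y ∈ N := QuotientGroup.eq.1 hxy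
      rcases (hNz _).1 h1 with h | h
      · exact (inv_mul_eq_one.1 h)
      · exfalso
        have h2 : y = x * z := by rw [← h]; group
        subst h2
        apply hy
        -- `x * z` has even order
        have h3 : (x * z) ^ orderOf (x * z) = 1 := pow_orderOf_eq_one _
        have hcomm : Commute x z := (hzc x).symm
        rw [hcomm.mul_pow] at h3
        by_contra hodd
        have hodd' : Odd (orderOf (x * z)) := by
          rw [← Nat.not_even_iff_odd]
          exact fun he => hodd he.two_dvd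
        have h4 : z ^ orderOf (x * z) = z := by
          obtain ⟨c, hc⟩ := hodd'
          rw [hc, pow_succ, pow_mul, sq, hz2, one_pow, one_mul]
        rw [h4] at h3
        have h5 : x ^ orderOf (x * z) = z⁻¹ := eq_inv_of_mul_eq_one_left h3
        have hz' : z⁻¹ = z := inv_eq_of_mul_eq_one_left hz2
        rw [hz'] at h5
        -- `z` is an odd-order power of `x`
        have h6 : orderOf z ∣ orderOf x := by
          rw [← h5]
          exact orderOf_pow_dvd _
        apply hx
        rw [orderOf_eq_prime (by rw [sq, hz2]) hz1] at h6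
        exact h6
    · intro t ht
      simp only [Finset.coe_filter, Finset.mem_univ, true_and, Set.mem_setOf_eq] at ht
      obtain ⟨g, hg, hg2⟩ := exists_regular_lift N hNp ht
      exact ⟨g, by simpa using hg2, hg⟩
    · intro x _
      rfl
  have hcard : (Nat.card G : ℂ) = 2 * (Nat.card (G ⧸ N) : ℂ) := by
    rw [Subgroup.card_eq_card_quotient_mul_card_subgroup N, hcardN]
    push_cast
    ring
  have hfin : (Nat.card G : ℂ) ≠ 0 := by
    exact_mod_cast (Nat.card_pos (α := G)).ne'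
  have h9 : (Nat.card G : ℂ) * (blockRank 2 (principalBlock M G) : ℂ) =
      (Nat.card G : ℂ) * (blockRank 2 (principalBlock M (G ⧸ N)) : ℂ) := by
    rw [e1]
    have h10 : (∑ x : G, if 2 ∣ orderOf x then (0 : ℂ) else
        ∑ χ : IrrCharacter G, if χ ∈ principalBlock M G then (χ : G → ℂ) x * conj ((χ : G → ℂ) x) else 0) =
        ∑ x : G, 2 * (if 2 ∣ orderOf x then (0 : ℂ) else
        ∑ χb : IrrCharacter (G ⧸ N), if χb ∈ principalBlock M (G ⧸ N) then
        (χb : G ⧸ N → ℂ) (x : G ⧸ N) * conj ((χb : G ⧸ N → ℂ) (x : G ⧸ N)) else 0) := by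
      refine Finset.sum_congr rfl fun x _ => ?_
      by_cases hx : 2 ∣ orderOf x
      · simp [hx]
      · rw [if_neg hx, if_neg hx, key x hx]
    rw [h10, ← Finset.mul_sum, hbij, hcard, mul_assoc, e2]
  exact_mod_cast mul_left_cancel₀ hfin h9

end RankQuot

section Fusion

variable {G : Type u} [Group G] [Fintype G]

attribute [local instance] quotFT

theorem exists_conj_mem_sylow {p : ℕ} [Fact p.Prime] (P : Sylow p G) (s : G) (k : ℕ) (hs : orderOf s = p ^ k) :
    ∃ w : G, w * s * w⁻¹ ∈ P := by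
  have hzp : IsPGroup p (Subgroup.zpowers s) := by
    rw [IsPGroup.iff_card, Nat.card_zpowers]
    exact ⟨k, hs⟩
  obtain ⟨R, hR⟩ := hzp.exists_le_sylow
  obtain ⟨w, hw⟩ := MulAction.exists_smul_eq G R P
  refine ⟨w, ?_⟩
  rw [← hw]
  have h1 : s ∈ R := hR (Subgroup.mem_zpowers s)
  show w * s * w⁻¹ ∈ ((w • R : Sylow p G) : Subgroup G)
  rw [Sylow.coe_subgroup_smul, Subgroup.mem_pointwise_smul_iff_inv_smul_mem]
  simp [MulAut.smul_def, MulAut.conj_apply, mul_assoc]
  exact h1

theorem mem_zpowers_involution {z : G} (hz2 : z * z = 1) (g : G) : g ∈ Subgroup.zpowers z ↔ g = 1 ∨ g = z := by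
  rw [Subgroup.mem_zpowers_iff]
  constructor
  · rintro ⟨k, rfl⟩
    rcases Int.even_or_odd' k with ⟨c, rfl | rfl⟩
    · left
      rw [zpow_mul, zpow_ofNat, sq, hz2, one_zpow]
    · right
      rw [zpow_add, zpow_mul, zpow_ofNat, sq, hz2, one_zpow, one_mul, zpow_one]
  · rintro (rfl | rfl)
    · exact ⟨0, by simp⟩
    · exact ⟨1, by simp⟩

/-- The image of a Sylow subgroup of order `8` in the quotient by a central involution. -/
theorem q8_quot_data (z : G) (hz1 : z ≠ 1) (hz2 : z * z = 1) (N : Subgroup G) [hN : N.Normal] (hNz : ∀ g, g ∈ N ↔ g = 1 ∨ g = z)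
    (Q : Sylow 2 G) (hQ : Nat.card Q = 8) (hzQ : z ∈ Q) (hsq : ∀ t ∈ Q, t * t = 1 ∨ t * t = z) :
    ∃ P : Sylow 2 (G ⧸ N), Nat.card P = 4 ∧ (∀ x ∈ P, x * x = 1) := by
  classical
  haveI : Fact (Nat.Prime 2) := ⟨Nat.prime_two⟩
  have hNle : N ≤ (Q : Subgroup G) := by
    intro g hg
    rcases (hNz g).1 hg with rfl | rfl
    · exact Subgroup.one_mem _
    · exact hzQ
  have hcardN : Nat.card N = 2 := by
    have h0 : N = Subgroup.zpowers z := by
      ext g
      rw [hNz, mem_zpowers_involution hz2]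
    have h1 : orderOf z = 2 := orderOf_eq_prime (by rw [sq, hz2]) hz1
    rw [h0, Nat.card_zpowers, h1]
  let Q' : Subgroup (G ⧸ N) := (Q : Subgroup G).map (QuotientGroup.mk' N)
  have hi : Q'.index = (Q : Subgroup G).index := by
    rw [Subgroup.index_map, QuotientGroup.ker_mk', sup_eq_left.2 hNle,
      (MonoidHom.range_eq_top).2 (QuotientGroup.mk'_surjective N), Subgroup.index_top, mul_one]
  have hc0 : Nat.card G = Nat.card (G ⧸ N) * 2 := by
    rw [Subgroup.card_eq_card_quotient_mul_card_subgroup N, hcardN]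
  have hc1 : Nat.card Q * (Q : Subgroup G).index = Nat.card G := Subgroup.card_mul_index _
  have hc2 : Nat.card Q' * Q'.index = Nat.card (G ⧸ N) := Subgroup.card_mul_index _
  have hipos : (Q : Subgroup G).index ≠ 0 := Subgroup.index_ne_zero_of_finite
  have hQ'card : Nat.card Q' = 4 := by
    rw [hi] at hc2
    rw [hQ] at hc1
    have h3 : 8 * (Q : Subgroup G).index = (Nat.card Q' * (Q : Subgroup G).index) * 2 := by
      rw [hc1, hc0, hc2]
    have h4 : (Q : Subgroup G).index * 8 = (Q : Subgroup G).index * (Nat.card Q' * 2) := by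
      linarith
    have h5 := Nat.eq_of_mul_eq_mul_left (Nat.pos_of_ne_zero hipos) h4
    omega
  have hpg : IsPGroup 2 Q' := IsPGroup.of_card (n := 2) hQ'card
  refine ⟨hpg.toSylow (by rw [hi]; exact Q.not_dvd_index), ?_, ?_⟩
  · exact hQ'card
  · intro x hx
    have hx' : x ∈ Q' := hx
    obtain ⟨t, ht, rfl⟩ := Subgroup.mem_map.1 hx'
    rw [← map_mul]
    refine (QuotientGroup.eq_one_iff _).2 ?_
    rw [hNz]
    exact hsq t ht

theorem rank_three_of_q8 {M : Ideal AlgInt} (hM : IsPModular 2 M) (ζ : G) (hζ1 : ζ ≠ 1) (hζ2 : ζ * ζ = 1)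
    (hζc : ∀ g, ζ * g = g * ζ) (hinv : ∀ t : G, t * t = 1 → t = 1 ∨ t = ζ) (Q : Sylow 2 G) (hQ : Nat.card Q = 8)
    (hsq : ∀ t ∈ Q, t * t = 1 ∨ t * t = ζ) (hconj : ∀ s t : G, s * s = ζ → t * t = ζ → IsConj s t) :
    blockRank 2 (principalBlock M G) = 3 := by
  classical
  haveI : Fact (Nat.Prime 2) := ⟨Nat.prime_two⟩
  let N : Subgroup G := Subgroup.zpowers ζ
  have hNz : ∀ g, g ∈ N ↔ g = 1 ∨ g = ζ := mem_zpowers_involution hζ2
  haveI hN : N.Normal := ⟨fun n hn g => by
    rw [hNz] at hn ⊢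
    rcases hn with rfl | rfl
    · left; simp
    · right; rw [← hζc g]; group⟩
  rw [rank_quot_central hM N ζ hζ1 hζ2 hNz hζc]
  have hζQ : ζ ∈ Q := by
    obtain ⟨t, ht⟩ := exists_prime_orderOf_dvd_card' (G := Q) 2 (by rw [hQ]; norm_num)
    have ht' : orderOf (t : G) = 2 := by rw [Subgroup.orderOf_coe]; exact ht
    have ht2 : (t : G) * (t : G) = 1 := by
      have := pow_orderOf_eq_one (t : G)
      rwa [ht', sq] at this
    rcases hinv _ ht2 with h | h
    · rw [h, orderOf_one] at ht'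
      omega
    · rw [← h]; exact t.2
  obtain ⟨P, hP1, hP2⟩ := q8_quot_data ζ hζ1 hζ2 N hNz Q hQ hζQ hsq
  refine Cfsg.Agent.S4512.result M hM P hP1 (fun x => Subtype.ext (hP2 _ x.2)) ?_
  intro s t hs ht
  obtain ⟨s', rfl⟩ := QuotientGroup.mk_surjective s
  obtain ⟨t', rfl⟩ := QuotientGroup.mk_surjective t
  have hlift : ∀ u : G, orderOf (u : G ⧸ N) = 2 → u * u = ζ := by
    intro u hu
    have h1 : ((u * u : G) : G ⧸ N) = 1 := by
      rw [QuotientGroup.mk_mul, ← sq, ← hu]
      exact pow_orderOf_eq_one _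
    rcases (hNz _).1 ((QuotientGroup.eq_one_iff _).1 h1) with h | h
    · exfalso
      have h2 : (u : G ⧸ N) = 1 := by
        refine (QuotientGroup.eq_one_iff _).2 ?_
        rw [hNz]
        exact hinv u h
      rw [h2, orderOf_one] at hu
      omega
    · exact h
  obtain ⟨c, hc⟩ := isConj_iff.1 (hconj s' t' (hlift s' hs) (hlift t' ht))
  rw [isConj_iff]
  refine ⟨(c : G ⧸ N), ?_⟩
  rw [← hc]
  rfl

/-- A Klein four Sylow subgroup whose normalizer acts nontrivially has one class of involutions. -/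
theorem v4_transitive (P : Sylow 2 G) (hP : Nat.card P = 4) (hexp : ∀ x ∈ P, x * x = 1)
    (hnot : ¬ (Subgroup.normalizer ((P : Subgroup G) : Set G) ≤ Subgroup.centralizer ((P : Subgroup G) : Set G))) :
    ∀ s t : G, orderOf s = 2 → orderOf t = 2 → IsConj s t := by
  classical
  haveI : Fact (Nat.Prime 2) := ⟨Nat.prime_two⟩
  have hcomm : ∀ a ∈ P, ∀ b ∈ P, a * b = b * a := by
    intro a ha b hb
    have h1 := hexp _ (P.toSubgroup.mul_mem ha hb)
    have h2 := hexp a ha
    have h3 := hexp b hb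
    calc a * b = a * (a * b * (a * b)) * b := by rw [h1]; group
      _ = (a * a) * (b * a) * (b * b) := by group
      _ = b * a := by rw [h2, h3]; group
  obtain ⟨g, hgn, hgc⟩ := SetLike.not_le_iff_exists.1 hnot
  have hx : pPart 2 g ∈ Subgroup.normalizer ((P : Subgroup G) : Set G) := pPart_mem_of_mem _ hgn
  have hy : pReg 2 g ∈ Subgroup.normalizer ((P : Subgroup G) : Set G) := pReg_mem_of_mem _ hgn
  have hxP : pPart 2 g ∈ P := by
    have hzp : IsPGroup 2 (Subgroup.zpowers (pPart 2 g)) := by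
      obtain ⟨k, hk⟩ := orderOf_pPart (p := 2) g
      rw [IsPGroup.iff_card, Nat.card_zpowers]
      exact ⟨k, hk⟩
    have hfix : P ∈ MulAction.fixedPoints (Subgroup.zpowers (pPart 2 g)) (Sylow 2 G) := by
      rintro ⟨u, hu⟩
      obtain ⟨k, rfl⟩ := Subgroup.mem_zpowers_iff.1 hu
      show ((pPart 2 g) ^ k) • P = P
      rw [Sylow.smul_eq_iff_mem_normalizer]
      exact Subgroup.zpow_mem _ hx k
    exact (hzp.sylow_mem_fixedPoints_iff).1 hfix (Subgroup.mem_zpowers _)
  have hyc : pReg 2 g ∉ Subgroup.centralizer ((P : Subgroup G) : Set G) := by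
    intro h
    apply hgc
    rw [← pPart_mul_pReg (p := 2) g]
    refine Subgroup.mul_mem _ ?_ h
    rw [Subgroup.mem_centralizer_iff]
    intro b hb
    exact hcomm b hb _ hxP
  rw [Subgroup.mem_centralizer_iff] at hyc
  push_neg at hyc
  obtain ⟨a, ha, hay⟩ := hyc
  obtain ⟨y, hydef⟩ : ∃ y, y = pReg 2 g := ⟨_, rfl⟩
  rw [← hydef] at hay hy
  have hyodd : ¬ 2 ∣ orderOf y := by rw [hydef]; exact not_dvd_orderOf_pReg g
  rw [Subgroup.mem_normalizer_iff] at hy
  obtain ⟨b, hb⟩ : ∃ b, b = y * a * y⁻¹ := ⟨_, rfl⟩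
  obtain ⟨c, hc⟩ : ∃ c, c = y * b * y⁻¹ := ⟨_, rfl⟩
  have hbP : b ∈ P := by rw [hb]; exact (hy a).1 ha
  have hcP : c ∈ P := by rw [hc]; exact (hy b).1 hbP
  have ha1 : a ≠ 1 := by
    rintro rfl
    exact hay (by simp)
  have hb1 : b ≠ 1 := by
    rw [hb]
    intro h
    apply ha1
    have : a = y⁻¹ * (y * a * y⁻¹) * y := by group
    rw [this, h]
    group
  have hc1 : c ≠ 1 := by
    rw [hc]
    intro h
    apply hb1
    have : b = y⁻¹ * (y * b * y⁻¹) * y := by group
    rw [this, h]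
    group
  have hba : b ≠ a := by
    rw [hb]
    intro h
    apply hay
    calc a * y = (y * a * y⁻¹) * y := by rw [h]
      _ = y * a := by group
  have hcb : c ≠ b := by
    rw [hc]
    intro h
    apply hba
    have : b = y⁻¹ * (y * b * y⁻¹) * y := by group
    rw [this, h, hb]
    group
  have hca : c ≠ a := by
    intro h
    apply hay
    have h1 : y * y ∈ Subgroup.centralizer ({a} : Set G) := by
      rw [Subgroup.mem_centralizer_singleton_iff]
      have : y * y * a * (y * y)⁻¹ = c := by rw [hc, hb]; group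
      rw [h] at this
      rw [← mul_inv_eq_iff_eq_mul, this]
    have hyo : Odd (orderOf y) := by
      rw [← Nat.not_even_iff_odd]
      exact fun he => hyodd he.two_dvd
    obtain ⟨m, hm⟩ := hyo
    have h2 : y = (y * y) ^ (m + 1) := by
      rw [← sq, ← pow_mul]
      have : 2 * (m + 1) = orderOf y + 1 := by omega
      rw [this, pow_succ, pow_orderOf_eq_one, one_mul]
    have h3 : y ∈ Subgroup.centralizer ({a} : Set G) := by
      rw [h2]
      exact Subgroup.pow_mem _ h1 _
    rw [Subgroup.mem_centralizer_singleton_iff] at h3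
    exact h3.symm
  have huniv : ∀ u ∈ P, u ≠ 1 → u = a ∨ u = b ∨ u = c := by
    intro u hu hu1
    by_contra hne
    push_neg at hne
    have h1 : (({1, a, b, c, u} : Finset G) : Set G) ⊆ ((P : Subgroup G) : Set G) := by
      intro v hv
      simp only [Finset.coe_insert, Finset.coe_singleton, Set.mem_insert_iff, Set.mem_singleton_iff] at hv
      rcases hv with rfl | rfl | rfl | rfl | rfl
      · exact Subgroup.one_mem _
      · exact ha
      · exact hbP
      · exact hcP
      · exact hu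
    have h2 : ({1, a, b, c, u} : Finset G).card = 5 := by
      rw [Finset.card_insert_of_notMem, Finset.card_insert_of_notMem, Finset.card_insert_of_notMem, Finset.card_insert_of_notMem,
        Finset.card_singleton]
      · simp [hne.2.2.symm]
      · simp [hcb.symm, hne.2.1.symm]
      · simp [hba.symm, hca.symm, hne.1.symm]
      · simp [ha1.symm, hb1.symm, hc1.symm, hu1.symm]
    have h3 : (({1, a, b, c, u} : Finset G) : Set G).ncard ≤ ((P : Subgroup G) : Set G).ncard :=
      Set.ncard_le_ncard h1 (Set.toFinite _)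
    rw [Set.ncard_coe_finset, h2] at h3
    have h4 : ((P : Subgroup G) : Set G).ncard = Nat.card P := rfl
    rw [h4, hP] at h3
    omega
  have hconja : ∀ s : G, orderOf s = 2 → IsConj s a := by
    intro s hs
    obtain ⟨w, hw⟩ := exists_conj_mem_sylow (p := 2) P s 1 (by rw [hs]; rfl)
    have hs1 : s ≠ 1 := by
      rintro rfl
      rw [orderOf_one] at hs
      omega
    have hw1 : w * s * w⁻¹ ≠ 1 := by
      intro h
      apply hs1
      have : s = w⁻¹ * (w * s * w⁻¹) * w := by group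
      rw [this, h]
      group
    have h1 : IsConj s (w * s * w⁻¹) := isConj_iff.2 ⟨w, rfl⟩
    have h2 : IsConj b a := (isConj_iff.2 ⟨y, hb.symm⟩ : IsConj a b).symm
    have h3 : IsConj c b := (isConj_iff.2 ⟨y, hc.symm⟩ : IsConj b c).symm
    rcases huniv _ hw hw1 with h | h | h
    · rw [h] at h1
      exact h1
    · rw [h] at h1
      exact h1.trans h2
    · rw [h] at h1
      exact h1.trans (h3.trans h2)
  intro s t hs ht
  exact (hconja s hs).trans (hconja t ht).symm

/-- The transfer case: no normal complement of a Klein four Sylow subgroup of `G/⟨z⟩`. -/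
theorem no_complement_of_quot (z : G) (hz1 : z ≠ 1) (hz2 : z * z = 1) (N : Subgroup G) [hN : N.Normal] (hNz : ∀ g, g ∈ N ↔ g = 1 ∨ g = z)
    (hO : ∀ L : Subgroup G, L.Normal → Odd (Nat.card L) → L = ⊥) (hG : Nat.card G ≠ 8)
    (P : Sylow 2 (G ⧸ N)) (hP : Nat.card P = 4)
    (hC : Subgroup.normalizer ((P : Subgroup (G ⧸ N)) : Set (G ⧸ N)) ≤ Subgroup.centralizer ((P : Subgroup (G ⧸ N)) : Set (G ⧸ N))) :
    False := by
  classical
  haveI : Fact (Nat.Prime 2) := ⟨Nat.prime_two⟩
  have hcardN : Nat.card N = 2 := by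
    have h0 : N = Subgroup.zpowers z := by
      ext g
      rw [hNz, mem_zpowers_involution hz2]
    have h1 : orderOf z = 2 := orderOf_eq_prime (by rw [sq, hz2]) hz1
    rw [h0, Nat.card_zpowers, h1]
  have hcompl := MonoidHom.ker_transferSylow_isComplement' P hC
  have hodd := MonoidHom.not_dvd_card_ker_transferSylow P hC
  obtain ⟨Kb, hKb⟩ : ∃ Kb, Kb = (MonoidHom.transferSylow P hC).ker := ⟨_, rfl⟩
  have hKbn : Kb.Normal := by rw [hKb]; infer_instance
  rw [← hKb] at hcompl hodd
  haveI := hKbn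
  have hc1 : Nat.card Kb * Nat.card P = Nat.card (G ⧸ N) := hcompl.card_mul
  have hc0 : Nat.card G = Nat.card (G ⧸ N) * 2 := by
    rw [Subgroup.card_eq_card_quotient_mul_card_subgroup N, hcardN]
  let K : Subgroup G := Kb.comap (QuotientGroup.mk' N)
  haveI hKn : K.Normal := inferInstance
  have hKi : K.index = Kb.index := Subgroup.index_comap_of_surjective Kb (QuotientGroup.mk'_surjective N)
  have hKbi : Kb.index = 4 := by
    have := Subgroup.card_mul_index Kb
    rw [← hc1, hP] at this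
    have hpos : 0 < Nat.card Kb := Nat.card_pos
    exact Nat.eq_of_mul_eq_mul_left hpos this
  have hKc : Nat.card K = 2 * Nat.card Kb := by
    have h1 := Subgroup.card_mul_index K
    rw [hKi, hKbi, hc0, ← hc1, hP] at h1
    omega
  have hoddKb : Odd (Nat.card Kb) := by
    rw [← Nat.not_even_iff_odd]
    exact fun he => hodd he.two_dvd
  obtain ⟨H, hH⟩ := CfsgLib.Invol.exists_index_two_of_two_mul_odd (G := K) hKc hoddKb
  haveI hHn : H.Normal := Subgroup.normal_of_index_eq_two hH
  have hHc : Nat.card H = Nat.card Kb := by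
    have h1 := Subgroup.card_mul_index H
    rw [hH, hKc] at h1
    omega
  let L : Subgroup G := H.map K.subtype
  have hLc : Nat.card L = Nat.card H := Subgroup.card_map_of_injective K.subtype_injective
  have hLn : L.Normal := ⟨fun n hn g => by
    obtain ⟨⟨m, hmK⟩, hmH, rfl⟩ := Subgroup.mem_map.1 hn
    have hk : g * m * g⁻¹ ∈ K := hKn.conj_mem m hmK g
    refine Subgroup.mem_map.2 ⟨⟨g * m * g⁻¹, hk⟩, ?_, rfl⟩
    apply CfsgLib.Trans.mem_of_coprime_index
    rw [hH]
    have h1 : orderOf (⟨g * m * g⁻¹, hk⟩ : K) = orderOf m := by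
      rw [Subgroup.orderOf_mk]
      exact orderOf_injective (MulAut.conj g).toMonoidHom (MulAut.conj g).injective m
    rw [h1]
    have h2 : orderOf m = orderOf (⟨m, hmK⟩ : K) := by rw [Subgroup.orderOf_mk]
    rw [h2]
    have h3 : orderOf (⟨m, hmK⟩ : K) ∣ Nat.card H := Subgroup.orderOf_dvd_natCard H hmH
    rw [hHc] at h3
    have h4 : Nat.Coprime (Nat.card Kb) 2 := ((Nat.Prime.coprime_iff_not_dvd Nat.prime_two).2 hodd).symm
    exact Nat.Coprime.coprime_dvd_left h3 h4⟩
  have hLbot := hO L hLn (by rw [hLc, hHc]; exact hoddKb)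
  apply hG
  have h1 : Nat.card L = 1 := by rw [hLbot]; simp
  rw [hLc, hHc] at h1
  rw [hc0, ← hc1, h1, hP]

/-- All square roots of a central involution are conjugate. -/
theorem q8_conj_all (z : G) (hz1 : z ≠ 1) (hz2 : z * z = 1) (hzc : ∀ g, z * g = g * z)
    (hO : ∀ L : Subgroup G, L.Normal → Odd (Nat.card L) → L = ⊥) (hG : Nat.card G ≠ 8)
    (Q : Sylow 2 G) (hQ : Nat.card Q = 8) (hzQ : z ∈ Q) (hsq : ∀ t ∈ Q, t * t = 1 ∨ t * t = z)
    (htinv : ∀ t ∈ Q, t * t = z → ∃ s : G, s * t * s⁻¹ = t⁻¹) :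
    ∀ s t : G, s * s = z → t * t = z → IsConj s t := by
  classical
  haveI : Fact (Nat.Prime 2) := ⟨Nat.prime_two⟩
  let N : Subgroup G := Subgroup.zpowers z
  have hNz : ∀ g, g ∈ N ↔ g = 1 ∨ g = z := mem_zpowers_involution hz2
  haveI hN : N.Normal := ⟨fun n hn g => by
    rw [hNz] at hn ⊢
    rcases hn with rfl | rfl
    · left; simp
    · right; rw [← hzc g]; group⟩
  obtain ⟨P, hP1, hP2⟩ := q8_quot_data z hz1 hz2 N hNz Q hQ hzQ hsq
  have hnot : ¬ (Subgroup.normalizer ((P : Subgroup (G ⧸ N)) : Set (G ⧸ N)) ≤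
      Subgroup.centralizer ((P : Subgroup (G ⧸ N)) : Set (G ⧸ N))) :=
    fun hC => no_complement_of_quot z hz1 hz2 N hNz hO hG P hP1 hC
  have hbar := v4_transitive P hP1 hP2 hnot
  have hord : ∀ u : G, u * u = z → orderOf (u : G ⧸ N) = 2 := by
    intro u hu
    refine orderOf_eq_prime ?_ ?_
    · rw [sq, ← QuotientGroup.mk_mul, hu]
      exact (QuotientGroup.eq_one_iff _).2 ((hNz z).2 (Or.inr rfl))
    · intro h
      rcases (hNz u).1 ((QuotientGroup.eq_one_iff _).1 h) with h' | h'
      · apply hz1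
        rw [← hu, h', one_mul]
      · have h'' := hu
        rw [h', hz2] at h''
        exact hz1 h''.symm
  have hinvconj : ∀ t : G, t * t = z → IsConj t t⁻¹ := by
    intro t ht
    have h4 : t ^ 4 = 1 := by
      have : t ^ 4 = (t * t) * (t * t) := by
        rw [show 4 = 2 + 2 from rfl, pow_add, sq]
      rw [this, ht, hz2]
    obtain ⟨k, _, hk⟩ := (Nat.dvd_prime_pow Nat.prime_two).1 (orderOf_dvd_of_pow_eq_one (show t ^ (2 ^ 2) = 1 from h4))
    obtain ⟨w, hw⟩ := exists_conj_mem_sylow (p := 2) Q t k hk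
    have h1 : (w * t * w⁻¹) * (w * t * w⁻¹) = z := by
      have : (w * t * w⁻¹) * (w * t * w⁻¹) = w * (t * t) * w⁻¹ := by group
      rw [this, ht, ← hzc w]
      group
    obtain ⟨s, hs⟩ := htinv _ hw h1
    have h2 : IsConj t (w * t * w⁻¹) := isConj_iff.2 ⟨w, rfl⟩
    have h3 : IsConj (w * t * w⁻¹) (w * t * w⁻¹)⁻¹ := isConj_iff.2 ⟨s, hs⟩
    have h5 : IsConj (w * t * w⁻¹)⁻¹ t⁻¹ := by
      refine isConj_iff.2 ⟨w⁻¹, ?_⟩
      group
    exact h2.trans (h3.trans h5)
  intro s t hs ht
  obtain ⟨c, hc⟩ := isConj_iff.1 (hbar _ _ (hord s hs) (hord t ht))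
  obtain ⟨c', rfl⟩ := QuotientGroup.mk_surjective c
  have h1 : ((c' * s * c'⁻¹ : G) : G ⧸ N) = (t : G ⧸ N) := hc
  rcases (hNz _).1 (QuotientGroup.eq.1 h1) with h | h
  · rw [inv_mul_eq_one] at h
    exact isConj_iff.2 ⟨c', h⟩
  · have h2 : t = (c' * s * c'⁻¹) * z := by rw [← h]; group
    have h3 : c' * s * c'⁻¹ = t⁻¹ := by
      have h5 : t * z = (c' * s * c'⁻¹) := by
        rw [h2]
        rw [mul_assoc, hz2, mul_one]
      have h6 : t * t * t * t = 1 := by rw [ht, mul_assoc, ht, hz2]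
      rw [← h5, ← ht]
      rw [eq_inv_iff_mul_eq_one]
      rw [← h6]
      group
    have h7 : IsConj s t⁻¹ := isConj_iff.2 ⟨c', h3⟩
    exact h7.trans (hinvconj t ht).symm

theorem q8_conj_le_sylow {p : ℕ} [Fact p.Prime] (P : Sylow p G) (Q : Subgroup G) (hQ : IsPGroup p Q) :
    ∃ w : G, ∀ τ ∈ Q, w * τ * w⁻¹ ∈ P := by
  obtain ⟨R, hR⟩ := hQ.exists_le_sylow
  obtain ⟨w, hw⟩ := MulAction.exists_smul_eq G R P
  refine ⟨w, fun s hs => ?_⟩
  rw [← hw]
  have h1 : s ∈ R := hR hs
  show w * s * w⁻¹ ∈ ((w • R : Sylow p G) : Subgroup G)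
  rw [Sylow.coe_subgroup_smul, Subgroup.mem_pointwise_smul_iff_inv_smul_mem]
  simp [MulAut.smul_def, MulAut.conj_apply, mul_assoc]
  exact h1

/-- The centralizer of an element of order `4` has a normal `2`-complement. -/
theorem complement_centralizer_q8 (z x : G) (hzc : ∀ g, z * g = g * z) (hxx : x * x = z) (hz2 : z * z = 1)
    (Q : Sylow 2 G)
    (hcent : ∀ t ∈ Q, ∀ u ∈ Q, t * t = z → u * t = t * u → u = 1 ∨ u = z ∨ u = t ∨ u = t⁻¹)
    (hk : orderOf x = 2 ^ 2) :
    HasNormalPComplement 2 (Subgroup.centralizer ({x} : Set G)) := by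
  classical
  haveI : Fact (Nat.Prime 2) := ⟨Nat.prime_two⟩
  let C := Subgroup.centralizer ({x} : Set G)
  have hxC : x ∈ C := by
    rw [Subgroup.mem_centralizer_singleton_iff]
  have hzp : IsPGroup 2 (Subgroup.zpowers (⟨x, hxC⟩ : C)) := by
    rw [IsPGroup.iff_card, Nat.card_zpowers, Subgroup.orderOf_mk]
    exact ⟨2, hk⟩
  obtain ⟨T, hT⟩ := hzp.exists_le_sylow
  have hxT : (⟨x, hxC⟩ : C) ∈ T := hT (Subgroup.mem_zpowers _)
  have hT' : IsPGroup 2 ((T : Subgroup C).map C.subtype) := T.isPGroup'.map C.subtype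
  obtain ⟨w, hw⟩ := q8_conj_le_sylow Q _ hT'
  have hmemT : ∀ τ : C, τ ∈ T → (τ : G) ∈ (T : Subgroup C).map C.subtype := by
    intro τ hτ
    exact Subgroup.mem_map.2 ⟨τ, hτ, rfl⟩
  have hy : w * x * w⁻¹ ∈ Q := hw x (hmemT _ hxT)
  have hyy : (w * x * w⁻¹) * (w * x * w⁻¹) = z := by
    have : (w * x * w⁻¹) * (w * x * w⁻¹) = w * (x * x) * w⁻¹ := by group
    rw [this, hxx, ← hzc w]
    group
  have hall : ∀ τ : C, τ ∈ T → (τ : G) = 1 ∨ (τ : G) = z ∨ (τ : G) = x ∨ (τ : G) = x⁻¹ := by
    intro τ hτ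
    have hτc : (τ : G) * x = x * τ := by
      have := τ.2
      rw [Subgroup.mem_centralizer_singleton_iff] at this
      exact this
    have h1 := hw _ (hmemT τ hτ)
    have h2 : (w * (τ : G) * w⁻¹) * (w * x * w⁻¹) = (w * x * w⁻¹) * (w * (τ : G) * w⁻¹) := by
      have e1 : (w * (τ : G) * w⁻¹) * (w * x * w⁻¹) = w * ((τ : G) * x) * w⁻¹ := by group
      have e2 : (w * x * w⁻¹) * (w * (τ : G) * w⁻¹) = w * (x * (τ : G)) * w⁻¹ := by group
      rw [e1, e2, hτc]
    have hcancel : ∀ a b : G, w * a * w⁻¹ = w * b * w⁻¹ → a = b := by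
      intro a b h
      simpa using h
    rcases hcent _ hy _ h1 hyy h2 with h | h | h | h
    · left
      apply hcancel
      rw [h]
      group
    · right; left
      apply hcancel
      rw [h, ← hzc w]
      group
    · right; right; left
      exact hcancel _ _ h
    · right; right; right
      apply hcancel
      rw [h]
      group
  have hcomm : ∀ τ : C, τ ∈ T → ∀ u : C, τ * u = u * τ := by
    intro τ hτ u
    apply Subtype.ext
    have hu : (u : G) * x = x * u := by
      have := u.2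
      rw [Subgroup.mem_centralizer_singleton_iff] at this
      exact this
    show (τ : G) * (u : G) = (u : G) * (τ : G)
    rcases hall τ hτ with h | h | h | h <;> rw [h]
    · simp
    · exact hzc _
    · exact hu.symm
    · have : x⁻¹ * (u : G) = x⁻¹ * ((u : G) * x) * x⁻¹ := by group
      rw [this, hu]
      group
  have hN : Subgroup.normalizer ((T : Subgroup C) : Set C) ≤ Subgroup.centralizer ((T : Subgroup C) : Set C) := by
    intro u _
    rw [Subgroup.mem_centralizer_iff]
    intro τ hτ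
    exact hcomm τ hτ u
  exact ⟨T, _, inferInstance, MonoidHom.ker_transferSylow_isComplement' T hN⟩

/-- Transfer to a centralizer of a central element. -/
theorem rank_centralizer_q8 {M : Ideal AlgInt} (hM : IsPModular 2 M) (y : G) (hy : ∀ g, y * g = g * y)
    (ζ : G) (hζ1 : ζ ≠ 1) (hζ2 : ζ * ζ = 1)
    (hζc : ∀ g, ζ * g = g * ζ) (hinv : ∀ t : G, t * t = 1 → t = 1 ∨ t = ζ) (Q : Sylow 2 G) (hQ : Nat.card Q = 8)
    (hsq : ∀ t ∈ Q, t * t = 1 ∨ t * t = ζ) (hconj : ∀ s t : G, s * s = ζ → t * t = ζ → IsConj s t) :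
    blockRank 2 (principalBlock M (Subgroup.centralizer ({y} : Set G))) = 3 := by
  classical
  haveI : Fact (Nat.Prime 2) := ⟨Nat.prime_two⟩
  have hmem : ∀ g : G, g ∈ Subgroup.centralizer ({y} : Set G) := by
    intro g
    rw [Subgroup.mem_centralizer_singleton_iff]
    exact (hy g).symm
  have hle : (Q : Subgroup G) ≤ Subgroup.centralizer ({y} : Set G) := fun g _ => hmem g
  refine rank_three_of_q8 hM ⟨ζ, hmem ζ⟩ ?_ ?_ ?_ ?_ (Q.subtype hle) ?_ ?_ ?_
  · intro h
    exact hζ1 (congrArg Subtype.val h)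
  · exact Subtype.ext hζ2
  · intro g
    exact Subtype.ext (hζc g)
  · intro t ht
    rcases hinv t (congrArg Subtype.val ht) with h | h
    · exact Or.inl (Subtype.ext h)
    · exact Or.inr (Subtype.ext h)
  · rw [Sylow.coe_subtype]
    rw [← hQ]
    exact Nat.card_congr (Subgroup.subgroupOfEquivOfLe hle).toEquiv
  · intro t ht
    have ht' : (t : G) ∈ Q := by
      have h1 : t ∈ ((Q.subtype hle : Sylow 2 _) : Subgroup _) := ht
      rw [Sylow.coe_subtype] at h1
      exact Subgroup.mem_subgroupOf.1 h1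
    rcases hsq _ ht' with h | h
    · exact Or.inl (Subtype.ext h)
    · exact Or.inr (Subtype.ext h)
  · intro s t hs ht
    obtain ⟨c, hc⟩ := isConj_iff.1 (hconj s t (congrArg Subtype.val hs) (congrArg Subtype.val ht))
    exact isConj_iff.2 ⟨⟨c, hmem c⟩, Subtype.ext hc⟩

theorem q8_sq : ∀ t : QuaternionGroup 2, t * t = 1 ∨ t * t = QuaternionGroup.a 2 := by decide +kernel

theorem q8_inv : ∀ t : QuaternionGroup 2, t * t = 1 → t = 1 ∨ t = QuaternionGroup.a 2 := by decide +kernel

theorem q8_conj : ∀ t : QuaternionGroup 2, t * t = QuaternionGroup.a 2 → ∃ s : QuaternionGroup 2, s * t * s⁻¹ = t⁻¹ := by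
  decide +kernel

theorem q8_cent : ∀ t u : QuaternionGroup 2, t * t = QuaternionGroup.a 2 → u * t = t * u →
    u = 1 ∨ u = QuaternionGroup.a 2 ∨ u = t ∨ u = t⁻¹ := by
  decide +kernel

theorem q8_a1 : (QuaternionGroup.a 1 : QuaternionGroup 2) * QuaternionGroup.a 1 = QuaternionGroup.a 2 := by decide +kernel

theorem q8_a2 : (QuaternionGroup.a 2 : QuaternionGroup 2) ≠ 1 := by decide +kernel

end Fusion

end CfsgLib.Block
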