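import Cfsg.Agent.Lib.Block.Col
import Cfsg.Agent.Lib.Char.ItoMichler2

/-! # Rank versus number of characters of a block -/

set_option autoImplicit false
set_option linter.unusedSectionVars false
set_option linter.unusedVariables false

namespace CfsgLib.Block

open Cfsg CfsgLib.Char
open scoped ComplexConjugate Pointwise

universe u

section

variable {G : Type u} [Group G] [Fintype G] {p : ℕ} [hp : Fact p.Prime] {M : Ideal AlgInt}

theorem blockRank_le_card (B : Set (IrrCharacter G)) : blockRank p B ≤ Nat.card B := by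
  classical
  letI : Fintype ↥B := Fintype.ofFinite _
  rw [blockRank, Set.image_eq_range]
  have h := finrank_range_le_card (R := ℂ) (fun χ : ↥B => pRegularPart p ((χ : IrrCharacter G) : G → ℂ))
  rw [Set.finrank, Fintype.card_eq_nat_card] at h
  exact h

theorem vanish_of_rank_eq (hM : IsPModular p M) {B : Set (IrrCharacter G)} (hB : IsPBlock M B)
    (h : Nat.card B = blockRank p B) {χ : IrrCharacter G} (hχ : χ ∈ B) {y : G} (hy : p ∣ orderOf y) : (χ : G → ℂ) y = 0 := by
  classical
  letI : Fintype ↥B := Fintype.ofFinite _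
  have hli : LinearIndependent ℂ (fun χ : ↥B => pRegularPart p ((χ : IrrCharacter G) : G → ℂ)) := by
    rw [linearIndependent_iff_card_eq_finrank_span, Fintype.card_eq_nat_card, h, blockRank, Set.finrank, Set.image_eq_range]
  have hsum : ∑ θ : ↥B, conj ((θ : G → ℂ) y) • pRegularPart p ((θ : IrrCharacter G) : G → ℂ) = 0 := by
    funext g
    simp only [Finset.sum_apply, Pi.smul_apply, smul_eq_mul, Pi.zero_apply, pRegularPart_eq_regPart]
    by_cases hg : p ∣ orderOf g
    · simp [regPart_of_singular _ hg]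
    · simp only [regPart_of_regular _ hg]
      have hxg : IsPPart p g 1 := by
        have := isPPart_pPart (p := p) g
        rwa [pPart_of_regular hg] at this
      have hne : ¬ IsConj (1 : G) (pPart p y) := by
        intro hc
        have h1 : pPart p y = 1 := by
          exact isConj_one_right.1 hc
        obtain ⟨u, hu, -⟩ := isPPart_pPart (p := p) y
        have h2 := pPart_mul_pReg (p := p) y
        rw [h1, one_mul] at h2
        have h3 := not_dvd_orderOf_pReg (p := p) y
        rw [h2] at h3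
        exact h3 hy
      have h4 := block_orthogonality hM hB hxg (isPPart_pPart (p := p) y) hne
      rw [← Finset.sum_filter] at h4
      have h5 := Finset.sum_subtype (F := (inferInstance : Fintype ↥B)) (Finset.univ.filter (· ∈ B)) (p := (· ∈ B)) (by simp) (fun θ : IrrCharacter G => (θ : G → ℂ) g * conj ((θ : G → ℂ) y))
      rw [h4] at h5
      rw [Finset.sum_congr rfl (fun θ _ => mul_comm _ _)]
      exact h5.symm
  have h1 := Fintype.linearIndependent_iff.1 hli _ hsum ⟨χ, hχ⟩
  simpa using h1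

theorem defect_zero_of_rank_eq (hM : IsPModular p M) {B : Set (IrrCharacter G)} (hB : IsPBlock M B)
    (h : Nat.card B = blockRank p B) : blockDefect p B = 0 := by
  classical
  have hP := hM.isPrime
  rw [blockDefect]
  apply Nat.sub_eq_zero_of_le
  obtain ⟨θ₀, hθ₀⟩ := IsPBlock.nonempty hP hB
  apply le_csInf (Set.Nonempty.image _ ⟨θ₀, hθ₀⟩)
  rintro _ ⟨θ, hθ, rfl⟩
  have hdeg : charDegree (θ : G → ℂ) ≠ 0 := charDegree_ne_zero θ.2
  have hd := pow_dvd_degree_of_vanish (p := p) θ.2.isCharacter (fun g hg => vanish_of_rank_eq hM hB h hθ hg)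
  exact (hp.out.pow_dvd_iff_le_factorization hdeg).1 hd

theorem s4733 (hM : IsPModular p M) {B : Set (IrrCharacter G)} (hB : IsPBlock M B) :
    blockRank p B ≤ Nat.card B ∧ (blockDefect p B = 0 ↔ (Nat.card B = 1 ∧ blockRank p B = 1)) ∧
      (blockDefect p B = 0 ↔ Nat.card B = blockRank p B) := by
  classical
  have hfwd : blockDefect p B = 0 → Nat.card B = 1 ∧ blockRank p B = 1 := by
    intro h0
    obtain ⟨D, hD⟩ := exists_defectGroup hM hB
    have hc := card_defectGroup hM hB hD
    rw [h0, pow_zero] at hc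
    have hbot : D = ⊥ := Subgroup.eq_bot_of_card_eq D hc
    subst hbot
    have hCD : CD p (⊥ : Subgroup G) := by
      refine ⟨IsPGroup.of_bot, ?_⟩
      rw [eq_top_iff]
      intro g _
      refine Subgroup.mem_sup_right ?_
      rw [Subgroup.mem_centralizer_iff]
      intro h hh
      have : h = 1 := hh
      simp [this]
    obtain ⟨-, -, h3⟩ := s0968 hM hCD hB hD
    refine ⟨?_, blockRank_eq_one_of_cd hM hCD hB hD⟩
    rw [h3]
    haveI : Subsingleton (ConjClasses (⊥ : Subgroup G)) := by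
      constructor
      intro a b
      obtain ⟨a, rfl⟩ := ConjClasses.mk_surjective a
      obtain ⟨b, rfl⟩ := ConjClasses.mk_surjective b
      rw [Subsingleton.elim a b]
    haveI : Nonempty (ConjClasses (⊥ : Subgroup G)) := ⟨ConjClasses.mk 1⟩
    exact Nat.card_of_subsingleton (ConjClasses.mk 1)
  refine ⟨blockRank_le_card B, ⟨hfwd, ?_⟩, ⟨?_, defect_zero_of_rank_eq hM hB⟩⟩
  · rintro ⟨h1, h2⟩
    exact defect_zero_of_rank_eq hM hB (by rw [h1, h2])
  · intro h0
    obtain ⟨h1, h2⟩ := hfwd h0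
    rw [h1, h2]

end

section PSolvHeight

variable {G : Type u} [Group G] [Fintype G] {p : ℕ} [hp : Fact p.Prime] {M : Ideal AlgInt}

theorem s4736 (hM : IsPModular p M) (hsolv : IsPSolvable p G) (P : Sylow p G) :
    IsMulCommutative P ↔ ∀ χ ∈ principalBlock M G, blockHeight p (principalBlock M G) (χ : G → ℂ) = 0 := by
  classical
  have hPr := hM.isPrime
  set N := pPrimeCore p G with hN
  haveI hNn : N.Normal := CfsgLib.Solv.pPrimeCore_normal' p
  have hNp : ¬ p ∣ Nat.card N :=
    fun hd => (Nat.Prime.coprime_iff_not_dvd hp.out).1 (CfsgLib.Solv.pPrimeCore_coprime p).symm hd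
  letI : Fintype (G ⧸ N) := Fintype.ofFinite _
  have hsolv' : IsPSolvable p (G ⧸ N) := CfsgLib.PSolv.quotient hp.out hsolv N
  have hcore : pPrimeCore p (G ⧸ N) = ⊥ := CfsgLib.Solv.pPrimeCore_quotient_eq_bot p
  let Pb : Sylow p (G ⧸ N) := P.mapSurjective (QuotientGroup.mk'_surjective N)
  have hPb : (Pb : Subgroup (G ⧸ N)) = (P : Subgroup G).map (QuotientGroup.mk' N) := rfl
  have hiff := normal_abelian_sylow_iff_of_pSolvable p hsolv' Pb
  have hht : ∀ χ ∈ principalBlock M G, (blockHeight p (principalBlock M G) (χ : G → ℂ) = 0 ↔ ¬ p ∣ charDegree (χ : G → ℂ)) := by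
    intro χ hχ
    rw [blockHeight_eq_zero_iff hχ, minNu_principal hPr]
    have h0 : charDegree (χ : G → ℂ) ≠ 0 := charDegree_ne_zero χ.2
    rw [Nat.factorization_eq_zero_iff]
    simp [hp.out, h0]
  have hdeg_infl : ∀ χ : IrrCharacter (G ⧸ N), charDegree ((inflIrr N χ : IrrCharacter G) : G → ℂ) = charDegree (χ : G ⧸ N → ℂ) := by
    intro χ
    rw [inflIrr_coe, charDegree, charDegree]
    simp
  constructor
  · intro hc χ hχ
    rw [hht χ hχ]
    obtain ⟨χb, rfl⟩ := exists_descend (N := N) (θ := χ) (fun n hn => principal_ker hM N hNp hχ hn)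
    rw [hdeg_infl]
    refine hiff.1 ⟨?_, ?_⟩ χb
    · -- the Sylow subgroup of the quotient is normal
      have hcomm : ∀ a ∈ (Pb : Subgroup (G ⧸ N)), ∀ b ∈ (Pb : Subgroup (G ⧸ N)), a * b = b * a := by
        rintro _ ⟨a, ha, rfl⟩ _ ⟨b, hb, rfl⟩
        have : a * b = b * a := congrArg Subtype.val (hc.is_comm.comm (⟨a, ha⟩ : P) ⟨b, hb⟩)
        show ((a : G ⧸ N) * (b : G ⧸ N)) = (b : G ⧸ N) * (a : G ⧸ N)
        rw [← QuotientGroup.mk_mul, this, QuotientGroup.mk_mul]
      have hQ : (pCore p (G ⧸ N)) ≤ (Pb : Subgroup (G ⧸ N)) := CfsgLib.PLocal.pCore_le_sylow Pb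
      have hle : (Pb : Subgroup (G ⧸ N)) ≤ pCore p (G ⧸ N) := by
        refine le_trans ?_ (CfsgLib.PSolv.centralizer_pCore_le hsolv' hcore)
        intro a ha
        rw [Subgroup.mem_centralizer_iff]
        intro b hb
        exact hcomm b (hQ hb) a ha
      rw [le_antisymm hle hQ]
      exact CfsgLib.Solv.pCore_normal' p
    · refine ⟨⟨?_⟩⟩
      rintro ⟨_, a, ha, rfl⟩ ⟨_, b, hb, rfl⟩
      apply Subtype.ext
      have : a * b = b * a := congrArg Subtype.val (hc.is_comm.comm (⟨a, ha⟩ : P) ⟨b, hb⟩)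
      show ((a : G ⧸ N) * (b : G ⧸ N)) = (b : G ⧸ N) * (a : G ⧸ N)
      rw [← QuotientGroup.mk_mul, this, QuotientGroup.mk_mul]
  · intro hall
    have hdeg : ∀ χ : IrrCharacter (G ⧸ N), ¬ p ∣ charDegree (χ : G ⧸ N → ℂ) := by
      intro χ
      have hmem : inflIrr N χ ∈ principalBlock M G := by
        have h1 := single_block_of_pSolvable hM hsolv' hcore (oneIrr (G ⧸ N)) χ
        have h2 := sameBlock_infl N hPr h1
        exact h2
      have := (hht _ hmem).1 (hall _ hmem)
      rwa [hdeg_infl] at this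
    obtain ⟨-, hcb⟩ := hiff.2 hdeg
    refine ⟨⟨?_⟩⟩
    rintro ⟨a, ha⟩ ⟨b, hb⟩
    apply Subtype.ext
    show a * b = b * a
    have h1 := hcb.is_comm.comm (⟨(a : G ⧸ N), ⟨a, ha, rfl⟩⟩ : Pb) ⟨(b : G ⧸ N), ⟨b, hb, rfl⟩⟩
    have h2 : (a : G ⧸ N) * (b : G ⧸ N) = (b : G ⧸ N) * (a : G ⧸ N) := congrArg Subtype.val h1
    rw [← QuotientGroup.mk_mul, ← QuotientGroup.mk_mul, QuotientGroup.eq] at h2
    -- `(a * b)⁻¹ * (b * a)` lies in `N ∩ P`, which is trivial
    have h3 : (a * b)⁻¹ * (b * a) ∈ (P : Subgroup G) :=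
      (P : Subgroup G).mul_mem ((P : Subgroup G).inv_mem ((P : Subgroup G).mul_mem ha hb)) ((P : Subgroup G).mul_mem hb ha)
    obtain ⟨k, hk⟩ := IsPGroup.iff_orderOf.1 P.isPGroup' ⟨_, h3⟩
    rw [Subgroup.orderOf_mk] at hk
    have h4 : orderOf ((a * b)⁻¹ * (b * a)) ∣ Nat.card N := by
      have := Subgroup.orderOf_dvd_natCard N h2
      exact this
    have h5 : orderOf ((a * b)⁻¹ * (b * a)) = 1 := by
      rcases k with _ | k
      · simpa using hk
      · exfalso
        rw [hk] at h4
        exact hNp ((dvd_pow_self p (Nat.succ_ne_zero k)).trans h4)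
    have h6 := orderOf_eq_one_iff.1 h5
    exact inv_mul_eq_one.1 h6

end PSolvHeight

end CfsgLib.Block
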