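import Cfsg.Agent.Lib.Block.Knorr
import Cfsg.Agent.Lib.Block.HtBd
import Cfsg.Agent.Lib.Char.Sums5

/-! # Height-zero characters with large stabilizers -/

set_option autoImplicit false
set_option linter.unusedSectionVars false
set_option linter.unusedVariables false

namespace CfsgLib.Block

open Cfsg CfsgLib.Char
open scoped ComplexConjugate Pointwise

universe u v

theorem minNu_setT' {H : Type u} {K : Type v} [Group H] [Group K] [Finite H] [Finite K] (p : ℕ) (φ : H ≃* K) (f : Set (IrrCharacter H)) :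
    minNu p (setT φ f) = minNu p f := by
  unfold minNu
  congr 1
  ext n
  constructor
  · rintro ⟨ξ, hξ, rfl⟩
    refine ⟨(irrT φ).symm ξ, hξ, ?_⟩
    show (charDegree ((irrT φ).symm ξ : H → ℂ)).factorization p = (charDegree (ξ : K → ℂ)).factorization p
    rw [← charDegree_irrT φ ((irrT φ).symm ξ), Equiv.apply_symm_apply]
  · rintro ⟨ξ, hξ, rfl⟩
    refine ⟨irrT φ ξ, (irrT_mem_setT φ).2 hξ, ?_⟩
    show (charDegree (irrT φ ξ : K → ℂ)).factorization p = _
    rw [charDegree_irrT]

theorem stab_core {Y : Type u} [Group Y] [Fintype Y] {p : ℕ} [hp : Fact p.Prime] {M : Ideal AlgInt} (hM : IsPModular p M)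
    (N : Subgroup Y) [hN : N.Normal] [Fintype N] {k : ℕ} (hk : N.index = p ^ k)
    {c : Set (IrrCharacter N)} (hc : IsPBlock M c) (hst : IsStable N c) :
    ∃ τ ∈ c, (charDegree (τ : N → ℂ)).factorization p = minNu p c ∧ ∀ g : Y, conjOn N g (τ : N → ℂ) = τ := by
  classical
  have hPr := hM.isPrime
  obtain ⟨B, hB, hfB⟩ := exists_block_of_pIndex N hM hk hc hst
  obtain ⟨D, hD⟩ := exists_defectGroup hM hB
  obtain ⟨hDc, h2⟩ := knorr_defect N hM hc hst hB hfB hD
  have hsup : N ⊔ D = ⊤ := by
    have h3 : (N ⊔ D).index ∣ N.index := Subgroup.index_dvd_of_le le_sup_left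
    rw [hk] at h3
    obtain ⟨j, -, hj⟩ := (Nat.dvd_prime_pow hp.out).1 h3
    rw [Subgroup.index_eq_one.symm]
    rw [hj] at h2 ⊢
    cases j with
    | zero => rfl
    | succ j => exact absurd (dvd_pow_self p (Nat.succ_ne_zero j)) h2
  have hcard : Nat.card Y * Nat.card (D.subgroupOf N) = Nat.card N * Nat.card D := by
    have r1 : N.relIndex D = N.index := by
      rw [← Subgroup.relIndex_sup_right D N, sup_comm, hsup, Subgroup.relIndex_top_right]
    have r2 : N.relIndex D * Nat.card (N.subgroupOf D) = Nat.card D := Subgroup.index_mul_card _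
    have r3 : N.index * Nat.card N = Nat.card Y := Subgroup.index_mul_card _
    have r4 : Nat.card (N.subgroupOf D) = Nat.card (D.subgroupOf N) := Nat.card_congr
      { toFun := fun x => ⟨⟨x.1.1, Subgroup.mem_subgroupOf.1 x.2⟩, Subgroup.mem_subgroupOf.2 x.1.2⟩
        invFun := fun y => ⟨⟨y.1.1, Subgroup.mem_subgroupOf.1 y.2⟩, Subgroup.mem_subgroupOf.2 y.1.2⟩
        left_inv := fun _ => rfl
        right_inv := fun _ => rfl }
    rw [← r3, ← r2, r1, r4]
    ring
  have hBd := card_defectGroup hM hB hD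
  have hcd := card_defectGroup hM hc hDc
  rw [hBd, hcd] at hcard
  have hpow : ∀ j : ℕ, (p ^ j).factorization p = j := fun j => by
    simp [hp.out.factorization_self]
  have hmul : ∀ a j : ℕ, a ≠ 0 → (a * p ^ j).factorization p = a.factorization p + j := by
    intro a j ha
    rw [Nat.factorization_mul ha (pow_ne_zero _ hp.out.ne_zero), Finsupp.add_apply, hpow]
  have hf : (Nat.card Y * p ^ blockDefect p c).factorization p = (Nat.card N * p ^ blockDefect p B).factorization p := by rw [hcard]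
  rw [hmul _ _ Nat.card_pos.ne', hmul _ _ Nat.card_pos.ne', blockDefect_eq, blockDefect_eq] at hf
  have hmB := minNu_le_card hM hB
  have hmc := minNu_le_card hM hc
  have hmm : minNu p B = minNu p c := by omega
  have hne : ((fun χ : IrrCharacter Y => (charDegree (χ : Y → ℂ)).factorization p) '' B).Nonempty :=
    (IsPBlock.nonempty hPr hB).image _
  obtain ⟨χ, hχ, hχν⟩ := Nat.sInf_mem hne
  have hχν' : (charDegree (χ : Y → ℂ)).factorization p = minNu p B := hχν
  obtain ⟨τ, hτ⟩ := exists_constituent_irr N χ.2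
  have hτc : τ ∈ c := by
    have h1 := om_incl_fB N hst χ.2 hτ
    rw [← hfB, om_fB, if_pos hχ] at h1
    by_contra hm
    rw [if_neg hm] at h1
    exact one_ne_zero h1
  obtain ⟨e, he⟩ := (χ.2.isCharacter.restrict N).classInner_nat τ.2
  have hdeg : charDegree (χ : Y → ℂ) = e * (conjOrbit N (τ : N → ℂ)).card * charDegree (τ : N → ℂ) := by
    have h1 := clifford N χ.2 τ.2 hτ
    have h2 := congrFun h1 1
    simp only [Pi.smul_apply, Finset.sum_apply, smul_eq_mul, OneMemClass.coe_one] at h2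
    have h3 : ∀ ψ ∈ conjOrbit N (τ : N → ℂ), ψ 1 = (τ : N → ℂ) 1 := by
      intro ψ hψ
      obtain ⟨g, rfl⟩ := (mem_conjOrbit N).mp hψ
      simp only [conjOn_apply]
      refine congrArg (τ : N → ℂ) (Subtype.ext ?_)
      simp
    rw [Finset.sum_congr rfl h3, Finset.sum_const, nsmul_eq_mul, he] at h2
    have h4 : (charDegree (χ : Y → ℂ) : ℂ) = ((e * (conjOrbit N (τ : N → ℂ)).card * charDegree (τ : N → ℂ) : ℕ) : ℂ) := by
      push_cast
      rw [coe_charDegree χ.2.isCharacter, coe_charDegree τ.2.isCharacter, h2]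
      ring
    exact_mod_cast h4
  have he0 : e ≠ 0 := by
    rintro rfl
    apply hτ
    rw [he]
    simp
  have hself : (τ : N → ℂ) ∈ conjOrbit N (τ : N → ℂ) := (mem_conjOrbit N).2 ⟨1, (conjOn_one N _).symm⟩
  have hcd0 : (conjOrbit N (τ : N → ℂ)).card ≠ 0 := Finset.card_ne_zero_of_mem hself
  have hτ0 : charDegree (τ : N → ℂ) ≠ 0 := by
    intro h0
    have h1 := coe_charDegree τ.2.isCharacter
    rw [h0] at h1
    exact τ.2.map_one_ne_zero (by simpa using h1.symm)
  have hdvd := card_conjOrbit_dvd_index N τ.2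
  rw [hk] at hdvd
  obtain ⟨j, -, hj⟩ := (Nat.dvd_prime_pow hp.out).1 hdvd
  have hfac : (charDegree (χ : Y → ℂ)).factorization p = (e * (conjOrbit N (τ : N → ℂ)).card * charDegree (τ : N → ℂ)).factorization p := by rw [← hdeg]
  rw [Nat.factorization_mul (mul_ne_zero he0 hcd0) hτ0, Nat.factorization_mul he0 hcd0, Finsupp.add_apply, Finsupp.add_apply, hj, hpow, hχν', hmm] at hfac
  have hle := minNu_le (p := p) hτc
  have hj0 : j = 0 := by omega
  refine ⟨τ, hτc, by omega, fun g => ?_⟩
  have hcard1 : (conjOrbit N (τ : N → ℂ)).card ≤ 1 := by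
    rw [hj, hj0, pow_zero]
  exact Finset.card_le_one.1 hcard1 _ ((mem_conjOrbit N).2 ⟨g, rfl⟩) _ hself

end CfsgLib.Block
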