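import Cfsg.Agent.Lib.Block.V4B3

/-! # Blocks with a Klein four defect group: the main theorem -/

set_option autoImplicit false
set_option linter.unusedSectionVars false
set_option linter.unusedVariables false

namespace CfsgLib.Block

open Cfsg CfsgLib.Char
open scoped ComplexConjugate Pointwise

universe u

section TermOne

variable {G : Type u} [Group G] [Fintype G] {H : Subgroup G} [Fintype H] {p : ℕ} [hp : Fact p.Prime] {M : Ideal AlgInt} (hM : IsPModular p M)

/-- A subgroup containing every element is a copy of the group. -/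
noncomputable def topIso (hH : ∀ g, g ∈ H) : G ≃* H where
  toFun g := ⟨g, hH g⟩
  invFun h := h
  left_inv _ := rfl
  right_inv _ := rfl
  map_mul' _ _ := rfl

include hM

theorem isInduced_top (hH : ∀ g, g ∈ H) {A : Set (IrrCharacter G)} (hA : IsPBlock M A) :
    IsInducedBlock M H (setT (topIso hH) A) A := by
  classical
  have hP := hM.isPrime
  obtain ⟨χ₀, hχ₀⟩ := IsPBlock.nonempty hP hA
  refine isInducedBlock_of_mem hP (isPBlock_setT _ hA) hA ((irrT_mem_setT _).2 hχ₀) hχ₀ fun g => ?_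
  have hval : ∀ h : H, (irrT (topIso hH) χ₀ : H → ℂ) h = (χ₀ : G → ℂ) h := fun h => rfl
  have h : inducedCentralChar H (irrT (topIso hH) χ₀ : H → ℂ) g = centralChar (χ₀ : G → ℂ) g := by
    rw [← om_res_cSum, ← om_cSum χ₀.2, om, om, hat, hat, hval 1]
    congr 1
    · rw [sum_subgroup_eq H _ (fun x hx => absurd (hH x) hx)]
      exact Finset.sum_congr rfl fun h _ => rfl
  rw [h, sub_self]
  exact zero_mem _

open Classical in
theorem term_one (hH : ∀ g, g ∈ H) {B : Set (IrrCharacter G)} (hB : IsPBlock M B) :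
    ∑ b ∈ (blockSet M H).filter (fun b => IsInducedBlock M H b B), blockRank p b = blockRank p B := by
  classical
  have hfilter : (blockSet M H).filter (fun b => IsInducedBlock M H b B) = {setT (topIso hH) B} := by
    ext b
    rw [Finset.mem_filter, Finset.mem_singleton, mem_blockSet]
    constructor
    · rintro ⟨hb, hind⟩
      have hA : IsPBlock M (setT (topIso hH).symm b) := isPBlock_setT _ hb
      have h1 := isInduced_top hM hH hA
      rw [setT_setT_symm] at h1
      have h2 := induced_unique hM h1 hind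
      rw [← h2, setT_setT_symm]
    · rintro rfl
      exact ⟨isPBlock_setT _ hB, isInduced_top hM hH hB⟩
  rw [hfilter, Finset.sum_singleton, blockRank_setT]

end TermOne

section Count

/-- Counting through a relation. -/
theorem count_rel_a {α β : Type*} [DecidableEq α] [DecidableEq β] (S : Finset α) (U : Finset β) (R : α → β → Prop)
    (h1 : ∀ s ∈ S, ∃ u ∈ U, R s u) (h2 : ∀ u ∈ U, ∃ s ∈ S, R s u)
    (h3 : ∀ s ∈ S, ∀ s' ∈ S, ∀ u ∈ U, R s u → R s' u → s = s')
    (h4 : ∀ s ∈ S, ∀ u ∈ U, ∀ v ∈ U, R s u → R s v → u = v) : S.card = U.card := by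
  classical
  apply le_antisymm
  · refine Finset.card_le_card_of_forall_subsingleton R (fun a ha => ?_) (fun b hb => ?_)
    · obtain ⟨u, hu, hR⟩ := h1 a ha
      exact ⟨u, hu, hR⟩
    · rintro x ⟨hx, hxR⟩ y ⟨hy, hyR⟩
      exact h3 x hx y hy b hb hxR hyR
  · refine Finset.card_le_card_of_forall_subsingleton (fun u s => R s u) (fun a ha => ?_) (fun b hb => ?_)
    · obtain ⟨s, hs, hR⟩ := h2 a ha
      exact ⟨s, hs, hR⟩
    · rintro x ⟨hx, hxR⟩ y ⟨hy, hyR⟩
      exact h4 b hb x hx y hy hxR hyR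

theorem count_rel_b {α β : Type*} [DecidableEq α] (S : Finset α) (U : Finset β) (R : α → β → Prop) (hU : U.Nonempty)
    (h1 : ∀ s ∈ S, ∃ u ∈ U, R s u) (h2 : ∀ u ∈ U, ∃ s ∈ S, R s u)
    (h3 : ∀ s ∈ S, ∀ s' ∈ S, ∀ u ∈ U, R s u → R s' u → s = s')
    (h5 : ∀ s ∈ S, ∀ u ∈ U, ∀ v ∈ U, R s u → R s v) : S.card = 1 := by
  obtain ⟨u₀, hu₀⟩ := hU
  obtain ⟨s₀, hs₀, hR⟩ := h2 u₀ hu₀
  rw [Finset.card_eq_one]
  refine ⟨s₀, ?_⟩
  ext s
  rw [Finset.mem_singleton]
  constructor
  · intro hs
    obtain ⟨u, hu, hsu⟩ := h1 s hs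
    exact h3 s hs s₀ hs₀ u₀ hu₀ (h5 s hs u hu u₀ hu₀ hsu) hR
  · rintro rfl
    exact hs₀

theorem exists_reps {G : Type u} [Group G] [Fintype G] (p : ℕ) :
    ∃ X : Finset G, (∀ x ∈ X, ∃ k : ℕ, orderOf x = p ^ k) ∧
      (∀ g : G, (∃ k : ℕ, orderOf g = p ^ k) → ∃! x, x ∈ X ∧ IsConj g x) ∧ (1 : G) ∈ X := by
  classical
  let r : G → G := fun g => (ConjClasses.mk g).out
  have hr : ∀ g, IsConj (r g) g := fun g => out_isConj _ g rfl
  have hr1 : r 1 = 1 := by
    have := hr 1
    exact isConj_one_right.1 this.symm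
  have hrr : ∀ a b, IsConj a b → r a = r b := fun a b h => by
    show (ConjClasses.mk a).out = (ConjClasses.mk b).out
    rw [ConjClasses.mk_eq_mk_iff_isConj.2 h]
  have hord : ∀ a b : G, IsConj a b → orderOf a = orderOf b := fun a b h => by
    obtain ⟨c, rfl⟩ := isConj_iff.1 h
    exact (orderOf_conj' a c).symm
  refine ⟨(Finset.univ.filter (fun g : G => ∃ k : ℕ, orderOf g = p ^ k)).image r, ?_, ?_, ?_⟩
  · intro x hx
    obtain ⟨g, hg, rfl⟩ := Finset.mem_image.1 hx
    obtain ⟨k, hk⟩ := (Finset.mem_filter.1 hg).2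
    exact ⟨k, by rw [hord _ _ (hr g), hk]⟩
  · intro g hg
    refine ⟨r g, ⟨Finset.mem_image.2 ⟨g, Finset.mem_filter.2 ⟨Finset.mem_univ _, hg⟩, rfl⟩, (hr g).symm⟩, ?_⟩
    rintro y ⟨hy, hgy⟩
    obtain ⟨a, ha, rfl⟩ := Finset.mem_image.1 hy
    have h1 : IsConj g a := hgy.trans (hr a)
    exact (hrr _ _ h1).symm
  · exact Finset.mem_image.2 ⟨1, Finset.mem_filter.2 ⟨Finset.mem_univ _, 0, by simp⟩, hr1⟩

theorem odd_dvd_24 {e : ℕ} (h : e ∣ 24) (h2 : ¬ 2 ∣ e) : e = 1 ∨ e = 3 := by
  have h3 := Nat.le_of_dvd (by norm_num) h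
  interval_cases e <;> omega

end Count

section Klein

variable {G : Type u} [Group G]

theorem klein_sq {P : Subgroup G} (hV : IsKleinFour P) {x : G} (hx : x ∈ P) : x * x = 1 := by
  have h := Monoid.pow_exponent_eq_one (⟨x, hx⟩ : P)
  rw [IsKleinFour.exponent_two, pow_two] at h
  exact congrArg Subtype.val h

theorem klein_comm {P : Subgroup G} (hV : IsKleinFour P) {x y : G} (hx : x ∈ P) (hy : y ∈ P) : x * y = y * x := by
  have h := klein_sq hV (P.mul_mem hx hy)
  have hx' : x⁻¹ = x := inv_eq_of_mul_eq_one_left (klein_sq hV hx)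
  have hy' : y⁻¹ = y := inv_eq_of_mul_eq_one_left (klein_sq hV hy)
  have h2 : (x * y)⁻¹ = x * y := inv_eq_of_mul_eq_one_left h
  rw [mul_inv_rev, hx', hy'] at h2
  exact h2.symm

theorem klein_cases [Finite G] {P : Subgroup G} (hV : IsKleinFour P) {x y z : G} (hx : x ∈ P) (hy : y ∈ P) (hz : z ∈ P)
    (hx1 : x ≠ 1) (hy1 : y ≠ 1) (hxy : x ≠ y) : z = x * y ∨ z = x ∨ z = y ∨ z = 1 := by
  classical
  letI : Fintype P := Fintype.ofFinite P
  have h := IsKleinFour.eq_finset_univ (x := (⟨x, hx⟩ : P)) (y := ⟨y, hy⟩)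
    (fun h => hx1 (congrArg Subtype.val h)) (fun h => hy1 (congrArg Subtype.val h)) (fun h => hxy (congrArg Subtype.val h))
  have h2 : (⟨z, hz⟩ : P) ∈ ({⟨x, hx⟩ * ⟨y, hy⟩, ⟨x, hx⟩, ⟨y, hy⟩, 1} : Finset P) := by
    rw [h]; exact Finset.mem_univ _
  simp only [Finset.mem_insert, Finset.mem_singleton] at h2
  rcases h2 with h3 | h3 | h3 | h3
  · left; exact congrArg Subtype.val h3
  · right; left; exact congrArg Subtype.val h3
  · right; right; left; exact congrArg Subtype.val h3
  · right; right; right; exact congrArg Subtype.val h3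

/-- An element acting with order three on a Klein four group is transitive on its involutions. -/
theorem klein_trans [Finite G] {P : Subgroup G} (hV : IsKleinFour P) {t : G} (htN : t ∈ Subgroup.normalizer (P : Set G))
    (htC : t ∉ Subgroup.centralizer (P : Set G)) (ht3 : t ^ 3 ∈ Subgroup.centralizer (P : Set G))
    {u v : G} (hu : u ∈ P) (hu1 : u ≠ 1) (hv : v ∈ P) (hv1 : v ≠ 1) : ∃ k : ℕ, t ^ k * u * (t ^ k)⁻¹ = v := by
  classical
  set σ : G → G := fun z => t * z * t⁻¹ with hσ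
  have hσP : ∀ {z}, z ∈ P → σ z ∈ P := fun {z} hz => (Subgroup.mem_normalizer_iff.1 htN z).1 hz
  have hσ1 : ∀ {z}, z ≠ 1 → σ z ≠ 1 := fun {z} hz h => hz (by
    have : t⁻¹ * (t * z * t⁻¹) * t = t⁻¹ * 1 * t := by rw [show t * z * t⁻¹ = 1 from h]
    simpa [mul_assoc] using this)
  have hσinj : ∀ {a b}, σ a = σ b → a = b := fun {a b} h => by
    have h' : t * a * t⁻¹ = t * b * t⁻¹ := h
    simpa using h'
  have hσmul : ∀ a b, σ (a * b) = σ a * σ b := fun a b => by
    simp only [hσ]; group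
  have hσ3 : ∀ {z}, z ∈ P → σ (σ (σ z)) = z := fun {z} hz => by
    have h1 := Subgroup.mem_centralizer_iff.1 ht3 z hz
    simp only [hσ]
    calc t * (t * (t * z * t⁻¹) * t⁻¹) * t⁻¹ = t ^ 3 * z * (t ^ 3)⁻¹ := by
          rw [show t ^ 3 = t * t * t by simp [pow_succ]]; group
      _ = z * t ^ 3 * (t ^ 3)⁻¹ := by rw [h1]
      _ = z := by group
  -- no fixed points
  have hnofix : ∀ {z}, z ∈ P → z ≠ 1 → σ z ≠ z := by
    intro z hz hz1 hfix
    apply htC
    rw [Subgroup.mem_centralizer_iff]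
    intro w hw
    have hw' : σ w = w := by
      by_cases hw1 : w = 1
      · simp [hw1, hσ]
      by_cases hwz : w = z
      · rw [hwz]; exact hfix
      -- σ w is one of w, z * w
      have hcases := klein_cases hV hz hw (hσP hw) hz1 hw1 (Ne.symm hwz)
      rcases hcases with h | h | h | h
      · exfalso
        have h2 : σ (σ w) = w := by
          rw [h, hσmul, hfix, h, ← mul_assoc, klein_sq hV hz, one_mul]
        have h3 := hσ3 hw
        rw [h2, h] at h3
        have h4 : z = 1 := by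
          have : z * w * w⁻¹ = w * w⁻¹ := by rw [h3]
          simpa using this
        exact hz1 h4
      · exfalso
        rw [← hfix] at h
        exact hwz (hσinj h)
      · exact h
      · exact absurd h (hσ1 hw1)
    have hw2 : t * w * t⁻¹ = w := hw'
    calc w * t = t * w * t⁻¹ * t := by rw [hw2]
      _ = t * w := by group
  by_cases huv : u = v
  · exact ⟨0, by simp [huv]⟩
  have h1 := hσP hu
  rcases klein_cases hV hu hv h1 hu1 hv1 huv with h | h | h | h
  · -- σ u = u * v
    refine ⟨2, ?_⟩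
    have h2 : σ (σ u) ∈ P := hσP h1
    have huvP : u * v ∈ P := P.mul_mem hu hv
    have huv1 : u * v ≠ 1 := by
      intro h3
      apply huv
      have : u * (u * v) = u * 1 := by rw [h3]
      rw [← mul_assoc, klein_sq hV hu, one_mul, mul_one] at this
      exact this.symm
    have h3 : σ (σ u) ≠ σ u := hnofix h1 (hσ1 hu1)
    have h4 : σ (σ u) ≠ u := by
      intro h5
      have h6 := hσ3 hu
      rw [h5] at h6
      exact hnofix hu hu1 h6
    have h5 : σ (σ u) = v := by
      rcases klein_cases hV hu hv h2 hu1 hv1 huv with h6 | h6 | h6 | h6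
      · exact absurd (h6.trans h.symm) h3
      · exact absurd h6 h4
      · exact h6
      · exact absurd h6 (hσ1 (hσ1 hu1))
    rw [← h5]
    simp only [hσ]
    rw [pow_two]
    group
  · exact absurd h (hnofix hu hu1)
  · exact ⟨1, by simpa [hσ] using h⟩
  · exact absurd h (hσ1 hu1)

end Klein

section Main

variable {G : Type u} [Group G] [Fintype G] {M : Ideal AlgInt} (hM : IsPModular 2 M)

include hM

theorem relIndex_dvd_24 {P T : Subgroup G} (hV : IsKleinFour P) (hTN : T ≤ Subgroup.normalizer (P : Set G)) :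
    (Subgroup.centralizer (P : Set G)).relIndex T ∣ 24 := by
  classical
  let ρ : T →* Equiv.Perm P := MonoidHom.comp (MulAut.toPerm P) (MonoidHom.comp P.normalizerMonoidHom (Subgroup.inclusion hTN))
  have hker : ρ.ker = (Subgroup.centralizer (P : Set G)).subgroupOf T := by
    ext t
    rw [MonoidHom.mem_ker, Subgroup.mem_subgroupOf]
    have h1 : ρ t = 1 ↔ (P.normalizerMonoidHom) (Subgroup.inclusion hTN t) = 1 := by
      show MulAut.toPerm P _ = 1 ↔ _
      constructor
      · intro h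
        ext z
        have := congrArg (fun e : Equiv.Perm P => e z) h
        exact congrArg Subtype.val this
      · intro h
        change MulAut.toPerm P (P.normalizerMonoidHom (Subgroup.inclusion hTN t)) = 1
        rw [h]
        rfl
    rw [h1, ← MonoidHom.mem_ker, Subgroup.normalizerMonoidHom_ker, Subgroup.mem_subgroupOf]
    rfl
  have h2 : (Subgroup.centralizer (P : Set G)).relIndex T = Nat.card ρ.range := by
    show ((Subgroup.centralizer (P : Set G)).subgroupOf T).index = _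
    rw [← hker, Subgroup.index_ker]
  rw [h2]
  have h3 : Nat.card ρ.range ∣ Nat.card (Equiv.Perm P) := Subgroup.card_subgroup_dvd_card _
  have h4 : Nat.card (Equiv.Perm P) = 24 := by
    rw [Nat.card_perm, IsKleinFour.card_four]
    rfl
  rwa [h4] at h3

/-- Blocks with the relation to an element of a Klein four group have defect two. -/
theorem rel_defect {B : Set (IrrCharacter G)} {P : Subgroup G} {c : Set (IrrCharacter (Subgroup.centralizer (P : Set G)))}
    [∀ x : G, Fintype (Subgroup.centralizer ({x} : Set G))]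
    (hmax : IsMaximalBrauerPair 2 M B P c) (hV : IsKleinFour P) {x u : G}
    {b : Set (IrrCharacter (Subgroup.centralizer ({x} : Set G)))} (hb : IsPBlock M b) (h : RelV 2 M P c x b u) :
    blockDefect 2 b = 2 := by
  classical
  letI := centFintype (G := G)
  obtain ⟨g, hg, hl⟩ := h
  have hab : ∀ x ∈ P, ∀ y ∈ P, x * y = y * x := fun x hx y hy => klein_comm hV hx hy
  have hQP : (cp g (pr x b)).1 ≤ P := chain_le hl
  have hPp : IsPGroup 2 P := hmax.1.1.1
  have hf : IsPBlock M (cp g (pr x b)).2 := by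
    show IsPBlock M (conjBlock (Subgroup.zpowers x) g (setT (prT x) b))
    rw [conjBlock_eq]
    exact isPBlock_setT _ (isPBlock_setT _ hb)
  have hD := fullyCentralized_of_abelian hM hmax hab hQP hf hl
  have hcard := card_defectGroup hM hf hD
  have hPC : P ≤ Subgroup.centralizer (((cp g (pr x b)).1 : Subgroup G) : Set G) :=
    fun z hz => Subgroup.mem_centralizer_iff.2 fun q hq => hab q (hQP hq) z hz
  have h1 : Nat.card (P.subgroupOf (Subgroup.centralizer (((cp g (pr x b)).1 : Subgroup G) : Set G))) = Nat.card P :=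
    Nat.card_congr (Subgroup.subgroupOfEquivOfLe hPC).toEquiv
  rw [h1, IsKleinFour.card_four] at hcard
  have h2 : blockDefect 2 (cp g (pr x b)).2 = blockDefect 2 b := by
    show blockDefect 2 (conjBlock (Subgroup.zpowers x) g (setT (prT x) b)) = _
    rw [conjBlock_eq, blockDefect_setT, blockDefect_setT]
  rw [h2] at hcard
  have h3 : 2 ^ 2 = 2 ^ blockDefect 2 b := by simpa using hcard
  exact (Nat.pow_right_injective (le_refl 2) h3).symm

/-- Blocks of the centralizer of a central involution of defect two have rank one. -/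
theorem rank_one_of_defect {x : G} (hx : orderOf x = 2) [Fintype (Subgroup.centralizer ({x} : Set G))]
    {b : Set (IrrCharacter (Subgroup.centralizer ({x} : Set G)))} (hb : IsPBlock M b) (hdef : blockDefect 2 b = 2) :
    blockRank 2 b = 1 := by
  have hxC : x ∈ Subgroup.centralizer ({x} : Set G) := Subgroup.mem_centralizer_singleton_iff.2 rfl
  have hz : ∀ g : Subgroup.centralizer ({x} : Set G), (⟨x, hxC⟩ : Subgroup.centralizer ({x} : Set G)) * g = g * ⟨x, hxC⟩ :=
    fun g => Subtype.ext (Subgroup.mem_centralizer_singleton_iff.1 g.2).symm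
  have ho : orderOf (⟨x, hxC⟩ : Subgroup.centralizer ({x} : Set G)) = 2 := by rw [Subgroup.orderOf_mk]; exact hx
  obtain ⟨_, _, _, _, _, _, _, _, _, h⟩ := central_v4_struct hM hz ho hb hdef
  exact h

/-- **S4637**. -/
theorem s4637 {B : Set (IrrCharacter G)} (hB : IsPBlock M B) {P : Subgroup G} (hPD : IsDefectGroup 2 M B P)
    (hV : IsKleinFour P) {c : Set (IrrCharacter (Subgroup.centralizer (P : Set G)))}
    (hc : IsInducedBlock M (Subgroup.centralizer (P : Set G)) c B) {T : Subgroup G}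
    (hT : ∀ g : G, g ∈ T ↔ (g ∈ Subgroup.normalizer (P : Set G) ∧ StabilizesBlock (Subgroup.centralizer (P : Set G)) c g))
    {e : ℕ} (he : (Subgroup.centralizer (P : Set G)).relIndex T = e) :
    (e = 1 ∨ e = 3) ∧ Nat.card B = 4 ∧ blockRank 2 B = e := by
  classical
  have hP := hM.isPrime
  letI hF : ∀ x : G, Fintype (Subgroup.centralizer ({x} : Set G)) := fun x => Fintype.ofFinite _
  letI := centFintype (G := G)
  have hab : ∀ x ∈ P, ∀ y ∈ P, x * y = y * x := fun x hx y hy => klein_comm hV hx hy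
  have hPp : IsPGroup 2 P := by
    obtain ⟨g, hg, Q, hQ⟩ := hPD
    rw [hQ]
    exact (Q.isPGroup').map _
  have hdefB : blockDefect 2 B = 2 := by
    have h1 := card_defectGroup hM hB hPD
    rw [IsKleinFour.card_four] at h1
    have h3 : 2 ^ 2 = 2 ^ blockDefect 2 B := by simpa using h1
    exact (Nat.pow_right_injective (le_refl 2) h3).symm
  have hpair : IsBrauerPairOf 2 M B P c := (isPair_iff_isInduced hM hPp).2 hc
  have hmax : IsMaximalBrauerPair 2 M B P c := by
    refine ⟨hpair, fun R g hRg hle => ?_⟩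
    obtain ⟨R₂, g₂, hle₂, hmax₂⟩ := exists_maximal_above hM R g hRg
    have h1 : R ≤ R₂ := chain_le hle₂
    have h2 : P ≤ R := chain_le hle
    have h3 := card_defectGroup hM hB (isDefectGroup_of_maximal hM hmax₂)
    have h4 := card_defectGroup hM hB hPD
    have h5 : P = R₂ := Subgroup.eq_of_le_of_card_ge (h2.trans h1) (by rw [h3, h4])
    exact le_antisymm (by rw [h5]; exact h1) h2
  have hPe := hmax.1.1
  have hTN : T ≤ Subgroup.normalizer (P : Set G) := fun t ht => ((hT t).1 ht).1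
  obtain ⟨-, hodd⟩ := inert_index hM hB hPD hab hc hT
  rw [he] at hodd
  have hdvd : e ∣ 24 := he ▸ relIndex_dvd_24 hM hV hTN
  have he13 := odd_dvd_24 hdvd hodd
  refine ⟨he13, ?_⟩
  -- nonidentity elements of `P`
  set U : Finset G := Finset.univ.filter (fun x => x ∈ P ∧ x ≠ 1) with hU
  have hUmem : ∀ x, x ∈ U ↔ x ∈ P ∧ x ≠ 1 := fun x => by simp [hU]
  have hUcard : U.card = 3 := by
    have h1 : Nat.card P = (Finset.univ.filter (fun x => x ∈ P)).card := Nat.subtype_card _ (by simp)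
    rw [IsKleinFour.card_four] at h1
    have h2 : U = (Finset.univ.filter (fun x => x ∈ P)).erase 1 := by
      ext x
      simp [hU, and_comm]
    rw [h2, Finset.card_erase_of_mem (by simp [P.one_mem]), ← h1]
  have hord : ∀ u ∈ P, u ≠ 1 → orderOf u = 2 := fun u hu hu1 =>
    orderOf_eq_prime (by rw [pow_two]; exact klein_sq hV hu) hu1
  have hUne : U.Nonempty := by
    rw [← Finset.card_pos, hUcard]
    norm_num
  -- the count `k(B) = 4`
  have hk4 : Nat.card B = 4 := by
    obtain ⟨u₀, hu₀⟩ := hUne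
    obtain ⟨hu₀P, hu₀1⟩ := (hUmem u₀).1 hu₀
    obtain ⟨b₀, hind₀, hrel₀⟩ := rel_surj hM hmax hu₀P (g := 1) (x := u₀) (by simp)
    exact v4_card_eq_four hM (hord u₀ hu₀P hu₀1) hB hdefB hind₀ (rel_defect hM hmax hV hind₀.1 hrel₀)
  refine ⟨hk4, ?_⟩
  -- the subsections
  obtain ⟨X, hX, hXrep, h1X⟩ := exists_reps (G := G) 2
  have hsum := s4511_finset hM hB X hX hXrep
  rw [← Finset.add_sum_erase X _ h1X, hk4] at hsum
  have h1C : ∀ g : G, g ∈ Subgroup.centralizer ({1} : Set G) := fun g =>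
    Subgroup.mem_centralizer_singleton_iff.2 (by simp)
  rw [term_one hM h1C hB] at hsum
  set S : Finset (Σ x : G, Set (IrrCharacter (Subgroup.centralizer ({x} : Set G)))) := (X.erase 1).sigma
    (fun x => (blockSet M (Subgroup.centralizer ({x} : Set G))).filter (fun b => IsInducedBlock M (Subgroup.centralizer ({x} : Set G)) b B)) with hS
  have hSmem : ∀ s, s ∈ S ↔ s.1 ∈ X ∧ s.1 ≠ 1 ∧ IsInducedBlock M (Subgroup.centralizer ({s.1} : Set G)) s.2 B := by
    intro s
    rw [hS, Finset.mem_sigma, Finset.mem_erase, Finset.mem_filter, mem_blockSet]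
    constructor
    · rintro ⟨⟨h1, h2⟩, -, h3⟩
      exact ⟨h2, h1, h3⟩
    · rintro ⟨h1, h2, h3⟩
      exact ⟨⟨h2, h1⟩, h3.1, h3⟩
  let R : (Σ x : G, Set (IrrCharacter (Subgroup.centralizer ({x} : Set G)))) → G → Prop := fun s u => RelV 2 M P c s.1 s.2 u
  have hR1 : ∀ s ∈ S, ∃ u ∈ U, R s u := by
    intro s hs
    obtain ⟨h1, h2, h3⟩ := (hSmem s).1 hs
    obtain ⟨u, hu, hu1, hr⟩ := rel_exists hM hmax (hX _ h1) h2 h3
    exact ⟨u, (hUmem u).2 ⟨hu, hu1⟩, hr⟩
  have hR2 : ∀ u ∈ U, ∃ s ∈ S, R s u := by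
    intro u hu
    obtain ⟨huP, hu1⟩ := (hUmem u).1 hu
    obtain ⟨x, ⟨hxX, hconj⟩, -⟩ := hXrep u ⟨1, by rw [hord u huP hu1]; rfl⟩
    obtain ⟨d, hd⟩ := isConj_iff.1 hconj
    have hgx : d⁻¹ * x * d⁻¹⁻¹ = u := by rw [← hd]; group
    have hx1 : x ≠ 1 := by
      rintro rfl
      apply hu1
      have : (1 : G) = u := by simpa using hgx
      exact this.symm
    obtain ⟨b, hind, hrel⟩ := rel_surj hM hmax huP hgx
    exact ⟨⟨x, b⟩, (hSmem _).2 ⟨hxX, hx1, hind⟩, hrel⟩
  have hR3 : ∀ s ∈ S, ∀ s' ∈ S, ∀ u ∈ U, R s u → R s' u → s = s' := by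
    rintro ⟨x, b⟩ hs ⟨x', b'⟩ hs' u hu hr hr'
    obtain ⟨h1, -, -⟩ := (hSmem _).1 hs
    obtain ⟨h1', -, -⟩ := (hSmem _).1 hs'
    obtain ⟨huP, hu1⟩ := (hUmem u).1 hu
    have hxx' : x = x' := by
      obtain ⟨g, hg, -⟩ := hr
      obtain ⟨g', hg', -⟩ := hr'
      have c1 : IsConj u x := (isConj_iff.2 ⟨g, hg⟩).symm
      have c2 : IsConj u x' := (isConj_iff.2 ⟨g', hg'⟩).symm
      exact (hXrep u ⟨1, by rw [hord u huP hu1]; rfl⟩).unique ⟨h1, c1⟩ ⟨h1', c2⟩
    subst hxx'
    have h' : b = b' := rel_unique hM hPe hr hr'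
    rw [h']
  -- every local block has rank one
  have hrank1 : ∀ s ∈ S, blockRank 2 s.2 = 1 := by
    intro s hs
    obtain ⟨u, hu, hr⟩ := hR1 s hs
    obtain ⟨-, -, h3⟩ := (hSmem s).1 hs
    obtain ⟨huP, hu1⟩ := (hUmem u).1 hu
    have hdef := rel_defect hM hmax hV h3.1 hr
    obtain ⟨g, hg, -⟩ := hr
    have hx2 : orderOf s.1 = 2 := by
      rw [← orderOf_conj' s.1 g, hg]
      exact hord u huP hu1
    exact rank_one_of_defect hM hx2 h3.1 hdef
  have hsumS : ∑ x ∈ X.erase 1, ∑ b ∈ (blockSet M (Subgroup.centralizer ({x} : Set G))).filter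
      (fun b => IsInducedBlock M (Subgroup.centralizer ({x} : Set G)) b B), blockRank 2 b = S.card := by
    rw [hS, Finset.card_sigma]
    refine Finset.sum_congr rfl fun x hx => ?_
    rw [Finset.card_eq_sum_ones]
    refine Finset.sum_congr rfl fun b hb => ?_
    refine hrank1 ⟨x, b⟩ ?_
    rw [hS, Finset.mem_sigma]
    exact ⟨hx, hb⟩
  rw [hsumS] at hsum
  rcases he13 with rfl | rfl
  · -- `e = 1`
    have hTC : T ≤ Subgroup.centralizer (P : Set G) := Subgroup.relIndex_eq_one.1 he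
    have hR4 : ∀ s ∈ S, ∀ u ∈ U, ∀ v ∈ U, R s u → R s v → u = v := by
      intro s hs u hu v hv hr hr'
      obtain ⟨-, -, h3⟩ := (hSmem s).1 hs
      obtain ⟨t, htN, hts, htuv⟩ := rel_orbit hM hmax hab h3.1 hr hr'
      have htC := hTC ((hT t).2 ⟨htN, hts⟩)
      have h5 := Subgroup.mem_centralizer_iff.1 htC u ((hUmem u).1 hu).1
      rw [← htuv, ← h5]
      group
    have hcardS := count_rel_a S U R hR1 hR2 hR3 hR4
    rw [hcardS, hUcard] at hsum
    omega
  · -- `e = 3`
    have hCT : Subgroup.centralizer (P : Set G) ≤ T := fun z hz =>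
      (hT z).2 ⟨Subgroup.centralizer_le_normalizer _ hz, stabilizes_of_mem_centralizer _ hz⟩
    obtain ⟨t, htT, htC⟩ : ∃ t ∈ T, t ∉ Subgroup.centralizer (P : Set G) := by
      by_contra hcon
      push Not at hcon
      have h1 : (Subgroup.centralizer (P : Set G)).relIndex T = 1 := Subgroup.relIndex_eq_one.2 hcon
      omega
    haveI hn : ((Subgroup.centralizer (P : Set G)).subgroupOf T).Normal := ambient_normal hCT hTN
    have ht3 : t ^ 3 ∈ Subgroup.centralizer (P : Set G) := by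
      have h1 := Subgroup.pow_index_mem ((Subgroup.centralizer (P : Set G)).subgroupOf T) (⟨t, htT⟩ : T)
      have h2 : ((Subgroup.centralizer (P : Set G)).subgroupOf T).index = 3 := he
      rw [h2] at h1
      exact h1
    have hR5 : ∀ s ∈ S, ∀ u ∈ U, ∀ v ∈ U, R s u → R s v := by
      intro s hs u hu v hv hr
      obtain ⟨huP, hu1⟩ := (hUmem u).1 hu
      obtain ⟨hvP, hv1⟩ := (hUmem v).1 hv
      obtain ⟨k, hk⟩ := klein_trans hV (hTN htT) htC ht3 huP hu1 hvP hv1
      obtain ⟨h1, h2⟩ := (hT _).1 (T.pow_mem htT k)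
      have := rel_trans hM hPe h1 h2 hr
      rwa [hk] at this
    have hcardS := count_rel_b S U R hUne hR1 hR2 hR3 hR5
    rw [hcardS] at hsum
    omega

end Main

end CfsgLib.Block
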